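import Mathlib
import Cfsg.Agent.Helper43.OTDefs

set_option autoImplicit false

namespace Cfsg.Agent.Helper29.OT5972

open Module Polynomial Cfsg.Agent.Helper90.HT Cfsg.Agent.Helper43.OT

universe u

section geom

variable {F : Type*} [Field F] {V : Type*} [AddCommGroup V] [Module F V] [FiniteDimensional F V]
  (h : V → V → F)

/-- INVB: involutions, structure. -/
theorem ot_inv_b (hh : IsHerm (RingHom.id F) h) (hnd : ∀ v, (∀ w, h v w = 0) → v = 0)
    (h2 : (2 : F) ≠ 0) (T : Module.End F V) (hT : HPres h T) (hT2 : T ^ 2 = 1) :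
    finrank F (LinearMap.ker (T - 1)) + finrank F (LinearMap.ker (T + 1)) = finrank F V ∧
    HNondegOn h (LinearMap.ker (T - 1)) ∧ HNondegOn h (LinearMap.ker (T + 1)) ∧
    ∀ W : Submodule F V, W.map T ≤ W →
      finrank F W = finrank F (W ⊓ LinearMap.ker (T - 1) : Submodule F V) +
        finrank F (W ⊓ LinearMap.ker (T + 1) : Submodule F V) := by
  have hTT : ∀ v : V, T (T v) = v := by
    intro v
    have h1 : (T ^ 2) v = v := by
      rw [hT2]
      rfl
    rw [pow_two] at h1
    exact h1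
  have hmemC : ∀ v : V, v ∈ LinearMap.ker (T - 1) ↔ T v = v := by
    intro v
    rw [LinearMap.mem_ker, LinearMap.sub_apply, sub_eq_zero]
    rfl
  have hmemD : ∀ v : V, v ∈ LinearMap.ker (T + 1) ↔ T v = -v := by
    intro v
    rw [LinearMap.mem_ker, LinearMap.add_apply, add_eq_zero_iff_eq_neg]
    rfl
  have hhalfC : ∀ v : V, (2 : F)⁻¹ • (v + T v) ∈ LinearMap.ker (T - 1) := by
    intro v
    rw [hmemC, map_smul, map_add, hTT, add_comm]
  have hhalfD : ∀ v : V, (2 : F)⁻¹ • (v - T v) ∈ LinearMap.ker (T + 1) := by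
    intro v
    rw [hmemD, map_smul, map_sub, hTT, ← smul_neg, neg_sub]
  have hsplit : ∀ v : V, v = (2 : F)⁻¹ • (v + T v) + (2 : F)⁻¹ • (v - T v) := by
    intro v
    rw [← smul_add]
    have e : v + T v + (v - T v) = (2 : F) • v := by
      rw [two_smul]
      abel
    rw [e, smul_smul, inv_mul_cancel₀ h2, one_smul]
  have hdisj : LinearMap.ker (T - 1) ⊓ LinearMap.ker (T + 1) = ⊥ := by
    rw [eq_bot_iff]
    intro v hv
    have h1 := (hmemC v).1 hv.1
    have h3 := (hmemD v).1 hv.2
    rw [h1] at h3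
    have h4 : v + v = 0 := by
      have e : v + v = v + -v := by rw [← h3]
      rw [e, add_neg_cancel]
    have h5 : (2 : F) • v = 0 := by
      rw [two_smul]
      exact h4
    rw [Submodule.mem_bot]
    exact (smul_eq_zero.1 h5).resolve_left h2
  have hsup : LinearMap.ker (T - 1) ⊔ LinearMap.ker (T + 1) = ⊤ := by
    rw [eq_top_iff]
    intro v _
    rw [hsplit v]
    exact Submodule.add_mem _ (Submodule.mem_sup_left (hhalfC v))
      (Submodule.mem_sup_right (hhalfD v))
  refine ⟨?_, ?_, ?_, ?_⟩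
  · have h1 := Submodule.finrank_sup_add_finrank_inf_eq (LinearMap.ker (T - 1))
      (LinearMap.ker (T + 1))
    rw [hsup, hdisj, finrank_top, finrank_bot, add_zero] at h1
    exact h1.symm
  · intro v hv hvC
    apply hnd
    intro w
    rw [hsplit w, hh.add_right]
    have hvT := (hmemC v).1 hv
    have e1 : h v ((2 : F)⁻¹ • (w + T w)) = 0 := hvC _ (hhalfC w)
    have e2 : h v ((2 : F)⁻¹ • (w - T w)) = 0 := by
      have hd := (hmemD _).1 (hhalfD w)
      have e3 := hT v ((2 : F)⁻¹ • (w - T w))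
      rw [hvT, hd, hh.neg_right] at e3
      have e4 : (2 : F) * h v ((2 : F)⁻¹ • (w - T w)) = 0 := by
        linear_combination (-1 : F) * e3
      exact (mul_eq_zero.1 e4).resolve_left h2
    rw [e1, e2, add_zero]
  · intro v hv hvD
    apply hnd
    intro w
    rw [hsplit w, hh.add_right]
    have hvT := (hmemD v).1 hv
    have e2 : h v ((2 : F)⁻¹ • (w - T w)) = 0 := hvD _ (hhalfD w)
    have e1 : h v ((2 : F)⁻¹ • (w + T w)) = 0 := by
      have hc := (hmemC _).1 (hhalfC w)
      have e3 := hT v ((2 : F)⁻¹ • (w + T w))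
      rw [hvT, hc, hh.neg_left] at e3
      have e4 : (2 : F) * h v ((2 : F)⁻¹ • (w + T w)) = 0 := by
        linear_combination (-1 : F) * e3
      exact (mul_eq_zero.1 e4).resolve_left h2
    rw [e1, e2, add_zero]
  · intro W hW
    have hWT : ∀ w ∈ W, T w ∈ W := fun w hw => hW (Submodule.mem_map_of_mem hw)
    have hsupW : (W ⊓ LinearMap.ker (T - 1)) ⊔ (W ⊓ LinearMap.ker (T + 1)) = W := by
      apply le_antisymm
      · exact sup_le inf_le_left inf_le_left
      · intro w hw
        rw [hsplit w]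
        refine Submodule.add_mem _ (Submodule.mem_sup_left ⟨?_, hhalfC w⟩)
          (Submodule.mem_sup_right ⟨?_, hhalfD w⟩)
        · exact W.smul_mem _ (W.add_mem hw (hWT w hw))
        · exact W.smul_mem _ (W.sub_mem hw (hWT w hw))
    have hinfW : (W ⊓ LinearMap.ker (T - 1)) ⊓ (W ⊓ LinearMap.ker (T + 1)) = ⊥ := by
      rw [eq_bot_iff, ← hdisj]
      exact inf_le_inf inf_le_right inf_le_right
    have h1 := Submodule.finrank_sup_add_finrank_inf_eq (W ⊓ LinearMap.ker (T - 1))
      (W ⊓ LinearMap.ker (T + 1))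
    rw [hsupW, hinfW, finrank_bot, add_zero] at h1
    exact h1

end geom

end Cfsg.Agent.Helper29.OT5972
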