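import Mathlib

/-! Piece B of CALL S1083 (helper64): a perfect-central-extension style first-isomorphism lemma. -/

namespace Cfsg.Agent.Helper29

theorem b2_quot_iso {S G Γ : Type*} [Group S] [Group G] [Group Γ] (θ : S →* G)
    (hθ : Function.Surjective θ) (hker : θ.ker = Subgroup.center S)
    (hG : IsSimpleGroup G) (hnc : ∃ x y : G, x * y ≠ y * x)
    (φ : S →* Γ) (hna : ∃ a b : S, φ a * φ b ≠ φ b * φ a) :
    Nonempty ((↥φ.range ⧸ Subgroup.center ↥φ.range) ≃* G) := by
  -- φ.ker ≤ θ.ker
  have hN : φ.ker ≤ θ.ker := by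
    have hnorm : (φ.ker.map θ).Normal := Subgroup.Normal.map inferInstance θ hθ
    rcases hnorm.eq_bot_or_eq_top with h | h
    · intro x hx
      have hx' : θ x ∈ φ.ker.map θ := Subgroup.mem_map_of_mem θ hx
      rw [h, Subgroup.mem_bot] at hx'
      exact hx'
    · exfalso
      obtain ⟨a, b, hab⟩ := hna
      have key : ∀ s : S, ∃ z ∈ Subgroup.center S, φ s = φ z := by
        intro s
        have hs : θ s ∈ φ.ker.map θ := by rw [h]; trivial
        obtain ⟨n, hn, hns⟩ := hs
        refine ⟨s * n⁻¹, ?_, ?_⟩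
        · rw [← hker, MonoidHom.mem_ker, map_mul, map_inv, hns, mul_inv_cancel]
        · rw [map_mul, map_inv, (MonoidHom.mem_ker).1 hn, inv_one, mul_one]
      obtain ⟨za, hza, ha⟩ := key a
      obtain ⟨zb, hzb, hb⟩ := key b
      apply hab
      rw [ha, hb, ← map_mul, ← map_mul, Subgroup.mem_center_iff.1 hza zb]
  -- the centre of G is trivial
  have hZG : Subgroup.center G = ⊥ := by
    rcases (inferInstance : (Subgroup.center G).Normal).eq_bot_or_eq_top with h | h
    · exact h
    · exfalso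
      obtain ⟨x, y, hxy⟩ := hnc
      have hy : y ∈ Subgroup.center G := by rw [h]; trivial
      exact hxy (Subgroup.mem_center_iff.1 hy x)
  -- the induced map ψ : φ.range →* G
  let ψ₀ : S ⧸ φ.ker →* G := QuotientGroup.lift φ.ker θ (fun x hx => hN hx)
  let e : S ⧸ φ.ker ≃* φ.range := QuotientGroup.quotientKerEquivRange φ
  let ψ : φ.range →* G := ψ₀.comp e.symm.toMonoidHom
  have hψ : ∀ s : S, ψ (φ.rangeRestrict s) = θ s := by
    intro s
    have h1 : e.symm (φ.rangeRestrict s) = (s : S ⧸ φ.ker) := by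
      rw [MulEquiv.symm_apply_eq]
      rfl
    show ψ₀ (e.symm (φ.rangeRestrict s)) = θ s
    rw [h1]
    rfl
  have hsurjR : ∀ x : φ.range, ∃ s : S, φ.rangeRestrict s = x := by
    intro x
    obtain ⟨s, hs⟩ := x.2
    exact ⟨s, Subtype.ext hs⟩
  have hψsurj : Function.Surjective ψ := by
    intro g
    obtain ⟨s, rfl⟩ := hθ g
    exact ⟨φ.rangeRestrict s, hψ s⟩
  have hψker : ψ.ker = Subgroup.center ↥φ.range := by
    ext x
    constructor
    · intro hx
      obtain ⟨s, rfl⟩ := hsurjR x
      rw [MonoidHom.mem_ker, hψ] at hx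
      have hs : s ∈ Subgroup.center S := by rw [← hker]; exact hx
      rw [Subgroup.mem_center_iff]
      intro y
      obtain ⟨t, rfl⟩ := hsurjR y
      rw [← map_mul, ← map_mul, Subgroup.mem_center_iff.1 hs t]
    · intro hx
      rw [MonoidHom.mem_ker]
      have hc : ψ x ∈ Subgroup.center G := by
        rw [Subgroup.mem_center_iff]
        intro g
        obtain ⟨y, rfl⟩ := hψsurj g
        rw [← map_mul, ← map_mul, Subgroup.mem_center_iff.1 hx y]
      rw [hZG, Subgroup.mem_bot] at hc
      exact hc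
  exact ⟨(QuotientGroup.quotientMulEquivOfEq hψker.symm).trans
    (QuotientGroup.quotientKerEquivOfSurjective ψ hψsurj)⟩

end Cfsg.Agent.Helper29
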