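import Cfsg.Agent.Helper64.B2Defs

/-! Piece E of CALL S1083 (helper64): transport of `POmega F (quadFormOdd 2 F)` to `Fin 5`. -/

open Matrix Cfsg Cfsg.Lie

namespace Cfsg.Agent.Helper29

open Cfsg.Agent.Helper64.B2

variable {F : Type*} [Field F]

theorem b2e_center_congr {K L : Type*} [Group K] [Group L] (e : K ≃* L) :
    Nonempty (K ⧸ Subgroup.center K ≃* L ⧸ Subgroup.center L) := by
  refine ⟨QuotientGroup.congr (Subgroup.center K) (Subgroup.center L) e ?_⟩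
  ext y
  constructor
  · rintro ⟨x, hx, rfl⟩
    rw [Subgroup.mem_center_iff]
    intro g
    obtain ⟨k, rfl⟩ := e.surjective g
    show e k * e x = e x * e k
    rw [← map_mul, ← map_mul, Subgroup.mem_center_iff.1 hx k]
  · intro hy
    refine ⟨e.symm y, ?_, e.apply_symm_apply y⟩
    show e.symm y ∈ Subgroup.center K
    rw [Subgroup.mem_center_iff]
    intro g
    apply e.injective
    rw [map_mul, map_mul, e.apply_symm_apply]
    exact Subgroup.mem_center_iff.1 hy (e g)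

theorem b2e_commutator_congr {A B : Type*} [Group A] [Group B] (e : A ≃* B) :
    Nonempty (↥(commutator A) ≃* ↥(commutator B)) := by
  have h : (commutator A).map (e : A →* B) = commutator B := by
    rw [commutator_def, commutator_def, Subgroup.map_commutator,
      Subgroup.map_top_of_surjective _ e.surjective]
  exact ⟨(e.subgroupMap (commutator A)).trans (MulEquiv.subgroupCongr h)⟩

theorem b2e_commutator_subgroup {Γ : Type*} [Group Γ] (H : Subgroup Γ) :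
    Nonempty (↥(commutator ↥H) ≃* ↥⁅H, H⁆) := by
  have h : (commutator ↥H).map H.subtype = ⁅H, H⁆ := by
    rw [commutator_def, Subgroup.map_commutator, ← MonoidHom.range_eq_map, Subgroup.range_subtype]
  exact ⟨((commutator ↥H).equivMapOfInjective H.subtype H.subtype_injective).trans
    (MulEquiv.subgroupCongr h)⟩

/-- The coordinate bijection `Unit ⊕ (Fin 2 ⊕ Fin 2) ≃ Fin 5`. -/
def b2eSigma : (Unit ⊕ (Fin 2 ⊕ Fin 2)) ≃ Fin 5 where
  toFun := Sum.elim (fun _ => 0) (Sum.elim ![1, 3] ![2, 4])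
  invFun := ![.inl (), .inr (.inl 0), .inr (.inr 0), .inr (.inl 1), .inr (.inr 1)]
  left_inv := by decide
  right_inv := by decide

theorem b2e_quad (w : Fin 5 → F) : Cfsg.quadFormOdd 2 F (w ∘ b2eSigma) = Q5 w := by
  simp [Cfsg.quadFormOdd, Q5, Fin.sum_univ_two, b2eSigma]
  ring

/-- Reindexing of the general linear group. -/
noncomputable def b2ePhi (F : Type*) [Field F] :
    GL (Unit ⊕ (Fin 2 ⊕ Fin 2)) F ≃* GL (Fin 5) F :=
  Units.mapEquiv (Matrix.reindexAlgEquiv F F b2eSigma).toMulEquiv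

theorem b2ePhi_val (g : GL (Unit ⊕ (Fin 2 ⊕ Fin 2)) F) :
    ((b2ePhi F g : GL (Fin 5) F) : Matrix (Fin 5) (Fin 5) F) =
      (g : Matrix (Unit ⊕ (Fin 2 ⊕ Fin 2)) (Unit ⊕ (Fin 2 ⊕ Fin 2)) F).submatrix
        b2eSigma.symm b2eSigma.symm := rfl

theorem b2ePhi_mulVec (g : GL (Unit ⊕ (Fin 2 ⊕ Fin 2)) F) (w : Fin 5 → F) :
    ((b2ePhi F g : GL (Fin 5) F) : Matrix (Fin 5) (Fin 5) F) *ᵥ w =
      ((g : Matrix (Unit ⊕ (Fin 2 ⊕ Fin 2)) (Unit ⊕ (Fin 2 ⊕ Fin 2)) F) *ᵥ (w ∘ b2eSigma)) ∘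
        b2eSigma.symm := by
  rw [b2ePhi_val, Matrix.submatrix_mulVec_equiv]
  rfl

theorem b2ePhi_mem_iff (g : GL (Unit ⊕ (Fin 2 ⊕ Fin 2)) F) :
    b2ePhi F g ∈ O5 F ↔ g ∈ Cfsg.isometryGroup F (Cfsg.quadFormOdd 2 F) := by
  constructor
  · intro h u v
    have h1 := h (u ∘ b2eSigma.symm)
    rw [b2ePhi_mulVec, ← b2e_quad, ← b2e_quad] at h1
    have e1 : (u ∘ b2eSigma.symm) ∘ b2eSigma = u := by
      funext x; simp
    rw [e1] at h1
    have e2 : ((((g : Matrix (Unit ⊕ (Fin 2 ⊕ Fin 2)) (Unit ⊕ (Fin 2 ⊕ Fin 2)) F) *ᵥ u) ∘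
        b2eSigma.symm) ∘ b2eSigma) =
        (g : Matrix (Unit ⊕ (Fin 2 ⊕ Fin 2)) (Unit ⊕ (Fin 2 ⊕ Fin 2)) F) *ᵥ u := by
      funext x; simp
    rw [e2] at h1
    exact h1
  · intro h w
    have h1 := h (w ∘ b2eSigma) (w ∘ b2eSigma)
    rw [b2ePhi_mulVec, ← b2e_quad, ← b2e_quad]
    have e2 : ((((g : Matrix (Unit ⊕ (Fin 2 ⊕ Fin 2)) (Unit ⊕ (Fin 2 ⊕ Fin 2)) F) *ᵥ
        (w ∘ b2eSigma)) ∘ b2eSigma.symm) ∘ b2eSigma) =
        (g : Matrix (Unit ⊕ (Fin 2 ⊕ Fin 2)) (Unit ⊕ (Fin 2 ⊕ Fin 2)) F) *ᵥ (w ∘ b2eSigma) := by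
      funext x; simp
    rw [e2]
    exact h1

theorem b2e_iso_O5 :
    Nonempty (↥(Cfsg.isometryGroup F (Cfsg.quadFormOdd 2 F)) ≃* ↥(O5 F)) := by
  have h : (Cfsg.isometryGroup F (Cfsg.quadFormOdd 2 F)).map
      ((b2ePhi F : GL (Unit ⊕ (Fin 2 ⊕ Fin 2)) F ≃* GL (Fin 5) F) :
        GL (Unit ⊕ (Fin 2 ⊕ Fin 2)) F →* GL (Fin 5) F) = O5 F := by
    ext x
    constructor
    · rintro ⟨g, hg, rfl⟩
      exact (b2ePhi_mem_iff g).2 hg
    · intro hx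
      refine ⟨(b2ePhi F).symm x, ?_, (b2ePhi F).apply_symm_apply x⟩
      show (b2ePhi F).symm x ∈ Cfsg.isometryGroup F (Cfsg.quadFormOdd 2 F)
      rw [← b2ePhi_mem_iff, (b2ePhi F).apply_symm_apply]
      exact hx
  exact ⟨((b2ePhi F).subgroupMap _).trans (MulEquiv.subgroupCongr h)⟩

theorem b2_pomega_transport :
    Nonempty (Cfsg.POmega F (Cfsg.quadFormOdd 2 F) ≃*
      (↥⁅O5 F, O5 F⁆ ⧸ Subgroup.center ↥⁅O5 F, O5 F⁆)) := by
  obtain ⟨e1⟩ := b2e_iso_O5 (F := F)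
  obtain ⟨e2⟩ := b2e_commutator_congr e1
  obtain ⟨e3⟩ := b2e_commutator_subgroup (O5 F)
  exact b2e_center_congr (e2.trans e3)

end Cfsg.Agent.Helper29
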