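import Mathlib
import Cfsg.Agent.Helper46.BGLG

/-! Piece DUAL of CALL S5951 (helper90): the number of `(n-m)`-subspaces of `F^n` equals the
number of `m`-subspaces (by the counting formula `bgl_grass_count`). -/

set_option autoImplicit false

namespace Cfsg.Agent.Helper29

open Cfsg.Agent.Helper46

/-- `∏_{j<k} (q^k - q^j)` is positive for `q ≥ 2`. -/
theorem bgl_gl_pos (q : ℕ) (hq : 2 ≤ q) (n k : ℕ) (hk : k ≤ n) :
    0 < ∏ j ∈ Finset.range k, (q ^ n - q ^ j) := by
  apply Finset.prod_pos
  intro j hj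
  have hj' : j < n := lt_of_lt_of_le (Finset.mem_range.1 hj) hk
  have : q ^ j < q ^ n := Nat.pow_lt_pow_right (by omega) hj'
  omega

/-- The symmetric counting identity. -/
theorem bgl_grass_count_sym {F : Type*} [Field F] [Fintype F] (n m : ℕ) (hmn : m ≤ n) :
    Nat.card {W : Submodule F (Fin n → F) // Module.finrank F ↥W = m} *
      ((∏ j ∈ Finset.range m, (Fintype.card F ^ m - Fintype.card F ^ j)) *
        (Fintype.card F ^ (m * (n - m)) *
          ∏ j ∈ Finset.range (n - m), (Fintype.card F ^ (n - m) - Fintype.card F ^ j))) =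
      ∏ j ∈ Finset.range n, (Fintype.card F ^ n - Fintype.card F ^ j) := by
  have h := bgl_grass_count (F := F) n m hmn
  rw [Fin.prod_univ_eq_prod_range (fun j => Fintype.card F ^ m - Fintype.card F ^ j) m,
    Fin.prod_univ_eq_prod_range (fun j => Fintype.card F ^ n - Fintype.card F ^ j) m] at h
  have hn : n = m + (n - m) := by omega
  have h2 : ∏ j ∈ Finset.range n, (Fintype.card F ^ n - Fintype.card F ^ j) =
      (∏ j ∈ Finset.range m, (Fintype.card F ^ n - Fintype.card F ^ j)) *
        ∏ i ∈ Finset.range (n - m), (Fintype.card F ^ n - Fintype.card F ^ (m + i)) := by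
    conv_lhs => rw [hn]
    rw [Finset.prod_range_add]
    rw [← hn]
  have h3 : ∏ i ∈ Finset.range (n - m), (Fintype.card F ^ n - Fintype.card F ^ (m + i)) =
      Fintype.card F ^ (m * (n - m)) *
        ∏ j ∈ Finset.range (n - m), (Fintype.card F ^ (n - m) - Fintype.card F ^ j) := by
    have h4 : ∀ i ∈ Finset.range (n - m),
        Fintype.card F ^ n - Fintype.card F ^ (m + i) =
          Fintype.card F ^ m * (Fintype.card F ^ (n - m) - Fintype.card F ^ i) := by
      intro i _
      rw [Nat.mul_sub, ← pow_add, ← pow_add, ← hn]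
    rw [Finset.prod_congr rfl h4, Finset.prod_mul_distrib, Finset.prod_const, Finset.card_range,
      ← pow_mul]
  rw [h2, h3, ← h]
  ring

theorem bgl_grass_dual {F : Type*} [Field F] [Fintype F] (n m : ℕ) (hmn : m ≤ n) :
    Nat.card {W : Submodule F (Fin n → F) // Module.finrank F ↥W = n - m} = Nat.card {W : Submodule F (Fin n → F) // Module.finrank F ↥W = m} := by
  have hq : 2 ≤ Fintype.card F := Fintype.one_lt_card
  have h1 := bgl_grass_count_sym (F := F) n m hmn
  have h2 := bgl_grass_count_sym (F := F) n (n - m) (Nat.sub_le n m)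
  have hnm : n - (n - m) = m := by omega
  rw [hnm] at h2
  have hpos1 : 0 < ∏ j ∈ Finset.range m, (Fintype.card F ^ m - Fintype.card F ^ j) :=
    bgl_gl_pos _ hq m m le_rfl
  have hpos2 : 0 < ∏ j ∈ Finset.range (n - m), (Fintype.card F ^ (n - m) - Fintype.card F ^ j) :=
    bgl_gl_pos _ hq (n - m) (n - m) le_rfl
  have hpos3 : 0 < Fintype.card F ^ (m * (n - m)) := Nat.pow_pos (by omega)
  have hpos : 0 < (∏ j ∈ Finset.range m, (Fintype.card F ^ m - Fintype.card F ^ j)) *
        (Fintype.card F ^ (m * (n - m)) *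
          ∏ j ∈ Finset.range (n - m), (Fintype.card F ^ (n - m) - Fintype.card F ^ j)) :=
    Nat.mul_pos hpos1 (Nat.mul_pos hpos3 hpos2)
  have h3 : Nat.card {W : Submodule F (Fin n → F) // Module.finrank F ↥W = n - m} *
      ((∏ j ∈ Finset.range m, (Fintype.card F ^ m - Fintype.card F ^ j)) *
        (Fintype.card F ^ (m * (n - m)) *
          ∏ j ∈ Finset.range (n - m), (Fintype.card F ^ (n - m) - Fintype.card F ^ j))) =
      Nat.card {W : Submodule F (Fin n → F) // Module.finrank F ↥W = m} *
      ((∏ j ∈ Finset.range m, (Fintype.card F ^ m - Fintype.card F ^ j)) *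
        (Fintype.card F ^ (m * (n - m)) *
          ∏ j ∈ Finset.range (n - m), (Fintype.card F ^ (n - m) - Fintype.card F ^ j))) := by
    rw [h1, ← h2, Nat.mul_comm (n - m) m]
    ring
  exact Nat.eq_of_mul_eq_mul_right hpos h3

end Cfsg.Agent.Helper29
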