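import Mathlib
import Cfsg.Agent.Helper46.BGLG
import Cfsg.Agent.Helper29.BGLDUAL

/-! Piece FLAG of CALL S5951 (helper90): the number of flags `U ≤ W` of subspaces of `F^n` with
`dim U = m`, `dim W = n - m`. -/

set_option autoImplicit false

namespace Cfsg.Agent.Helper29

open Cfsg.Agent.Helper46

/-- For a subspace `W` of dimension `k`, an injective linear map `F^k → V` with range `W`. -/
theorem bgl_exists_param {F : Type*} [Field F] {V : Type*} [AddCommGroup V] [Module F V]
    [FiniteDimensional F V] (k : ℕ) (W : Submodule F V) (hW : Module.finrank F ↥W = k) :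
    ∃ f : (Fin k → F) →ₗ[F] V, Function.Injective f ∧ LinearMap.range f = W := by
  have h : Module.finrank F ↥W = Module.finrank F (Fin k → F) := by
    rw [hW, Module.finrank_fin_fun]
  let e : (Fin k → F) ≃ₗ[F] ↥W := (LinearEquiv.ofFinrankEq _ _ h).symm
  refine ⟨W.subtype.comp e.toLinearMap, ?_, ?_⟩
  · exact W.injective_subtype.comp e.injective
  · rw [LinearMap.range_comp, LinearEquiv.range, Submodule.map_top, Submodule.range_subtype]

theorem bgl_flag_count {F : Type*} [Field F] [Fintype F] (n m : ℕ) (hmn : 2 * m ≤ n) :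
    Nat.card {P : Submodule F (Fin n → F) × Submodule F (Fin n → F) // P.1 ≤ P.2 ∧ Module.finrank F ↥P.1 = m ∧ Module.finrank F ↥P.2 = n - m}
      = Nat.card {W : Submodule F (Fin n → F) // Module.finrank F ↥W = n - m} * Nat.card {U : Submodule F (Fin (n - m) → F) // Module.finrank F ↥U = m} := by
  classical
  choose f hfinj hfrange using
    fun W : {W : Submodule F (Fin n → F) // Module.finrank F ↥W = n - m} =>
      bgl_exists_param (n - m) W.1 W.2
  have hle : ∀ (W : {W : Submodule F (Fin n → F) // Module.finrank F ↥W = n - m})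
      (U : Submodule F (Fin (n - m) → F)), U.map (f W) ≤ W.1 := by
    intro W U
    have h1 : U.map (f W) ≤ LinearMap.range (f W) := LinearMap.map_le_range
    rw [hfrange W] at h1
    exact h1
  have hfr : ∀ (W : {W : Submodule F (Fin n → F) // Module.finrank F ↥W = n - m})
      (U : Submodule F (Fin (n - m) → F)),
      Module.finrank F ↥(U.map (f W)) = Module.finrank F ↥U := by
    intro W U
    exact (Submodule.equivMapOfInjective (f W) (hfinj W) U).finrank_eq.symm
  have hmc : ∀ (W : {W : Submodule F (Fin n → F) // Module.finrank F ↥W = n - m})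
      (U : Submodule F (Fin n → F)), U ≤ W.1 → (U.comap (f W)).map (f W) = U := by
    intro W U hU
    apply Submodule.map_comap_eq_of_le
    rw [hfrange W]
    exact hU
  rw [← Nat.card_prod]
  symm
  apply Nat.card_congr
  refine Equiv.ofBijective
    (fun x => ⟨((x.2.1).map (f x.1), x.1.1), hle x.1 x.2.1, (hfr x.1 x.2.1).trans x.2.2, x.1.2⟩)
    ⟨?_, ?_⟩
  · rintro ⟨W1, U1⟩ ⟨W2, U2⟩ h
    have h1 : W1.1 = W2.1 := congrArg (fun P => P.1.2) h
    have hW : W1 = W2 := Subtype.ext h1
    subst hW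
    have h2 : U1.1.map (f W1) = U2.1.map (f W1) := congrArg (fun P => P.1.1) h
    have h3 : U1.1 = U2.1 := Submodule.map_injective_of_injective (hfinj W1) h2
    exact Prod.ext rfl (Subtype.ext h3)
  · rintro ⟨⟨U, W⟩, hUW, hU, hW⟩
    refine ⟨(⟨W, hW⟩, ⟨U.comap (f ⟨W, hW⟩), ?_⟩), ?_⟩
    · rw [← hfr ⟨W, hW⟩, hmc ⟨W, hW⟩ U hUW]
      exact hU
    · apply Subtype.ext
      apply Prod.ext
      · exact hmc ⟨W, hW⟩ U hUW
      · rfl

theorem bgl_flag_not_dvd_char {F : Type*} [Field F] [Fintype F] (p : ℕ) [Fact p.Prime] [CharP F p] (n m : ℕ) (hmn : 2 * m ≤ n) :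
    ¬ p ∣ Nat.card {P : Submodule F (Fin n → F) × Submodule F (Fin n → F) // P.1 ≤ P.2 ∧ Module.finrank F ↥P.1 = m ∧ Module.finrank F ↥P.2 = n - m} := by
  rw [bgl_flag_count n m hmn]
  intro h
  rcases (Nat.Prime.dvd_mul Fact.out).1 h with h1 | h1
  · exact bgl_grass_not_dvd_char (F := F) p n (n - m) (Nat.sub_le n m) h1
  · exact bgl_grass_not_dvd_char (F := F) p (n - m) m (by omega) h1

theorem bgl_flag_dvd {F : Type*} [Field F] [Fintype F] (p : ℕ) [Fact p.Prime] [CharP F p] (n m : ℕ) (hmn : 2 * m ≤ n) (r : ℕ) [Fact r.Prime] (hrp : r ≠ p)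
    (hr : r ∣ Nat.card {P : Submodule F (Fin n → F) × Submodule F (Fin n → F) // P.1 ≤ P.2 ∧ Module.finrank F ↥P.1 = m ∧ Module.finrank F ↥P.2 = n - m}) :
    (∃ j, j < m ∧ orderOf ((Fintype.card F : ℕ) : ZMod r) ∣ n - j) ∨ (∃ j, j < m ∧ orderOf ((Fintype.card F : ℕ) : ZMod r) ∣ n - m - j) := by
  rw [bgl_flag_count n m hmn] at hr
  rcases (Nat.Prime.dvd_mul Fact.out).1 hr with h1 | h1
  · left
    rw [bgl_grass_dual n m (by omega)] at h1
    exact bgl_grass_dvd (F := F) p n m (by omega) r hrp h1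
  · right
    exact bgl_grass_dvd (F := F) p (n - m) m (by omega) r hrp h1

end Cfsg.Agent.Helper29
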