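import Mathlib
import Cfsg.Prelude.Def_CaseTheorems
import Cfsg.Agent.S0514
import Cfsg.Agent.Helper1.PPrimeCore

/-! Piece CT of CALL S0508 (helper81): `C(t) = O(C(t)) S` for a central involution `t` of a
dihedral Sylow 2-subgroup `S`. -/

set_option autoImplicit false
open Cfsg

namespace Cfsg.Agent.Helper29

theorem bswd_cent {G : Type*} [Group G] [Finite G] (S : Sylow 2 G) (n : ℕ) (hn : 2 ≤ n)
    (hS : Nonempty ((S : Subgroup G) ≃* DihedralGroup n)) (t : G) (ht : orderOf t = 2)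
    (htZ : ∀ s ∈ (S : Subgroup G), s * t = t * s) (O : Subgroup G)
    (hO : O = (Cfsg.oddCore (Subgroup.centralizer ({t} : Set G))).map
      (Subgroup.centralizer ({t} : Set G)).subtype) :
    Odd (Nat.card O) ∧ O ≤ Subgroup.centralizer ({t} : Set G) ∧
      O ⊔ (S : Subgroup G) = Subgroup.centralizer ({t} : Set G) := by
  have hfact : Fact (Nat.Prime 2) := ⟨Nat.prime_two⟩
  obtain ⟨N, hNn, hNodd, k, hNk⟩ := Cfsg.Agent.S0514.result S n hn hS t ht
  have hKcop : (Nat.card (Cfsg.pPrimeCore 2 ↥(Subgroup.centralizer ({t} : Set G)))).Coprime 2 :=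
    Cfsg.Agent.Helper1.pPrimeCore_coprime 2
  have hNK : N ≤ Cfsg.pPrimeCore 2 ↥(Subgroup.centralizer ({t} : Set G)) :=
    Cfsg.Agent.Helper1.le_pPrimeCore hNn hNodd.coprime_two_right
  have hcardO : Nat.card O =
      Nat.card (Cfsg.pPrimeCore 2 ↥(Subgroup.centralizer ({t} : Set G))) := by
    rw [hO]
    exact Subgroup.card_map_of_injective (Subgroup.subtype_injective _)
  have hOcop : (Nat.card O).Coprime 2 := by rw [hcardO]; exact hKcop
  have hOC : O ≤ Subgroup.centralizer ({t} : Set G) := by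
    rw [hO]; exact Subgroup.map_subtype_le _
  have hSC : (S : Subgroup G) ≤ Subgroup.centralizer ({t} : Set G) := by
    intro s hs
    rw [Subgroup.mem_centralizer_iff]
    intro h hh
    rw [Set.mem_singleton_iff] at hh
    rw [hh]
    exact (htZ s hs).symm
  refine ⟨hOcop.odd_of_right, hOC, ?_⟩
  have hle : O ⊔ (S : Subgroup G) ≤ Subgroup.centralizer ({t} : Set G) := sup_le hOC hSC
  apply Subgroup.eq_of_le_of_card_ge hle
  -- index of the odd core is a power of two
  have hidx : (Cfsg.pPrimeCore 2 ↥(Subgroup.centralizer ({t} : Set G))).index ∣ 2 ^ k := by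
    rw [← hNk]; exact Subgroup.index_dvd_of_le hNK
  obtain ⟨j, -, hj⟩ := (Nat.dvd_prime_pow Nat.prime_two).1 hidx
  have hCcard : Nat.card ↥(Subgroup.centralizer ({t} : Set G)) = Nat.card O * 2 ^ j := by
    rw [hcardO, ← hj]
    exact (Subgroup.card_mul_index _).symm
  have h2G : 2 ^ j ∣ Nat.card G := by
    have h1 : 2 ^ j ∣ Nat.card ↥(Subgroup.centralizer ({t} : Set G)) := by
      rw [hCcard]; exact Dvd.intro_left _ rfl
    exact h1.trans (Subgroup.card_subgroup_dvd_card _)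
  have h2S : 2 ^ j ∣ Nat.card (S : Subgroup G) := S.pow_dvd_card_of_pow_dvd_card h2G
  obtain ⟨l, hl⟩ := IsPGroup.exists_card_eq S.isPGroup'
  have hcop : (Nat.card O).Coprime (Nat.card (S : Subgroup G)) := by
    rw [hl]; exact Nat.Coprime.pow_right l hOcop
  have hdvd : Nat.card O * Nat.card (S : Subgroup G) ∣ Nat.card ↥(O ⊔ (S : Subgroup G)) :=
    Nat.Coprime.mul_dvd_of_dvd_of_dvd hcop (Subgroup.card_dvd_of_le le_sup_left)
      (Subgroup.card_dvd_of_le le_sup_right)
  have hpos : 0 < Nat.card ↥(O ⊔ (S : Subgroup G)) := Nat.card_pos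
  have h1 : Nat.card O * Nat.card (S : Subgroup G) ≤ Nat.card ↥(O ⊔ (S : Subgroup G)) :=
    Nat.le_of_dvd hpos hdvd
  have h2 : 2 ^ j ≤ Nat.card (S : Subgroup G) := Nat.le_of_dvd Nat.card_pos h2S
  calc Nat.card ↥(Subgroup.centralizer ({t} : Set G)) = Nat.card O * 2 ^ j := hCcard
    _ ≤ Nat.card O * Nat.card (S : Subgroup G) := Nat.mul_le_mul_left _ h2
    _ ≤ Nat.card ↥(O ⊔ (S : Subgroup G)) := h1

end Cfsg.Agent.Helper29
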