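import Mathlib
import Cfsg.Agent.Helper55.DihedralSylow

/-! Piece FUS of CALL S0508 (helper81): a simple group with dihedral Sylow 2-subgroups has one
class of involutions. -/

set_option autoImplicit false
open Cfsg

namespace Cfsg.Agent.Helper29

open Cfsg.Agent.Helper55

theorem bswd_one_class {G : Type*} [Group G] [Finite G] [IsSimpleGroup G] (S : Sylow 2 G) (n : ℕ)
    (hn : 2 ≤ n) (hS : Nonempty ((S : Subgroup G) ≃* DihedralGroup n)) :
    ∀ x y : G, orderOf x = 2 → orderOf y = 2 → IsConj x y := by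
  obtain ⟨e⟩ := hS
  -- |G| ≥ 4
  have hcardS : Nat.card (S : Subgroup G) = 2 * n := by
    rw [Nat.card_congr e.toEquiv, DihedralGroup.nat_card]
  have hcardG : 4 ≤ Nat.card G := by
    have h1 : Nat.card (S : Subgroup G) ≤ Nat.card G :=
      Nat.le_of_dvd Nat.card_pos (Subgroup.card_subgroup_dvd_card _)
    omega
  -- every hom to C₂ is trivial
  have hA : ∀ (f : G →* Multiplicative (ZMod 2)) (g : G), f g = 1 := by
    intro f g
    rcases (MonoidHom.normal_ker f).eq_bot_or_eq_top with h | h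
    · exfalso
      have hinj : Function.Injective f := (MonoidHom.ker_eq_bot_iff f).1 h
      have h1 : Nat.card G ≤ Nat.card (Multiplicative (ZMod 2)) :=
        Nat.card_le_card_of_injective f hinj
      have h2 : Nat.card (Multiplicative (ZMod 2)) = 2 := by
        rw [Nat.card_eq_fintype_card]; rfl
      omega
    · have : g ∈ f.ker := by rw [h]; trivial
      exact (MonoidHom.mem_ker).1 this
  -- every reflection is conjugate to a rotation
  have hB : ∀ i : ZMod n, ∃ (g : G) (j : ZMod n), g * dRef e i * g⁻¹ = dRot e j := by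
    intro i
    by_contra hcon
    have hno : ∀ (g : G) (j : ZMod n), g * dRef e i * g⁻¹ ≠ dRot e j := by
      intro g j h
      exact hcon ⟨g, j, h⟩
    exact transfer_dihedralSign_ne_one S e i hno (hA _ _)
  -- every involution is conjugate to a rotation of order two
  have hC : ∀ w : G, orderOf w = 2 → ∃ (g : G) (j : ZMod n), g * w * g⁻¹ = dRot e j ∧
      orderOf (dRot e j) = 2 := by
    intro w hw
    have hord : ∀ g : G, orderOf (g * w * g⁻¹) = 2 := by
      intro g
      have := orderOf_injective (MulAut.conj g).toMonoidHom (MulAut.conj g).injective w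
      rw [← hw, ← this]
      rfl
    obtain ⟨g, ⟨j, hj⟩ | ⟨i, hi⟩⟩ := exists_conj_dRot_or_dRef S e w hw
    · exact ⟨g, j, hj, by rw [← hj]; exact hord g⟩
    · obtain ⟨g', j, hj⟩ := hB i
      refine ⟨g' * g, j, ?_, ?_⟩
      · rw [← hj, ← hi]; group
      · have h1 : g' * g * w * (g' * g)⁻¹ = dRot e j := by
          rw [← hj, ← hi]; group
        rw [← h1]; exact hord (g' * g)
  intro x y hx hy
  obtain ⟨g1, j1, h1, ho1⟩ := hC x hx
  obtain ⟨g2, j2, h2, ho2⟩ := hC y hy
  have heq : dRot e j1 = dRot e j2 := dRot_unique_of_orderOf e ho1 ho2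
  rw [isConj_iff]
  refine ⟨g2⁻¹ * g1, ?_⟩
  have h3 : g1 * x * g1⁻¹ = g2 * y * g2⁻¹ := by rw [h1, h2, heq]
  have h4 : g2⁻¹ * g1 * x * (g2⁻¹ * g1)⁻¹ = g2⁻¹ * (g1 * x * g1⁻¹) * g2 := by group
  rw [h4, h3]
  group

end Cfsg.Agent.Helper29
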