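import Mathlib

/-!
# S5975 piece ARITH (CALL by helper35): a prime `r ∤ q` dividing `|Sp_{2km}(q)| / |Sp_{2m}(q^k)|`
divides some `q^(2j) - 1` with `1 ≤ j ≤ km`, `k ∤ j`.
-/

set_option autoImplicit false

namespace Cfsg.Agent.Helper29

/-- PIECE ARITH -/
theorem c3e_arith (q k m r : ℕ) (hq : 2 ≤ q) (hk : 2 ≤ k) (hr : r.Prime) (hrq : ¬ r ∣ q)
    (h : r ∣ (q ^ ((k * m) ^ 2) * ∏ i ∈ Finset.range (k * m), (q ^ (2 * (i + 1)) - 1)) /
      ((q ^ k) ^ (m ^ 2) * ∏ i ∈ Finset.range m, ((q ^ k) ^ (2 * (i + 1)) - 1))) :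
    ∃ j, 1 ≤ j ∧ j ≤ k * m ∧ ¬ k ∣ j ∧ r ∣ q ^ (2 * j) - 1 := by
  have hq0 : 0 < q := by omega
  have hk0 : 0 < k := by omega
  obtain ⟨f, hf⟩ : ∃ f : ℕ → ℕ, ∀ i, f i = q ^ (2 * (i + 1)) - 1 := ⟨_, fun _ => rfl⟩
  have hsplit : ∏ i ∈ Finset.range (k * m), f i
      = (∏ i ∈ (Finset.range (k * m)).filter (fun i => k ∣ i + 1), f i)
        * ∏ i ∈ (Finset.range (k * m)).filter (fun i => ¬ k ∣ i + 1), f i :=
    (Finset.prod_filter_mul_prod_filter_not _ _ _).symm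
  have hdiv : ∏ i ∈ (Finset.range (k * m)).filter (fun i => k ∣ i + 1), f i
      = ∏ i ∈ Finset.range m, ((q ^ k) ^ (2 * (i + 1)) - 1) := by
    symm
    refine Finset.prod_nbij' (fun i => k * (i + 1) - 1) (fun i => (i + 1) / k - 1) ?_ ?_ ?_ ?_ ?_
    · intro i hi
      rw [Finset.mem_range] at hi
      rw [Finset.mem_filter, Finset.mem_range]
      have h1 : 1 ≤ k * (i + 1) := Nat.mul_pos hk0 (Nat.succ_pos i)
      have h2 : k * (i + 1) ≤ k * m := Nat.mul_le_mul_left k hi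
      refine ⟨by omega, ?_⟩
      rw [Nat.sub_add_cancel h1]
      exact dvd_mul_right k (i + 1)
    · intro i hi
      rw [Finset.mem_filter, Finset.mem_range] at hi
      obtain ⟨hi1, t, ht⟩ := hi
      rw [Finset.mem_range, ht, Nat.mul_div_cancel_left _ hk0]
      have ht1 : 1 ≤ t := by
        rcases Nat.eq_zero_or_pos t with h0 | h0
        · rw [h0, mul_zero] at ht
          omega
        · exact h0
      have h3 : k * t ≤ k * m := by omega
      have h4 : t ≤ m := Nat.le_of_mul_le_mul_left h3 hk0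
      omega
    · intro i hi
      have h1 : 1 ≤ k * (i + 1) := Nat.mul_pos hk0 (Nat.succ_pos i)
      show (k * (i + 1) - 1 + 1) / k - 1 = i
      rw [Nat.sub_add_cancel h1, Nat.mul_div_cancel_left _ hk0]
      rfl
    · intro i hi
      rw [Finset.mem_filter, Finset.mem_range] at hi
      obtain ⟨hi1, t, ht⟩ := hi
      have ht1 : 1 ≤ t := by
        rcases Nat.eq_zero_or_pos t with h0 | h0
        · rw [h0, mul_zero] at ht
          omega
        · exact h0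
      show k * ((i + 1) / k - 1 + 1) - 1 = i
      rw [ht, Nat.mul_div_cancel_left _ hk0, Nat.sub_add_cancel ht1, ← ht]
      rfl
    · intro i hi
      have h1 : 1 ≤ k * (i + 1) := Nat.mul_pos hk0 (Nat.succ_pos i)
      rw [hf, Nat.sub_add_cancel h1, ← pow_mul]
      congr 2
      ring
  have hpow : q ^ ((k * m) ^ 2) = (q ^ k) ^ (m ^ 2) * q ^ (k * m ^ 2 * (k - 1)) := by
    rw [← pow_mul, ← pow_add]
    congr 1
    obtain ⟨k', rfl⟩ : ∃ k', k = k' + 1 := ⟨k - 1, by omega⟩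
    rw [Nat.add_sub_cancel]
    ring
  have hN : q ^ ((k * m) ^ 2) * ∏ i ∈ Finset.range (k * m), (q ^ (2 * (i + 1)) - 1)
      = ((q ^ k) ^ (m ^ 2) * ∏ i ∈ Finset.range m, ((q ^ k) ^ (2 * (i + 1)) - 1))
        * (q ^ (k * m ^ 2 * (k - 1))
          * ∏ i ∈ (Finset.range (k * m)).filter (fun i => ¬ k ∣ i + 1), f i) := by
    have e : ∏ i ∈ Finset.range (k * m), (q ^ (2 * (i + 1)) - 1)
        = ∏ i ∈ Finset.range (k * m), f i :=
      Finset.prod_congr rfl (fun i _ => (hf i).symm)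
    rw [e, hsplit, hdiv, hpow]
    ring
  have hD : 0 < (q ^ k) ^ (m ^ 2) * ∏ i ∈ Finset.range m, ((q ^ k) ^ (2 * (i + 1)) - 1) := by
    apply Nat.mul_pos (pow_pos (pow_pos hq0 k) _)
    apply Finset.prod_pos
    intro i _
    have h1 : 1 ≤ k * (2 * (i + 1)) := Nat.mul_pos hk0 (by omega)
    have h2 : 2 ≤ (q ^ k) ^ (2 * (i + 1)) := by
      calc 2 ≤ q := hq
        _ = q ^ 1 := (pow_one q).symm
        _ ≤ q ^ (k * (2 * (i + 1))) := Nat.pow_le_pow_right hq0 h1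
        _ = (q ^ k) ^ (2 * (i + 1)) := pow_mul q k _
    omega
  rw [hN, Nat.mul_div_cancel_left _ hD] at h
  rcases (Nat.Prime.dvd_mul hr).1 h with h1 | h1
  · exact absurd (hr.dvd_of_dvd_pow h1) hrq
  · obtain ⟨i, hi, hri⟩ := (hr.prime.dvd_finset_prod_iff _).1 h1
    rw [Finset.mem_filter, Finset.mem_range] at hi
    refine ⟨i + 1, by omega, by omega, hi.2, ?_⟩
    rw [← hf]
    exact hri

end Cfsg.Agent.Helper29
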