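import Mathlib
import Cfsg.Agent.Helper98.C3A

/-!
# S5975 piece SIGMA (CALL by helper35): an invertible `K'`-semilinear map is semilinear for an
`F`-algebra automorphism of `K'`.
-/

set_option autoImplicit false

namespace Cfsg.Agent.Helper29

open Matrix Module

section abs

variable {F : Type*} [Field F] {K' : Type*} [Field K'] [Algebra F K'] {V : Type*}
  [AddCommGroup V] [Module F V] [Module K' V] [IsScalarTower F K' V] [FiniteDimensional F V]

/-- PIECE SIGMA -/
theorem c3e_sigma [Finite F] [Finite K'] [Nontrivial V] (T : Module.End F V)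
    (hN : Cfsg.Agent.Helper98.c3_N K' T) :
    ∃ σ : K' ≃ₐ[F] K', ∀ (c : K') (v : V), T (c • v) = σ c • T v := by
  obtain ⟨⟨g, -, hgT⟩, hsemi⟩ := hN
  choose σ₀ hσ₀ using hsemi
  have hinj : ∀ v, T v = 0 → v = 0 := by
    intro v hv
    have h1 : (g * T) v = v := by
      rw [hgT]
      rfl
    rw [Module.End.mul_apply, hv, map_zero] at h1
    exact h1.symm
  obtain ⟨v₀, hv₀⟩ := exists_ne (0 : V)
  have hw₀ : T v₀ ≠ 0 := fun h => hv₀ (hinj v₀ h)
  have hcancel : ∀ a b : K', a • T v₀ = b • T v₀ → a = b := by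
    intro a b h
    have h1 : (a - b) • T v₀ = 0 := by rw [sub_smul, h, sub_self]
    rcases smul_eq_zero.1 h1 with h2 | h2
    · exact sub_eq_zero.1 h2
    · exact absurd h2 hw₀
  have hadd : ∀ c c', σ₀ (c + c') = σ₀ c + σ₀ c' := by
    intro c c'
    apply hcancel
    rw [← hσ₀, add_smul, map_add, hσ₀, hσ₀, add_smul]
  have hmul : ∀ c c', σ₀ (c * c') = σ₀ c * σ₀ c' := by
    intro c c'
    apply hcancel
    rw [← hσ₀, mul_smul, hσ₀, hσ₀, mul_smul]
  have halg : ∀ a : F, σ₀ (algebraMap F K' a) = algebraMap F K' a := by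
    intro a
    apply hcancel
    rw [← hσ₀, algebraMap_smul, map_smul, algebraMap_smul]
  have hone : σ₀ 1 = 1 := by
    apply hcancel
    rw [← hσ₀, one_smul, one_smul]
  have hzero : σ₀ 0 = 0 := by
    apply hcancel
    rw [← hσ₀, zero_smul, map_zero, zero_smul]
  obtain ⟨fa, hfa⟩ : ∃ fa : K' →ₐ[F] K', ∀ c, fa c = σ₀ c :=
    ⟨{ toFun := σ₀
       map_one' := hone
       map_mul' := hmul
       map_zero' := hzero
       map_add' := hadd
       commutes' := halg }, fun _ => rfl⟩
  have hbij : Function.Bijective fa := by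
    have h1 : Function.Injective fa := fa.toRingHom.injective
    exact ⟨h1, Finite.injective_iff_surjective.1 h1⟩
  refine ⟨AlgEquiv.ofBijective fa hbij, fun c v => ?_⟩
  rw [AlgEquiv.ofBijective_apply, hfa]
  exact hσ₀ c v

end abs

end Cfsg.Agent.Helper29
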