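import Mathlib
import Cfsg.Prelude.Def_Characters
import Cfsg.Prelude.Def_Blocks
import Cfsg.Agent.Helper77.D1Defs2
import Cfsg.Agent.Helper55.D1IH
import Cfsg.Agent.Helper55.D1IJ
import Cfsg.Agent.Helper65.D1II
import Cfsg.Agent.Helper16.LocalRing
import Cfsg.Agent.Helper78.Counting

/-!
# CALL S4442B, piece SC, part (a) (helper29): counting the characters of degree prime to `p`

With `D1Hyp p x K` and the main theorem, the number of irreducible characters of degree prime to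
`p` is `∑_θ (e_θ + (p-1)/e_θ) / c_θ` (sum over `θ ∈ Irr(K)`; `e_θ = |stabUnits θ|`, `c_θ` the
number of `N_G(⟨x⟩)`-conjugates of `θ`).
-/

universe u
set_option autoImplicit false
open Cfsg Cfsg.Agent.Helper77
open scoped ComplexConjugate

namespace Cfsg.Agent.Helper29

variable {G : Type u} [Group G] [Finite G]

/-- The relation "conjugate under the normalizer of `⟨x⟩`" on `Irr(K)`. -/
def d1Rel (x : G) (K : Subgroup G) (θ θ' : Cfsg.IrrCharacter K) : Prop :=
  ∃ n : G, n * x * n⁻¹ ∈ Subgroup.zpowers x ∧ thetaConj K n (θ : K → ℂ) (θ' : K → ℂ)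

/-- The local weight `(e_θ + (p-1)/e_θ) / c_θ`. -/
noncomputable def d1Weight (p : ℕ) (x : G) (K : Subgroup G) (θ : Cfsg.IrrCharacter K) : ℚ :=
  ((Nat.card (stabUnits p x K (θ : K → ℂ)) +
      (p - 1) / Nat.card (stabUnits p x K (θ : K → ℂ)) : ℕ) : ℚ)
    / (Nat.card {θ' : Cfsg.IrrCharacter K // d1Rel x K θ θ'} : ℚ)

theorem d1_count (p : ℕ) [Fact p.Prime] (hmain : D1MainStmt G p) (hcc : D1CCStmt G p)
    (hinj : D1InjStmt G p) (x : G) (K : Subgroup G) (h : D1Hyp p x K) :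
    (Nat.card {χ : Cfsg.IrrCharacter G // ¬ p ∣ Cfsg.charDegree (χ : G → ℂ)} : ℚ)
      = ∑ᶠ θ : Cfsg.IrrCharacter K, d1Weight p x K θ := by
  classical
  have hp : p.Prime := Fact.out
  haveI : Fintype (Cfsg.IrrCharacter G) := Fintype.ofFinite _
  haveI : Fintype (Cfsg.IrrCharacter K) := Fintype.ofFinite _
  obtain ⟨M, hM⟩ := Cfsg.Agent.Helper78.exists_isPModular p hp
  have hi : ∀ (θ θ' : Cfsg.IrrCharacter K) (χ : Cfsg.IrrCharacter G),
      χ ∈ blkTheta K x (θ : K → ℂ) → χ ∈ blkTheta K x (θ' : K → ℂ) → d1Rel x K θ θ' := by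
    intro θ θ' χ h1 h2
    apply hinj M x K hM h θ θ'
    intro g
    have a := hcc M x K hM h θ χ h1 g
    have b := hcc M x K hM h θ' χ h2 g
    have c := Helper16.memLocalIdeal_sub hM.2.1 b a
    have e : Cfsg.centralChar (χ : G → ℂ) g - omTheta p x K (θ' : K → ℂ) g
        - (Cfsg.centralChar (χ : G → ℂ) g - omTheta p x K (θ : K → ℂ) g)
        = omTheta p x K (θ : K → ℂ) g - omTheta p x K (θ' : K → ℂ) g := by ring
    rw [e] at c
    exact c
  have hii : ∀ θ θ' : Cfsg.IrrCharacter K, d1Rel x K θ θ' →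
      blkTheta K x (θ' : K → ℂ) = blkTheta K x (θ : K → ℂ) := by
    rintro θ θ' ⟨n, hn, hθ⟩
    exact Helper55.d1_blk_conj p x K h θ θ' n hn hθ
  have hpG : p ∣ Nat.card G := by rw [← h.hx]; exact orderOf_dvd_natCard x
  obtain ⟨M₀, hM₀⟩ := hpG
  have hM₀p : ¬ p ∣ M₀ := by
    rintro ⟨t, rfl⟩
    apply h.hsq
    rw [hM₀]
    exact ⟨t, by ring⟩
  have hiii : ∀ θ : Cfsg.IrrCharacter K, Nat.card (blkTheta K x (θ : K → ℂ))
      = Nat.card (stabUnits p x K (θ : K → ℂ)) +
        (p - 1) / Nat.card (stabUnits p x K (θ : K → ℂ)) := by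
    intro θ
    obtain ⟨-, X, Y, c, ε, hXY, hdisj, hX, hY, -⟩ := hmain x K M₀ h hM₀p (by rw [hM₀]) θ
    rw [hXY, Nat.card_coe_set_eq, Set.ncard_union_eq hdisj (Set.toFinite X) (Set.toFinite Y),
      ← Nat.card_coe_set_eq, ← Nat.card_coe_set_eq, hX, hY]
  have hpt : ∀ χ : Cfsg.IrrCharacter G,
      (if ¬ p ∣ Cfsg.charDegree (χ : G → ℂ) then (1 : ℚ) else 0)
        = ∑ θ : Cfsg.IrrCharacter K, if χ ∈ blkTheta K x (θ : K → ℂ) then
            (Nat.card {θ' : Cfsg.IrrCharacter K // d1Rel x K θ θ'} : ℚ)⁻¹ else 0 := by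
    intro χ
    by_cases hχ : ¬ p ∣ Cfsg.charDegree (χ : G → ℂ)
    · rw [if_pos hχ]
      obtain ⟨θ₀, hθ₀⟩ := Helper65.d1_blk_exists p x K h χ hχ
      have hA : ∀ θ : Cfsg.IrrCharacter K, χ ∈ blkTheta K x (θ : K → ℂ) →
          Nat.card {θ' : Cfsg.IrrCharacter K // d1Rel x K θ θ'}
            = (Finset.univ.filter
                (fun θ' : Cfsg.IrrCharacter K => χ ∈ blkTheta K x (θ' : K → ℂ))).card := by
        intro θ hθ
        rw [Nat.card_eq_fintype_card, Fintype.card_subtype]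
        congr 1
        ext θ'
        simp only [Finset.mem_filter, Finset.mem_univ, true_and]
        constructor
        · intro hr
          rw [hii θ θ' hr]; exact hθ
        · intro h'
          exact hi θ θ' χ hθ h'
      rw [← Finset.sum_filter]
      rw [Finset.sum_congr rfl (fun θ hθ => by rw [hA θ (Finset.mem_filter.1 hθ).2])]
      rw [Finset.sum_const, nsmul_eq_mul, mul_inv_cancel₀]
      have hmem : θ₀ ∈ Finset.univ.filter
          (fun θ' : Cfsg.IrrCharacter K => χ ∈ blkTheta K x (θ' : K → ℂ)) := by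
        simp [hθ₀]
      exact_mod_cast (Finset.card_pos.2 ⟨θ₀, hmem⟩).ne'
    · rw [if_neg hχ]
      symm
      apply Finset.sum_eq_zero
      intro θ _
      rw [if_neg]
      intro hmem
      exact hχ (Helper55.d1_blk_notdvd p x K h θ χ hmem)
  rw [Nat.card_eq_fintype_card, Fintype.card_subtype, Finset.natCast_card_filter,
    Finset.sum_congr rfl (fun χ _ => hpt χ), Finset.sum_comm, finsum_eq_sum_of_fintype]
  refine Finset.sum_congr rfl (fun θ _ => ?_)
  rw [← Finset.sum_filter, Finset.sum_const, nsmul_eq_mul]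
  unfold d1Weight
  rw [← hiii θ, div_eq_mul_inv]
  congr 2
  rw [Nat.card_eq_fintype_card, Fintype.card_subtype]

end Cfsg.Agent.Helper29
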