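import Mathlib
import Cfsg.Statements.S4502
import Cfsg.Prelude.Def_Characters
import Cfsg.Prelude.Def_Blocks
import Cfsg.Agent.Helper77.D1Defs2
import Cfsg.Agent.Helper29.D1SCa
import Cfsg.Agent.Helper79.Quotient
import Cfsg.Agent.Helper79.S4441Setup
import Cfsg.Agent.Helper75.Ito
import Cfsg.Agent.Helper80.CharOrtho

/-!
# CALL S4442B, piece SC (helper29): S4502 (McKay for a Sylow subgroup of order `p`) from the main
theorem on blocks of defect one.

Transport of the `θ`-data of `(G, x, K)` to a subgroup `L` containing the normalizer of `⟨x⟩`, and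
the final assembly: both `G` and `N_G(P)` have `∑_θ (e_θ + (p-1)/e_θ)/c_θ` irreducible characters of
degree prime to `p`, and every irreducible character of `N_G(P)` has degree prime to `p` (Itô).
-/

universe u
set_option autoImplicit false
open Cfsg Cfsg.Agent.Helper77
open scoped ComplexConjugate

namespace Cfsg.Agent.Helper29

variable {G : Type u} [Group G] [Finite G]

omit [Finite G] in
theorem d1_hyp_subgroup (p : ℕ) (x : G) (K : Subgroup G) (h : D1Hyp p x K)
    (L : Subgroup G) (hxL : x ∈ L) (hKL : K ≤ L) :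
    D1Hyp p (⟨x, hxL⟩ : L) (K.subgroupOf L) := by
  refine ⟨?_, ?_, ?_, ?_⟩
  · rw [Subgroup.orderOf_mk]; exact h.hx
  · rw [Nat.card_congr (Subgroup.subgroupOfEquivOfLe hKL).toEquiv]; exact h.hK
  · intro g
    have h1 := h.hC (g : G)
    constructor
    · intro hg
      have hg' : (g : G) * x = x * (g : G) := congrArg Subtype.val hg
      obtain ⟨i, k, hk, hgk⟩ := h1.1 hg'
      refine ⟨i, ⟨k, hKL hk⟩, Subgroup.mem_subgroupOf.2 hk, ?_⟩
      apply Subtype.ext
      rw [hgk]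
      rfl
    · rintro ⟨i, k, hk, rfl⟩
      apply Subtype.ext
      exact h1.2 ⟨i, (k : G), Subgroup.mem_subgroupOf.1 hk, rfl⟩
  · intro hd
    exact h.hsq (hd.trans (Subgroup.card_subgroup_dvd_card L))

/-- Transport of the irreducible characters of `K` to `K.subgroupOf L`. -/
noncomputable def d1Beta (K L : Subgroup G) (hKL : K ≤ L) :
    Cfsg.IrrCharacter K ≃ Cfsg.IrrCharacter (K.subgroupOf L) where
  toFun θ := ⟨fun k' => (θ : K → ℂ) (Subgroup.subgroupOfEquivOfLe hKL k'),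
    (Helper79.isIrrCharacter_mulEquiv (Subgroup.subgroupOfEquivOfLe hKL)).2 θ.2⟩
  invFun θ' := ⟨fun k => (θ' : K.subgroupOf L → ℂ) ((Subgroup.subgroupOfEquivOfLe hKL).symm k),
    (Helper79.isIrrCharacter_mulEquiv (Subgroup.subgroupOfEquivOfLe hKL).symm).2 θ'.2⟩
  left_inv θ := Subtype.ext (funext fun k => by simp)
  right_inv θ' := Subtype.ext (funext fun k => by simp)

omit [Finite G] in
theorem d1_thetaConj_subgroup (K L : Subgroup G) (hKL : K ≤ L) (n : L)
    (θ₁ θ₂ : Cfsg.IrrCharacter K) :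
    thetaConj (K.subgroupOf L) n ((d1Beta K L hKL θ₁ : Cfsg.IrrCharacter (K.subgroupOf L)) :
        K.subgroupOf L → ℂ) ((d1Beta K L hKL θ₂ : Cfsg.IrrCharacter (K.subgroupOf L)) :
        K.subgroupOf L → ℂ)
      ↔ thetaConj K (n : G) (θ₁ : K → ℂ) (θ₂ : K → ℂ) := by
  unfold thetaConj
  constructor
  · intro H k k' hk
    have h1 := H ((Subgroup.subgroupOfEquivOfLe hKL).symm k)
      ((Subgroup.subgroupOfEquivOfLe hKL).symm k') (by
        apply Subtype.ext
        show (k' : G) = (n : G) * (k : G) * ((n : G))⁻¹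
        exact hk)
    show (θ₂ : K → ℂ) k' = (θ₁ : K → ℂ) k
    have h2 : (θ₂ : K → ℂ) ((Subgroup.subgroupOfEquivOfLe hKL)
        ((Subgroup.subgroupOfEquivOfLe hKL).symm k'))
        = (θ₁ : K → ℂ) ((Subgroup.subgroupOfEquivOfLe hKL)
          ((Subgroup.subgroupOfEquivOfLe hKL).symm k)) := h1
    rwa [MulEquiv.apply_symm_apply, MulEquiv.apply_symm_apply] at h2
  · intro H κ κ' hκ
    exact H (Subgroup.subgroupOfEquivOfLe hKL κ) (Subgroup.subgroupOfEquivOfLe hKL κ') (by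
      show ((κ' : L) : G) = (n : G) * ((κ : L) : G) * ((n : G))⁻¹
      rw [hκ]
      rfl)

omit [Finite G] in
theorem d1_stabUnits_subgroup (p : ℕ) (x : G) (K L : Subgroup G) (hxL : x ∈ L) (hKL : K ≤ L)
    (hNL : ∀ n : G, n * x * n⁻¹ ∈ Subgroup.zpowers x → n ∈ L) (θ : Cfsg.IrrCharacter K) :
    stabUnits p (⟨x, hxL⟩ : L) (K.subgroupOf L)
        ((d1Beta K L hKL θ : Cfsg.IrrCharacter (K.subgroupOf L)) : K.subgroupOf L → ℂ)
      = stabUnits p x K (θ : K → ℂ) := by
  ext u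
  constructor
  · rintro ⟨n, hn, hθ⟩
    refine ⟨(n : G), ?_, (d1_thetaConj_subgroup K L hKL n θ θ).1 hθ⟩
    have h1 := congrArg Subtype.val hn
    exact h1
  · rintro ⟨n, hn, hθ⟩
    have hnL : n ∈ L := hNL n (by rw [hn]; exact pow_mem (Subgroup.mem_zpowers x) _)
    refine ⟨⟨n, hnL⟩, Subtype.ext ?_, (d1_thetaConj_subgroup K L hKL ⟨n, hnL⟩ θ θ).2 hθ⟩
    exact hn

omit [Finite G] in
theorem d1_rel_subgroup (x : G) (K L : Subgroup G) (hxL : x ∈ L) (hKL : K ≤ L)
    (hNL : ∀ n : G, n * x * n⁻¹ ∈ Subgroup.zpowers x → n ∈ L) (θ₁ θ₂ : Cfsg.IrrCharacter K) :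
    d1Rel (⟨x, hxL⟩ : L) (K.subgroupOf L) (d1Beta K L hKL θ₁) (d1Beta K L hKL θ₂)
      ↔ d1Rel x K θ₁ θ₂ := by
  constructor
  · rintro ⟨n, hn, hθ⟩
    refine ⟨(n : G), ?_, (d1_thetaConj_subgroup K L hKL n θ₁ θ₂).1 hθ⟩
    obtain ⟨i, hi⟩ := Subgroup.mem_zpowers_iff.1 hn
    have h1 := congrArg Subtype.val hi
    rw [Subgroup.mem_zpowers_iff]
    exact ⟨i, h1⟩
  · rintro ⟨n, hn, hθ⟩
    have hnL : n ∈ L := hNL n hn
    refine ⟨⟨n, hnL⟩, ?_, (d1_thetaConj_subgroup K L hKL ⟨n, hnL⟩ θ₁ θ₂).2 hθ⟩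
    obtain ⟨i, hi⟩ := Subgroup.mem_zpowers_iff.1 hn
    rw [Subgroup.mem_zpowers_iff]
    exact ⟨i, Subtype.ext hi⟩

omit [Finite G] in
theorem d1_weight_subgroup (p : ℕ) (x : G) (K L : Subgroup G) (hxL : x ∈ L) (hKL : K ≤ L)
    (hNL : ∀ n : G, n * x * n⁻¹ ∈ Subgroup.zpowers x → n ∈ L) (θ : Cfsg.IrrCharacter K) :
    d1Weight p (⟨x, hxL⟩ : L) (K.subgroupOf L) (d1Beta K L hKL θ) = d1Weight p x K θ := by
  unfold d1Weight
  rw [d1_stabUnits_subgroup p x K L hxL hKL hNL θ]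
  congr 2
  exact (Nat.card_congr (Equiv.subtypeEquiv (d1Beta K L hKL)
    (fun θ' => (d1_rel_subgroup x K L hxL hKL hNL θ θ').symm))).symm

omit [Finite G] in
theorem d1_weight_sum_subgroup (p : ℕ) (x : G) (K L : Subgroup G) (hxL : x ∈ L) (hKL : K ≤ L)
    (hNL : ∀ n : G, n * x * n⁻¹ ∈ Subgroup.zpowers x → n ∈ L) :
    ∑ᶠ θ' : Cfsg.IrrCharacter (K.subgroupOf L), d1Weight p (⟨x, hxL⟩ : L) (K.subgroupOf L) θ'
      = ∑ᶠ θ : Cfsg.IrrCharacter K, d1Weight p x K θ := by
  rw [← finsum_comp_equiv (d1Beta K L hKL)]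
  exact finsum_congr (fun θ => d1_weight_subgroup p x K L hxL hKL hNL θ)

/-- PIECE SC: S4502 from the main theorem. -/
theorem s4502_of_main {G : Type u} [Group G] [Finite G] (p : ℕ) [Fact p.Prime]
    (hmain : ∀ (H : Type u) [Group H] [Finite H], Cfsg.Agent.Helper77.D1MainStmt H p)
    (hcc : ∀ (H : Type u) [Group H] [Finite H], Cfsg.Agent.Helper77.D1CCStmt H p)
    (hinj : ∀ (H : Type u) [Group H] [Finite H], Cfsg.Agent.Helper77.D1InjStmt H p)
    (hdiv : p ∣ Nat.card G) (hsq : ¬ p ^ 2 ∣ Nat.card G) (P : Sylow p G) :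
    Nat.card {χ : Cfsg.IrrCharacter G // ¬ p ∣ Cfsg.charDegree (χ : G → ℂ)} =
      Nat.card (ConjClasses (Subgroup.normalizer ((P : Subgroup G) : Set G))) := by
  classical
  haveI : Fintype G := Fintype.ofFinite G
  have hp : p.Prime := Fact.out
  have hn0 : Nat.card G ≠ 0 := Nat.card_pos.ne'
  have h1 : 1 ≤ (Nat.card G).factorization p := by
    rw [← hp.pow_dvd_iff_le_factorization hn0, pow_one]; exact hdiv
  have h2 : ¬ 2 ≤ (Nat.card G).factorization p := by
    rw [← hp.pow_dvd_iff_le_factorization hn0]; exact hsq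
  have hP : Nat.card P = p := by
    rw [Sylow.card_eq_multiplicity]
    have h3 : (Nat.card G).factorization p = 1 := by omega
    rw [h3, pow_one]
  obtain ⟨x, hx, hx1⟩ := Helper79.s4441_exists_ne_one P hP
  obtain ⟨hxo, hgen⟩ := Helper79.s4441_gen P hP x hx hx1
  obtain ⟨K, hK, hKcent, -, hC⟩ := Helper79.s4441_K P hP
  have h : D1Hyp p x K := ⟨hxo, hK, hC x hx hx1, hsq⟩
  have hxN : x ∈ Subgroup.normalizer ((P : Subgroup G) : Set G) := Subgroup.le_normalizer hx
  have hKN : K ≤ Subgroup.normalizer ((P : Subgroup G) : Set G) := fun k hk =>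
    Subgroup.centralizer_le_normalizer _ (hKcent k hk)
  have hNL : ∀ n : G, n * x * n⁻¹ ∈ Subgroup.zpowers x →
      n ∈ Subgroup.normalizer ((P : Subgroup G) : Set G) := by
    intro n hn
    apply Subgroup.mem_normalizer_fintype
    intro q hq
    obtain ⟨i, rfl⟩ := hgen q hq
    rw [← conj_pow]
    exact pow_mem ((Subgroup.zpowers_le.2 hx) hn) i
  have hG := d1_count p (hmain G) (hcc G) (hinj G) x K h
  have h' := d1_hyp_subgroup p x K h _ hxN hKN
  have hN := d1_count p (hmain _) (hcc _) (hinj _) _ _ h'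
  rw [d1_weight_sum_subgroup p x K _ hxN hKN hNL, ← hG] at hN
  have hcount : Nat.card {χ : Cfsg.IrrCharacter G // ¬ p ∣ Cfsg.charDegree (χ : G → ℂ)}
      = Nat.card {χ : Cfsg.IrrCharacter (Subgroup.normalizer ((P : Subgroup G) : Set G)) //
          ¬ p ∣ Cfsg.charDegree (χ : Subgroup.normalizer ((P : Subgroup G) : Set G) → ℂ)} := by
    exact_mod_cast hN.symm
  rw [hcount, ← Helper80.natCard_irr_eq_card_conjClasses]
  -- every irreducible character of the normalizer has degree prime to `p` (Itô)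
  have hall : ∀ χ : Cfsg.IrrCharacter (Subgroup.normalizer ((P : Subgroup G) : Set G)),
      ¬ p ∣ Cfsg.charDegree (χ : Subgroup.normalizer ((P : Subgroup G) : Set G) → ℂ) := by
    intro χ hdvd
    haveI : ((P : Subgroup G).subgroupOf
        (Subgroup.normalizer ((P : Subgroup G) : Set G))).Normal := Subgroup.normal_in_normalizer
    have hcomm := Helper79.s4441_comm P hP
    have hab : ∀ a ∈ (P : Subgroup G).subgroupOf (Subgroup.normalizer ((P : Subgroup G) : Set G)),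
        ∀ b ∈ (P : Subgroup G).subgroupOf (Subgroup.normalizer ((P : Subgroup G) : Set G)),
        a * b = b * a := by
      intro a ha b hb
      apply Subtype.ext
      have h3 := hcomm ⟨(a : G), Subgroup.mem_subgroupOf.1 ha⟩ ⟨(b : G), Subgroup.mem_subgroupOf.1 hb⟩
      have h4 := congrArg (Subtype.val : ((P : Subgroup G) : Type u) → G) h3
      exact h4
    have h3 := Helper75.ito_character χ.2 _ hab
    have h4 : ((P : Subgroup G).subgroupOf
        (Subgroup.normalizer ((P : Subgroup G) : Set G))).index ∣ (P : Subgroup G).index :=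
      Subgroup.relIndex_dvd_index_of_le Subgroup.le_normalizer
    exact P.not_dvd_index (hdvd.trans (h3.trans h4))
  exact Nat.card_congr (Equiv.subtypeUnivEquiv hall)

end Cfsg.Agent.Helper29
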