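import Cfsg.Agent.Helper17.D4Defs

/-! Piece A of CALL S1082 (helper17), seat helper29. -/

open Matrix Cfsg Cfsg.Lie

namespace Cfsg.Agent.Helper29

open Cfsg.Agent.Helper17.D4

variable {F : Type*} [Field F]

theorem d4_decomp_of
    (hL1 : ∀ g : GL (Fin 8) F, g ∈ O8 F → ∃ x ∈ G8 F, ∃ c : Fˣ,
      ((x * g : GL (Fin 8) F) : Matrix (Fin 8) (Fin 8) F) *ᵥ ![1, 0, 0, 0, 0, 0, 0, 0] = ![(c : F), 0, 0, 0, 0, 0, 0, 0] ∧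
      ((x * g : GL (Fin 8) F) : Matrix (Fin 8) (Fin 8) F) *ᵥ ![0, 0, 0, 0, 1, 0, 0, 0] = ![0, 0, 0, 0, ((c⁻¹ : Fˣ) : F), 0, 0, 0])
    (hL2 : ∀ g : GL (Fin 8) F, g ∈ O8 F → ∀ c1 : Fˣ,
      (g : Matrix (Fin 8) (Fin 8) F) *ᵥ ![1, 0, 0, 0, 0, 0, 0, 0] = ![(c1 : F), 0, 0, 0, 0, 0, 0, 0] →
      (g : Matrix (Fin 8) (Fin 8) F) *ᵥ ![0, 0, 0, 0, 1, 0, 0, 0] = ![0, 0, 0, 0, ((c1⁻¹ : Fˣ) : F), 0, 0, 0] →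
      ∃ x ∈ G8 F, ∃ c : Fˣ,
      ((x * g : GL (Fin 8) F) : Matrix (Fin 8) (Fin 8) F) *ᵥ ![1, 0, 0, 0, 0, 0, 0, 0] = ![(c1 : F), 0, 0, 0, 0, 0, 0, 0] ∧
      ((x * g : GL (Fin 8) F) : Matrix (Fin 8) (Fin 8) F) *ᵥ ![0, 0, 0, 0, 1, 0, 0, 0] = ![0, 0, 0, 0, ((c1⁻¹ : Fˣ) : F), 0, 0, 0] ∧
      ((x * g : GL (Fin 8) F) : Matrix (Fin 8) (Fin 8) F) *ᵥ ![0, 1, 0, 0, 0, 0, 0, 0] = ![0, (c : F), 0, 0, 0, 0, 0, 0] ∧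
      ((x * g : GL (Fin 8) F) : Matrix (Fin 8) (Fin 8) F) *ᵥ ![0, 0, 0, 0, 0, 1, 0, 0] = ![0, 0, 0, 0, 0, ((c⁻¹ : Fˣ) : F), 0, 0])
    (hL3 : ∀ g : GL (Fin 8) F, g ∈ O8 F → ∀ c1 c2 : Fˣ,
      (g : Matrix (Fin 8) (Fin 8) F) *ᵥ ![1, 0, 0, 0, 0, 0, 0, 0] = ![(c1 : F), 0, 0, 0, 0, 0, 0, 0] →
      (g : Matrix (Fin 8) (Fin 8) F) *ᵥ ![0, 0, 0, 0, 1, 0, 0, 0] = ![0, 0, 0, 0, ((c1⁻¹ : Fˣ) : F), 0, 0, 0] →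
      (g : Matrix (Fin 8) (Fin 8) F) *ᵥ ![0, 1, 0, 0, 0, 0, 0, 0] = ![0, (c2 : F), 0, 0, 0, 0, 0, 0] →
      (g : Matrix (Fin 8) (Fin 8) F) *ᵥ ![0, 0, 0, 0, 0, 1, 0, 0] = ![0, 0, 0, 0, 0, ((c2⁻¹ : Fˣ) : F), 0, 0] →
      ∃ x ∈ G8 F, ∃ c : Fˣ,
      ((x * g : GL (Fin 8) F) : Matrix (Fin 8) (Fin 8) F) *ᵥ ![1, 0, 0, 0, 0, 0, 0, 0] = ![(c1 : F), 0, 0, 0, 0, 0, 0, 0] ∧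
      ((x * g : GL (Fin 8) F) : Matrix (Fin 8) (Fin 8) F) *ᵥ ![0, 0, 0, 0, 1, 0, 0, 0] = ![0, 0, 0, 0, ((c1⁻¹ : Fˣ) : F), 0, 0, 0] ∧
      ((x * g : GL (Fin 8) F) : Matrix (Fin 8) (Fin 8) F) *ᵥ ![0, 1, 0, 0, 0, 0, 0, 0] = ![0, (c2 : F), 0, 0, 0, 0, 0, 0] ∧
      ((x * g : GL (Fin 8) F) : Matrix (Fin 8) (Fin 8) F) *ᵥ ![0, 0, 0, 0, 0, 1, 0, 0] = ![0, 0, 0, 0, 0, ((c2⁻¹ : Fˣ) : F), 0, 0] ∧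
      ((x * g : GL (Fin 8) F) : Matrix (Fin 8) (Fin 8) F) *ᵥ ![0, 0, 1, 0, 0, 0, 0, 0] = ![0, 0, (c : F), 0, 0, 0, 0, 0] ∧
      ((x * g : GL (Fin 8) F) : Matrix (Fin 8) (Fin 8) F) *ᵥ ![0, 0, 0, 0, 0, 0, 1, 0] = ![0, 0, 0, 0, 0, 0, ((c⁻¹ : Fˣ) : F), 0])
    (hD4 : ∀ g : GL (Fin 8) F, g ∈ O8 F → ∀ c1 c2 c3 : Fˣ,
      (g : Matrix (Fin 8) (Fin 8) F) *ᵥ ![1, 0, 0, 0, 0, 0, 0, 0] = ![(c1 : F), 0, 0, 0, 0, 0, 0, 0] →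
      (g : Matrix (Fin 8) (Fin 8) F) *ᵥ ![0, 0, 0, 0, 1, 0, 0, 0] = ![0, 0, 0, 0, ((c1⁻¹ : Fˣ) : F), 0, 0, 0] →
      (g : Matrix (Fin 8) (Fin 8) F) *ᵥ ![0, 1, 0, 0, 0, 0, 0, 0] = ![0, (c2 : F), 0, 0, 0, 0, 0, 0] →
      (g : Matrix (Fin 8) (Fin 8) F) *ᵥ ![0, 0, 0, 0, 0, 1, 0, 0] = ![0, 0, 0, 0, 0, ((c2⁻¹ : Fˣ) : F), 0, 0] →
      (g : Matrix (Fin 8) (Fin 8) F) *ᵥ ![0, 0, 1, 0, 0, 0, 0, 0] = ![0, 0, (c3 : F), 0, 0, 0, 0, 0] →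
      (g : Matrix (Fin 8) (Fin 8) F) *ᵥ ![0, 0, 0, 0, 0, 0, 1, 0] = ![0, 0, 0, 0, 0, 0, ((c3⁻¹ : Fˣ) : F), 0] →
      ∃ c4 : Fˣ, g = dg c1 c2 c3 c4 ∨ g = dg c1 c2 c3 c4 * sw)
    (g : GL (Fin 8) F) (hg : g ∈ O8 F) :
    ∃ x ∈ G8 F, ∃ c1 c2 c3 c4 : Fˣ, g = x * dg c1 c2 c3 c4 ∨ g = x * (dg c1 c2 c3 c4 * sw) := by
  obtain ⟨x1, hx1, c1, a1, a1'⟩ := hL1 g hg
  have hg1 : x1 * g ∈ O8 F := Subgroup.mul_mem _ (G8_le_O8 hx1) hg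
  obtain ⟨x2, hx2, c2, b1, b1', b2, b2'⟩ := hL2 (x1 * g) hg1 c1 a1 a1'
  have hg2 : x2 * (x1 * g) ∈ O8 F := Subgroup.mul_mem _ (G8_le_O8 hx2) hg1
  obtain ⟨x3, hx3, c3, d1, d1', d2, d2', d3, d3'⟩ :=
    hL3 (x2 * (x1 * g)) hg2 c1 c2 b1 b1' b2 b2'
  have hg3 : x3 * (x2 * (x1 * g)) ∈ O8 F := Subgroup.mul_mem _ (G8_le_O8 hx3) hg2
  obtain ⟨c4, h⟩ := hD4 _ hg3 c1 c2 c3 d1 d1' d2 d2' d3 d3'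
  refine ⟨(x3 * x2 * x1)⁻¹, Subgroup.inv_mem _
    (Subgroup.mul_mem _ (Subgroup.mul_mem _ hx3 hx2) hx1), c1, c2, c3, c4, ?_⟩
  have hgeq : g = (x3 * x2 * x1)⁻¹ * (x3 * (x2 * (x1 * g))) := by group
  rcases h with h | h
  · left; rw [← h]; exact hgeq
  · right; rw [← h]; exact hgeq

end Cfsg.Agent.Helper29
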