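import Cfsg.Agent.Helper17.D4Defs

/-! Small shared lemmas for the pieces L2, L3, D4 of CALL S1082 (helper17), seat helper29. -/

open Matrix Cfsg Cfsg.Lie

namespace Cfsg.Agent.Helper29

open Cfsg.Agent.Helper17.D4

variable {F : Type*} [Field F]

theorem d4_mulVec_smul_eq (M : Matrix (Fin 8) (Fin 8) F) (e e' w w' : Fin 8 → F) (a : F)
    (hM : M *ᵥ e = e') (hw : w = a • e) (hw' : w' = a • e') : M *ᵥ w = w' := by
  rw [hw, hw', Matrix.mulVec_smul, hM]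

theorem d4_B8_image (g : GL (Fin 8) F) (hg : g ∈ O8 F) (b e z e' : Fin 8 → F)
    (hz : z = (g : Matrix (Fin 8) (Fin 8) F) *ᵥ b)
    (he : (g : Matrix (Fin 8) (Fin 8) F) *ᵥ e = e') :
    B8 z e' = B8 b e := by
  rw [hz, ← he, O8_B8 g hg]

theorem d4_mulVec_ne_zero (g : GL (Fin 8) F) (b : Fin 8 → F) (hb : b ≠ 0) :
    (g : Matrix (Fin 8) (Fin 8) F) *ᵥ b ≠ 0 := by
  intro h0
  have h1 : ((g⁻¹ : GL (Fin 8) F) : Matrix (Fin 8) (Fin 8) F) *ᵥ
      ((g : Matrix (Fin 8) (Fin 8) F) *ᵥ b) = b := by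
    rw [Matrix.mulVec_mulVec, ← Units.val_mul, inv_mul_cancel, Units.val_one, Matrix.one_mulVec]
  rw [h0, Matrix.mulVec_zero] at h1
  exact hb h1.symm

end Cfsg.Agent.Helper29
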