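import Cfsg.Agent.Helper17.D4Defs
import Cfsg.Agent.Helper29.D4Lib

/-! Piece D4 of CALL S1082 (helper17), seat helper29. -/

open Matrix Cfsg Cfsg.Lie

namespace Cfsg.Agent.Helper29

open Cfsg.Agent.Helper17.D4

variable {F : Type*} [Field F]

theorem d4_diag_of_fix (g : GL (Fin 8) F) (hg : g ∈ O8 F) (c1 c2 c3 : Fˣ)
    (h1 : (g : Matrix (Fin 8) (Fin 8) F) *ᵥ ![1, 0, 0, 0, 0, 0, 0, 0] = ![(c1 : F), 0, 0, 0, 0, 0, 0, 0])
    (h1' : (g : Matrix (Fin 8) (Fin 8) F) *ᵥ ![0, 0, 0, 0, 1, 0, 0, 0] = ![0, 0, 0, 0, ((c1⁻¹ : Fˣ) : F), 0, 0, 0])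
    (h2 : (g : Matrix (Fin 8) (Fin 8) F) *ᵥ ![0, 1, 0, 0, 0, 0, 0, 0] = ![0, (c2 : F), 0, 0, 0, 0, 0, 0])
    (h2' : (g : Matrix (Fin 8) (Fin 8) F) *ᵥ ![0, 0, 0, 0, 0, 1, 0, 0] = ![0, 0, 0, 0, 0, ((c2⁻¹ : Fˣ) : F), 0, 0])
    (h3 : (g : Matrix (Fin 8) (Fin 8) F) *ᵥ ![0, 0, 1, 0, 0, 0, 0, 0] = ![0, 0, (c3 : F), 0, 0, 0, 0, 0])
    (h3' : (g : Matrix (Fin 8) (Fin 8) F) *ᵥ ![0, 0, 0, 0, 0, 0, 1, 0] = ![0, 0, 0, 0, 0, 0, ((c3⁻¹ : Fˣ) : F), 0]) :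
    ∃ c4 : Fˣ, g = dg c1 c2 c3 c4 ∨ g = dg c1 c2 c3 c4 * sw := by
  obtain ⟨w, hw⟩ : ∃ w : Fin 8 → F,
      w = (g : Matrix (Fin 8) (Fin 8) F) *ᵥ ![0, 0, 0, 1, 0, 0, 0, 0] := ⟨_, rfl⟩
  obtain ⟨w', hw'⟩ : ∃ w' : Fin 8 → F,
      w' = (g : Matrix (Fin 8) (Fin 8) F) *ᵥ ![0, 0, 0, 0, 0, 0, 0, 1] := ⟨_, rfl⟩
  have a4 : w 4 = 0 := by simpa [B8] using d4_B8_image g hg _ _ w _ hw h1
  have a0 : w 0 = 0 := by simpa [B8] using d4_B8_image g hg _ _ w _ hw h1'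
  have a5 : w 5 = 0 := by simpa [B8] using d4_B8_image g hg _ _ w _ hw h2
  have a1 : w 1 = 0 := by simpa [B8] using d4_B8_image g hg _ _ w _ hw h2'
  have a6 : w 6 = 0 := by simpa [B8] using d4_B8_image g hg _ _ w _ hw h3
  have a2 : w 2 = 0 := by simpa [B8] using d4_B8_image g hg _ _ w _ hw h3'
  have b4 : w' 4 = 0 := by simpa [B8] using d4_B8_image g hg _ _ w' _ hw' h1
  have b0 : w' 0 = 0 := by simpa [B8] using d4_B8_image g hg _ _ w' _ hw' h1'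
  have b5 : w' 5 = 0 := by simpa [B8] using d4_B8_image g hg _ _ w' _ hw' h2
  have b1 : w' 1 = 0 := by simpa [B8] using d4_B8_image g hg _ _ w' _ hw' h2'
  have b6 : w' 6 = 0 := by simpa [B8] using d4_B8_image g hg _ _ w' _ hw' h3
  have b2 : w' 2 = 0 := by simpa [B8] using d4_B8_image g hg _ _ w' _ hw' h3'
  obtain ⟨a, ha⟩ : ∃ a : F, a = w 3 := ⟨_, rfl⟩
  obtain ⟨b, hb⟩ : ∃ b : F, b = w 7 := ⟨_, rfl⟩
  obtain ⟨a', ha'⟩ : ∃ a' : F, a' = w' 3 := ⟨_, rfl⟩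
  obtain ⟨b', hb'⟩ : ∃ b' : F, b' = w' 7 := ⟨_, rfl⟩
  have hwform : w = ![0, 0, 0, a, 0, 0, 0, b] := by
    funext i; fin_cases i <;> simp [a0, a1, a2, a4, a5, a6, ha, hb]
  have hw'form : w' = ![0, 0, 0, a', 0, 0, 0, b'] := by
    funext i; fin_cases i <;> simp [b0, b1, b2, b4, b5, b6, ha', hb']
  have hQw : a * b = 0 := by
    have hQ : Q8 w = 0 := by rw [hw, (mem_O8 g).1 hg]; simp [Q8]
    rw [hwform] at hQ
    simpa [Q8] using hQ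
  have hQw' : a' * b' = 0 := by
    have hQ : Q8 w' = 0 := by rw [hw', (mem_O8 g).1 hg]; simp [Q8]
    rw [hw'form] at hQ
    simpa [Q8] using hQ
  have hBww : a * b' + b * a' = 1 := by
    have hB : B8 w w' = 1 := by rw [hw, hw', O8_B8 g hg]; simp [B8]
    rw [hwform, hw'form] at hB
    simpa [B8] using hB
  have hgv : ∀ v : Fin 8 → F, (g : Matrix (Fin 8) (Fin 8) F) *ᵥ v =
      ![(c1 : F) * v 0, (c2 : F) * v 1, (c3 : F) * v 2, a * v 3 + a' * v 7,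
        ((c1⁻¹ : Fˣ) : F) * v 4, ((c2⁻¹ : Fˣ) : F) * v 5, ((c3⁻¹ : Fˣ) : F) * v 6,
        b * v 3 + b' * v 7] := by
    intro v
    have hv : v = v 0 • ![1, 0, 0, 0, 0, 0, 0, 0] + v 1 • ![0, 1, 0, 0, 0, 0, 0, 0] +
        v 2 • ![0, 0, 1, 0, 0, 0, 0, 0] + v 3 • ![0, 0, 0, 1, 0, 0, 0, 0] +
        v 4 • ![0, 0, 0, 0, 1, 0, 0, 0] + v 5 • ![0, 0, 0, 0, 0, 1, 0, 0] +
        v 6 • ![0, 0, 0, 0, 0, 0, 1, 0] + v 7 • ![0, 0, 0, 0, 0, 0, 0, (1 : F)] := by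
      funext i; fin_cases i <;> simp
    conv_lhs => rw [hv]
    simp only [Matrix.mulVec_add, Matrix.mulVec_smul, h1, h1', h2, h2', h3, h3', ← hw, ← hw']
    rw [hwform, hw'form]
    funext i; fin_cases i <;> simp [mul_comm]
  by_cases h7 : b = 0
  · rw [h7, zero_mul, add_zero] at hBww
    have h3ne : a ≠ 0 := by
      intro h; rw [h, zero_mul] at hBww; exact zero_ne_one hBww
    have hb'v : b' = a⁻¹ := eq_inv_of_mul_eq_one_right hBww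
    have ha'v : a' = 0 := by
      rcases mul_eq_zero.1 hQw' with h | h
      · exact h
      · rw [hb'v] at h; exact absurd h (inv_ne_zero h3ne)
    refine ⟨Units.mk0 a h3ne, Or.inl ?_⟩
    apply Units.ext
    apply mat_ext_mulVec
    intro v
    rw [hgv v, dg_mulVec, h7, ha'v, hb'v]
    funext i; fin_cases i <;> simp
  · have h3z : a = 0 := (mul_eq_zero.1 hQw).resolve_right h7
    rw [h3z, zero_mul, zero_add] at hBww
    have ha'v : a' = b⁻¹ := eq_inv_of_mul_eq_one_right hBww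
    have hb'v : b' = 0 := by
      rcases mul_eq_zero.1 hQw' with h | h
      · rw [ha'v] at h; exact absurd h (inv_ne_zero h7)
      · exact h
    refine ⟨(Units.mk0 b h7)⁻¹, Or.inr ?_⟩
    apply Units.ext
    apply mat_ext_mulVec
    intro v
    rw [hgv v, Units.val_mul, ← Matrix.mulVec_mulVec, sw_mulVec, dg_mulVec, h3z, ha'v, hb'v]
    funext i; fin_cases i <;> simp

end Cfsg.Agent.Helper29
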