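import Cfsg.Agent.Helper17.D4Defs

/-! Piece D5 of CALL S1082 (helper17), seat helper29. -/

open Matrix Cfsg Cfsg.Lie

namespace Cfsg.Agent.Helper29

open Cfsg.Agent.Helper17.D4

variable {F : Type*} [Field F]

/-- Commutators of elements `y * t`, `y ∈ N`, `t` in a commuting set normalising `N`. -/
theorem d4_comm_aux {Γ : Type*} [Group Γ] (N : Subgroup Γ) (T : Set Γ)
    (hTn : ∀ t ∈ T, ∀ z ∈ N, t * z * t⁻¹ ∈ N) (hTc : ∀ t ∈ T, ∀ t' ∈ T, t * t' = t' * t)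
    (a b : Γ) (ha : ∃ y ∈ N, ∃ t ∈ T, a = y * t) (hb : ∃ y ∈ N, ∃ t ∈ T, b = y * t) :
    a * b * a⁻¹ * b⁻¹ ∈ N := by
  obtain ⟨y, hy, m, hm, rfl⟩ := ha
  obtain ⟨y', hy', m', hm', rfl⟩ := hb
  have e : y * m * (y' * m') * (y * m)⁻¹ * (y' * m')⁻¹ =
      y * (m * y' * m⁻¹) * (m' * y⁻¹ * m'⁻¹) * y'⁻¹ := by
    have hc := hTc m hm m' hm'
    have h1 : m * m' * m⁻¹ = m' := by rw [hc, mul_inv_cancel_right]
    calc y * m * (y' * m') * (y * m)⁻¹ * (y' * m')⁻¹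
        = y * (m * y' * m⁻¹) * (m * m' * m⁻¹) * y⁻¹ * m'⁻¹ * y'⁻¹ := by group
      _ = y * (m * y' * m⁻¹) * m' * y⁻¹ * m'⁻¹ * y'⁻¹ := by rw [h1]
      _ = y * (m * y' * m⁻¹) * (m' * y⁻¹ * m'⁻¹) * y'⁻¹ := by group
  rw [e]
  exact N.mul_mem (N.mul_mem (N.mul_mem hy (hTn m hm y' hy'))
    (hTn m' hm' _ (N.inv_mem hy))) (N.inv_mem hy')

/-- The diagonal elements normalise `G8`. -/
theorem d4_dg_normalizes
    (hN : ∀ (a b c d : Fˣ) (r : ℕ), r < 24 → ∀ t : F,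
      ∃ t' : F, dg a b c d * xg r t * (dg a b c d)⁻¹ = xg r t')
    (a b c d : Fˣ) (x : GL (Fin 8) F) (hx : x ∈ G8 F) :
    dg a b c d * x * (dg a b c d)⁻¹ ∈ G8 F := by
  have hle : G8 F ≤ (G8 F).comap (MulAut.conj (dg a b c d)).toMonoidHom := by
    unfold G8
    rw [Subgroup.closure_le]
    rintro g ⟨r, hr, t, rfl⟩
    obtain ⟨t', ht'⟩ := hN a b c d r hr t
    show (MulAut.conj (dg a b c d)) (xg r t) ∈
      Subgroup.closure {g | ∃ r < 24, ∃ t : F, g = xg r t}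
    rw [MulAut.conj_apply, ht']
    exact Subgroup.subset_closure ⟨r, hr, t', rfl⟩
  have h2 : (MulAut.conj (dg a b c d)) x ∈ G8 F := hle hx
  rw [MulAut.conj_apply] at h2
  exact h2

/-- The element `sw` normalises `G8`. -/
theorem d4_sw_normalizes
    (hS : ∀ r : ℕ, r < 24 → ∀ t : F, ∃ r' < 24, ∃ t' : F,
      (sw : GL (Fin 8) F) * xg r t * sw⁻¹ = xg r' t')
    (x : GL (Fin 8) F) (hx : x ∈ G8 F) :
    (sw : GL (Fin 8) F) * x * sw⁻¹ ∈ G8 F := by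
  have hle : G8 F ≤ (G8 F).comap (MulAut.conj (sw : GL (Fin 8) F)).toMonoidHom := by
    unfold G8
    rw [Subgroup.closure_le]
    rintro g ⟨r, hr, t, rfl⟩
    obtain ⟨r', hr', t', ht'⟩ := hS r hr t
    show (MulAut.conj (sw : GL (Fin 8) F)) (xg r t) ∈
      Subgroup.closure {g | ∃ r < 24, ∃ t : F, g = xg r t}
    rw [MulAut.conj_apply, ht']
    exact Subgroup.subset_closure ⟨r', hr', t', rfl⟩
  have h2 : (MulAut.conj (sw : GL (Fin 8) F)) x ∈ G8 F := hle hx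
  rw [MulAut.conj_apply] at h2
  exact h2

theorem d4_comm_mem_of
    (hdec : ∀ g : GL (Fin 8) F, g ∈ O8 F → ∃ x ∈ G8 F, ∃ c1 c2 c3 c4 : Fˣ, g = x * dg c1 c2 c3 c4 ∨ g = x * (dg c1 c2 c3 c4 * sw))
    (hN : ∀ (a b c d : Fˣ) (r : ℕ), r < 24 → ∀ t : F, ∃ t' : F, dg a b c d * xg r t * (dg a b c d)⁻¹ = xg r t')
    (hS : ∀ r : ℕ, r < 24 → ∀ t : F, ∃ r' < 24, ∃ t' : F, (sw : GL (Fin 8) F) * xg r t * sw⁻¹ = xg r' t')
    (hH : ∀ a b c : Fˣ, dg (a * b * c)⁻¹ a b c ∈ G8 F)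
    (a b : GL (Fin 8) F) (ha : a ∈ O8 F) (hb : b ∈ O8 F) : a * b * a⁻¹ * b⁻¹ ∈ G8 F := by
  obtain ⟨T, hT⟩ : ∃ T : Set (GL (Fin 8) F),
      T = {m | ∃ e : Fˣ, m = dg e 1 1 1 ∨ m = dg e 1 1 1 * sw} := ⟨_, rfl⟩
  have hdd : ∀ e e' : Fˣ, Commute (dg e 1 1 1 : GL (Fin 8) F) (dg e' 1 1 1) := by
    intro e e'
    show dg e 1 1 1 * dg e' 1 1 1 = dg e' 1 1 1 * dg e 1 1 1
    rw [dg_mul, dg_mul, mul_comm e e']
  have hds : ∀ e : Fˣ, Commute (dg e 1 1 1 : GL (Fin 8) F) sw := fun e => dg_sw_comm e 1 1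
  have hA : ∀ t ∈ T, ∀ e : Fˣ, Commute t (dg e 1 1 1) := by
    intro t ht e
    rw [hT] at ht
    obtain ⟨e0, h | h⟩ := ht
    · rw [h]; exact hdd e0 e
    · rw [h]; exact (hdd e0 e).mul_left (hds e).symm
  have hB : ∀ t ∈ T, Commute t (sw : GL (Fin 8) F) := by
    intro t ht
    rw [hT] at ht
    obtain ⟨e0, h | h⟩ := ht
    · rw [h]; exact hds e0
    · rw [h]; exact (hds e0).mul_left (Commute.refl _)
  have hTc : ∀ t ∈ T, ∀ t' ∈ T, t * t' = t' * t := by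
    intro t ht t' ht'
    have ht'' := ht'
    rw [hT] at ht''
    obtain ⟨e', h | h⟩ := ht''
    · rw [h]; exact (hA t ht e').eq
    · rw [h]; exact ((hA t ht e').mul_right (hB t ht)).eq
  have hTn : ∀ t ∈ T, ∀ z ∈ G8 F, t * z * t⁻¹ ∈ G8 F := by
    intro t ht z hz
    rw [hT] at ht
    obtain ⟨e0, h | h⟩ := ht
    · rw [h]; exact d4_dg_normalizes hN e0 1 1 1 z hz
    · rw [h]
      have e1 : dg e0 1 1 1 * sw * z * (dg e0 1 1 1 * sw)⁻¹ =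
          dg e0 1 1 1 * ((sw : GL (Fin 8) F) * z * sw⁻¹) * (dg e0 1 1 1)⁻¹ := by group
      rw [e1]
      exact d4_dg_normalizes hN e0 1 1 1 _ (d4_sw_normalizes hS z hz)
  have hform : ∀ g : GL (Fin 8) F, g ∈ O8 F → ∃ y ∈ G8 F, ∃ t ∈ T, g = y * t := by
    intro g hg
    obtain ⟨x, hx, c1, c2, c3, c4, h⟩ := hdec g hg
    have hsplit : dg c1 c2 c3 c4 =
        dg (c1 * c2 * c3 * c4) 1 1 1 * dg (c2 * c3 * c4)⁻¹ c2 c3 c4 := by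
      rw [dg_mul, one_mul, one_mul, one_mul]
      congr 1
      rw [mul_assoc c1 c2 c3, mul_assoc c1 (c2 * c3) c4, mul_inv_cancel_right]
    have hh : dg (c2 * c3 * c4)⁻¹ c2 c3 c4 ∈ G8 F := hH c2 c3 c4
    have hyG : x * (dg (c1 * c2 * c3 * c4) 1 1 1 * dg (c2 * c3 * c4)⁻¹ c2 c3 c4 *
        (dg (c1 * c2 * c3 * c4) 1 1 1)⁻¹) ∈ G8 F :=
      Subgroup.mul_mem _ hx (d4_dg_normalizes hN _ 1 1 1 _ hh)
    rcases h with h | h
    · refine ⟨_, hyG, dg (c1 * c2 * c3 * c4) 1 1 1, ?_, ?_⟩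
      · rw [hT]; exact ⟨_, Or.inl rfl⟩
      · rw [h, hsplit]; group
    · refine ⟨_, hyG, dg (c1 * c2 * c3 * c4) 1 1 1 * sw, ?_, ?_⟩
      · rw [hT]; exact ⟨_, Or.inr rfl⟩
      · rw [h, hsplit]; group
  exact d4_comm_aux (G8 F) T hTn hTc a b (hform a ha) (hform b hb)

end Cfsg.Agent.Helper29
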