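import Cfsg.Agent.Helper17.D4Defs
import Cfsg.Agent.Helper29.B2E

/-! Piece E of CALL S1082 (helper17): transport of `POmega F (quadFormPlus 4 F)` to `Fin 8`. -/

open Matrix Cfsg Cfsg.Lie

namespace Cfsg.Agent.Helper29

open Cfsg.Agent.Helper17.D4

variable {F : Type*} [Field F]

/-- The coordinate bijection `Fin 4 ⊕ Fin 4 ≃ Fin 8`. -/
def d4eSigma : (Fin 4 ⊕ Fin 4) ≃ Fin 8 where
  toFun := Sum.elim ![0, 1, 2, 3] ![4, 5, 6, 7]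
  invFun := ![.inl 0, .inl 1, .inl 2, .inl 3, .inr 0, .inr 1, .inr 2, .inr 3]
  left_inv := by decide
  right_inv := by decide

theorem d4e_quad (w : Fin 8 → F) : Cfsg.quadFormPlus 4 F (w ∘ d4eSigma) = Q8 w := by
  simp [Cfsg.quadFormPlus, Q8, Fin.sum_univ_four, d4eSigma]

/-- Reindexing of the general linear group. -/
noncomputable def d4ePhi (F : Type*) [Field F] :
    GL (Fin 4 ⊕ Fin 4) F ≃* GL (Fin 8) F :=
  Units.mapEquiv (Matrix.reindexAlgEquiv F F d4eSigma).toMulEquiv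

theorem d4ePhi_val (g : GL (Fin 4 ⊕ Fin 4) F) :
    ((d4ePhi F g : GL (Fin 8) F) : Matrix (Fin 8) (Fin 8) F) =
      (g : Matrix (Fin 4 ⊕ Fin 4) (Fin 4 ⊕ Fin 4) F).submatrix
        d4eSigma.symm d4eSigma.symm := rfl

theorem d4ePhi_mulVec (g : GL (Fin 4 ⊕ Fin 4) F) (w : Fin 8 → F) :
    ((d4ePhi F g : GL (Fin 8) F) : Matrix (Fin 8) (Fin 8) F) *ᵥ w =
      ((g : Matrix (Fin 4 ⊕ Fin 4) (Fin 4 ⊕ Fin 4) F) *ᵥ (w ∘ d4eSigma)) ∘
        d4eSigma.symm := by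
  rw [d4ePhi_val, Matrix.submatrix_mulVec_equiv]
  rfl

theorem d4ePhi_mem_iff (g : GL (Fin 4 ⊕ Fin 4) F) :
    d4ePhi F g ∈ O8 F ↔ g ∈ Cfsg.isometryGroup F (Cfsg.quadFormPlus 4 F) := by
  constructor
  · intro h u v
    have h1 := h (u ∘ d4eSigma.symm)
    rw [d4ePhi_mulVec, ← d4e_quad, ← d4e_quad] at h1
    have e1 : (u ∘ d4eSigma.symm) ∘ d4eSigma = u := by
      funext x; simp
    rw [e1] at h1
    have e2 : ((((g : Matrix (Fin 4 ⊕ Fin 4) (Fin 4 ⊕ Fin 4) F) *ᵥ u) ∘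
        d4eSigma.symm) ∘ d4eSigma) =
        (g : Matrix (Fin 4 ⊕ Fin 4) (Fin 4 ⊕ Fin 4) F) *ᵥ u := by
      funext x; simp
    rw [e2] at h1
    exact h1
  · intro h w
    have h1 := h (w ∘ d4eSigma) (w ∘ d4eSigma)
    rw [d4ePhi_mulVec, ← d4e_quad, ← d4e_quad]
    have e2 : ((((g : Matrix (Fin 4 ⊕ Fin 4) (Fin 4 ⊕ Fin 4) F) *ᵥ
        (w ∘ d4eSigma)) ∘ d4eSigma.symm) ∘ d4eSigma) =
        (g : Matrix (Fin 4 ⊕ Fin 4) (Fin 4 ⊕ Fin 4) F) *ᵥ (w ∘ d4eSigma) := by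
      funext x; simp
    rw [e2]
    exact h1

theorem d4e_iso_O8 :
    Nonempty (↥(Cfsg.isometryGroup F (Cfsg.quadFormPlus 4 F)) ≃* ↥(O8 F)) := by
  have h : (Cfsg.isometryGroup F (Cfsg.quadFormPlus 4 F)).map
      ((d4ePhi F : GL (Fin 4 ⊕ Fin 4) F ≃* GL (Fin 8) F) :
        GL (Fin 4 ⊕ Fin 4) F →* GL (Fin 8) F) = O8 F := by
    ext x
    constructor
    · rintro ⟨g, hg, rfl⟩
      exact (d4ePhi_mem_iff g).2 hg
    · intro hx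
      refine ⟨(d4ePhi F).symm x, ?_, (d4ePhi F).apply_symm_apply x⟩
      show (d4ePhi F).symm x ∈ Cfsg.isometryGroup F (Cfsg.quadFormPlus 4 F)
      rw [← d4ePhi_mem_iff, (d4ePhi F).apply_symm_apply]
      exact hx
  exact ⟨((d4ePhi F).subgroupMap _).trans (MulEquiv.subgroupCongr h)⟩

theorem d4_pomega_transport :
    Nonempty (Cfsg.POmega F (Cfsg.quadFormPlus 4 F) ≃*
      (↥⁅O8 F, O8 F⁆ ⧸ Subgroup.center ↥⁅O8 F, O8 F⁆)) := by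
  obtain ⟨e1⟩ := d4e_iso_O8 (F := F)
  obtain ⟨e2⟩ := b2e_commutator_congr e1
  obtain ⟨e3⟩ := b2e_commutator_subgroup (O8 F)
  exact b2e_center_congr (e2.trans e3)

end Cfsg.Agent.Helper29
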