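import Cfsg.Agent.Helper17.D4Defs

/-! Piece H of CALL S1082 (helper17), seat helper29. -/

open Matrix Cfsg Cfsg.Lie

namespace Cfsg.Agent.Helper29

open Cfsg.Agent.Helper17.D4

variable {F : Type*} [Field F]

theorem d4_h18 (s : Fˣ) :
    xg 18 (s : F) * xg 5 (-((s⁻¹ : Fˣ) : F)) * xg 18 (s : F) *
      (xg 18 (-1) * xg 5 1 * xg 18 (-1)) = dg s s⁻¹ 1 1 := by
  apply Units.ext
  apply mat_ext_mulVec
  intro v
  simp only [Units.val_mul, ← Matrix.mulVec_mulVec, xg_val, xm_mulVec_18, xm_mulVec_5, dg_mulVec]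
  have hs : (s : F) ≠ 0 := s.ne_zero
  funext i
  fin_cases i <;> simp <;> (try field_simp) <;> (try ring)

theorem d4_h18_mem (s : Fˣ) : (dg s s⁻¹ 1 1 : GL (Fin 8) F) ∈ G8 F := by
  rw [← d4_h18]
  exact Subgroup.mul_mem _ (Subgroup.mul_mem _ (Subgroup.mul_mem _ (xg_mem_G8 _ _)
    (xg_mem_G8 _ _)) (xg_mem_G8 _ _)) (Subgroup.mul_mem _ (Subgroup.mul_mem _ (xg_mem_G8 _ _)
    (xg_mem_G8 _ _)) (xg_mem_G8 _ _))

theorem d4_h19 (s : Fˣ) :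
    xg 19 (s : F) * xg 4 (-((s⁻¹ : Fˣ) : F)) * xg 19 (s : F) *
      (xg 19 (-1) * xg 4 1 * xg 19 (-1)) = dg s 1 s⁻¹ 1 := by
  apply Units.ext
  apply mat_ext_mulVec
  intro v
  simp only [Units.val_mul, ← Matrix.mulVec_mulVec, xg_val, xm_mulVec_19, xm_mulVec_4, dg_mulVec]
  have hs : (s : F) ≠ 0 := s.ne_zero
  funext i
  fin_cases i <;> simp <;> (try field_simp) <;> (try ring)

theorem d4_h19_mem (s : Fˣ) : (dg s 1 s⁻¹ 1 : GL (Fin 8) F) ∈ G8 F := by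
  rw [← d4_h19]
  exact Subgroup.mul_mem _ (Subgroup.mul_mem _ (Subgroup.mul_mem _ (xg_mem_G8 _ _)
    (xg_mem_G8 _ _)) (xg_mem_G8 _ _)) (Subgroup.mul_mem _ (Subgroup.mul_mem _ (xg_mem_G8 _ _)
    (xg_mem_G8 _ _)) (xg_mem_G8 _ _))

theorem d4_h21 (s : Fˣ) :
    xg 21 (s : F) * xg 2 (-((s⁻¹ : Fˣ) : F)) * xg 21 (s : F) *
      (xg 21 (-1) * xg 2 1 * xg 21 (-1)) = dg s 1 1 s⁻¹ := by
  apply Units.ext
  apply mat_ext_mulVec
  intro v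
  simp only [Units.val_mul, ← Matrix.mulVec_mulVec, xg_val, xm_mulVec_21, xm_mulVec_2, dg_mulVec]
  have hs : (s : F) ≠ 0 := s.ne_zero
  funext i
  fin_cases i <;> simp <;> (try field_simp) <;> (try ring)

theorem d4_h21_mem (s : Fˣ) : (dg s 1 1 s⁻¹ : GL (Fin 8) F) ∈ G8 F := by
  rw [← d4_h21]
  exact Subgroup.mul_mem _ (Subgroup.mul_mem _ (Subgroup.mul_mem _ (xg_mem_G8 _ _)
    (xg_mem_G8 _ _)) (xg_mem_G8 _ _)) (Subgroup.mul_mem _ (Subgroup.mul_mem _ (xg_mem_G8 _ _)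
    (xg_mem_G8 _ _)) (xg_mem_G8 _ _))

theorem d4_dg_mem (a b c : Fˣ) : dg (a * b * c)⁻¹ a b c ∈ G8 F := by
  have h1 := d4_h18_mem (F := F) a⁻¹
  have h2 := d4_h19_mem (F := F) b⁻¹
  have h3 := d4_h21_mem (F := F) c⁻¹
  rw [inv_inv] at h1 h2 h3
  have e : dg (a * b * c)⁻¹ a b c = dg a⁻¹ a 1 1 * dg b⁻¹ 1 b 1 * dg c⁻¹ 1 1 c := by
    rw [dg_mul, dg_mul]
    simp only [mul_one, one_mul, mul_inv]
  rw [e]
  exact Subgroup.mul_mem _ (Subgroup.mul_mem _ h1 h2) h3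

end Cfsg.Agent.Helper29
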