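import Cfsg.Agent.Helper17.D4Defs

/-! Piece L1 of CALL S1082 (helper17), seat helper29. -/

open Matrix Cfsg Cfsg.Lie

namespace Cfsg.Agent.Helper29

open Cfsg.Agent.Helper17.D4

variable {F : Type*} [Field F]

theorem d4_level1
    (hT : ∀ u : Fin 8 → F, u ≠ 0 → Q8 u = 0 →
      ∃ x ∈ G8 F, ∃ c : F, c ≠ 0 ∧ (x : Matrix (Fin 8) (Fin 8) F) *ᵥ u = ![c, 0, 0, 0, 0, 0, 0, 0])
    (hP : ∀ v : Fin 8 → F, Q8 v = 0 → v 4 ≠ 0 →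
      ∃ y ∈ G8 F, (y : Matrix (Fin 8) (Fin 8) F) *ᵥ ![1, 0, 0, 0, 0, 0, 0, 0] = ![1, 0, 0, 0, 0, 0, 0, 0] ∧
      (y : Matrix (Fin 8) (Fin 8) F) *ᵥ v = ![0, 0, 0, 0, v 4, 0, 0, 0])
    (g : GL (Fin 8) F) (hg : g ∈ O8 F) :
    ∃ x ∈ G8 F, ∃ c : Fˣ,
      ((x * g : GL (Fin 8) F) : Matrix (Fin 8) (Fin 8) F) *ᵥ ![1, 0, 0, 0, 0, 0, 0, 0] = ![(c : F), 0, 0, 0, 0, 0, 0, 0] ∧
      ((x * g : GL (Fin 8) F) : Matrix (Fin 8) (Fin 8) F) *ᵥ ![0, 0, 0, 0, 1, 0, 0, 0] = ![0, 0, 0, 0, ((c⁻¹ : Fˣ) : F), 0, 0, 0] := by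
  have he1 : (![1, 0, 0, 0, 0, 0, 0, 0] : Fin 8 → F) ≠ 0 := by
    intro h
    have h' := congrFun h 0
    simp at h'
  have hu : (g : Matrix (Fin 8) (Fin 8) F) *ᵥ ![1, 0, 0, 0, 0, 0, 0, 0] ≠ 0 := by
    intro h0
    have h1 : ((g⁻¹ : GL (Fin 8) F) : Matrix (Fin 8) (Fin 8) F) *ᵥ
        ((g : Matrix (Fin 8) (Fin 8) F) *ᵥ ![1, 0, 0, 0, 0, 0, 0, 0]) = ![1, 0, 0, 0, 0, 0, 0, 0] := by
      rw [Matrix.mulVec_mulVec, ← Units.val_mul, inv_mul_cancel, Units.val_one, Matrix.one_mulVec]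
    rw [h0, Matrix.mulVec_zero] at h1
    exact he1 h1.symm
  have hQu : Q8 ((g : Matrix (Fin 8) (Fin 8) F) *ᵥ ![1, 0, 0, 0, 0, 0, 0, 0]) = 0 := by
    rw [(mem_O8 g).1 hg]; simp [Q8]
  obtain ⟨x1, hx1, c, hc, hx1u⟩ := hT _ hu hQu
  have hg1O : x1 * g ∈ O8 F := Subgroup.mul_mem _ (G8_le_O8 hx1) hg
  have hg1e : ((x1 * g : GL (Fin 8) F) : Matrix (Fin 8) (Fin 8) F) *ᵥ ![1, 0, 0, 0, 0, 0, 0, 0] =
      ![c, 0, 0, 0, 0, 0, 0, 0] := by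
    rw [Units.val_mul, ← Matrix.mulVec_mulVec, hx1u]
  obtain ⟨v', hv'⟩ : ∃ v' : Fin 8 → F,
      v' = ((x1 * g : GL (Fin 8) F) : Matrix (Fin 8) (Fin 8) F) *ᵥ ![0, 0, 0, 0, 1, 0, 0, 0] := ⟨_, rfl⟩
  have hQv : Q8 v' = 0 := by
    rw [hv', (mem_O8 _).1 hg1O]; simp [Q8]
  have hB := O8_B8 (x1 * g) hg1O ![1, 0, 0, 0, 0, 0, 0, 0] ![0, 0, 0, 0, 1, 0, 0, 0]
  rw [hg1e, ← hv'] at hB
  have hcv : c * v' 4 = 1 := by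
    simpa [B8] using hB
  have hv4 : v' 4 ≠ 0 := by
    intro h; rw [h, mul_zero] at hcv; exact zero_ne_one hcv
  obtain ⟨y, hy, hye, hyv⟩ := hP v' hQv hv4
  refine ⟨y * x1, Subgroup.mul_mem _ hy hx1, Units.mk0 c hc, ?_, ?_⟩
  · rw [mul_assoc, Units.val_mul, ← Matrix.mulVec_mulVec, hg1e]
    have hsm : (![c, 0, 0, 0, 0, 0, 0, 0] : Fin 8 → F) = c • ![1, 0, 0, 0, 0, 0, 0, 0] := by
      funext i; fin_cases i <;> simp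
    rw [hsm, Matrix.mulVec_smul, hye]
    funext i; fin_cases i <;> simp
  · rw [mul_assoc, Units.val_mul, ← Matrix.mulVec_mulVec, ← hv', hyv]
    have h4 : v' 4 = c⁻¹ := eq_inv_of_mul_eq_one_right hcv
    rw [h4]
    funext i; fin_cases i <;> simp

end Cfsg.Agent.Helper29
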