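import Cfsg.Agent.Helper17.D4Defs
import Cfsg.Agent.Helper29.D4Lib

/-! Piece L3 of CALL S1082 (helper17), seat helper29. -/

open Matrix Cfsg Cfsg.Lie

namespace Cfsg.Agent.Helper29

open Cfsg.Agent.Helper17.D4

variable {F : Type*} [Field F]

theorem d4_level3
    (hT : ∀ u : Fin 8 → F, u ≠ 0 → Q8 u = 0 → u 0 = 0 → u 4 = 0 → u 1 = 0 → u 5 = 0 →
      ∃ x ∈ G8 F, (x : Matrix (Fin 8) (Fin 8) F) *ᵥ ![1, 0, 0, 0, 0, 0, 0, 0] = ![1, 0, 0, 0, 0, 0, 0, 0] ∧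
      (x : Matrix (Fin 8) (Fin 8) F) *ᵥ ![0, 0, 0, 0, 1, 0, 0, 0] = ![0, 0, 0, 0, 1, 0, 0, 0] ∧
      (x : Matrix (Fin 8) (Fin 8) F) *ᵥ ![0, 1, 0, 0, 0, 0, 0, 0] = ![0, 1, 0, 0, 0, 0, 0, 0] ∧
      (x : Matrix (Fin 8) (Fin 8) F) *ᵥ ![0, 0, 0, 0, 0, 1, 0, 0] = ![0, 0, 0, 0, 0, 1, 0, 0] ∧
      ∃ c : F, c ≠ 0 ∧ (x : Matrix (Fin 8) (Fin 8) F) *ᵥ u = ![0, 0, c, 0, 0, 0, 0, 0])
    (hP : ∀ v : Fin 8 → F, Q8 v = 0 → v 0 = 0 → v 4 = 0 → v 1 = 0 → v 5 = 0 → v 6 ≠ 0 →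
      ∃ y ∈ G8 F, (y : Matrix (Fin 8) (Fin 8) F) *ᵥ ![1, 0, 0, 0, 0, 0, 0, 0] = ![1, 0, 0, 0, 0, 0, 0, 0] ∧
      (y : Matrix (Fin 8) (Fin 8) F) *ᵥ ![0, 0, 0, 0, 1, 0, 0, 0] = ![0, 0, 0, 0, 1, 0, 0, 0] ∧
      (y : Matrix (Fin 8) (Fin 8) F) *ᵥ ![0, 1, 0, 0, 0, 0, 0, 0] = ![0, 1, 0, 0, 0, 0, 0, 0] ∧
      (y : Matrix (Fin 8) (Fin 8) F) *ᵥ ![0, 0, 0, 0, 0, 1, 0, 0] = ![0, 0, 0, 0, 0, 1, 0, 0] ∧
      (y : Matrix (Fin 8) (Fin 8) F) *ᵥ ![0, 0, 1, 0, 0, 0, 0, 0] = ![0, 0, 1, 0, 0, 0, 0, 0] ∧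
      (y : Matrix (Fin 8) (Fin 8) F) *ᵥ v = ![0, 0, 0, 0, 0, 0, v 6, 0])
    (g : GL (Fin 8) F) (hg : g ∈ O8 F) (c1 c2 : Fˣ)
    (h1 : (g : Matrix (Fin 8) (Fin 8) F) *ᵥ ![1, 0, 0, 0, 0, 0, 0, 0] = ![(c1 : F), 0, 0, 0, 0, 0, 0, 0])
    (h1' : (g : Matrix (Fin 8) (Fin 8) F) *ᵥ ![0, 0, 0, 0, 1, 0, 0, 0] = ![0, 0, 0, 0, ((c1⁻¹ : Fˣ) : F), 0, 0, 0])
    (h2 : (g : Matrix (Fin 8) (Fin 8) F) *ᵥ ![0, 1, 0, 0, 0, 0, 0, 0] = ![0, (c2 : F), 0, 0, 0, 0, 0, 0])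
    (h2' : (g : Matrix (Fin 8) (Fin 8) F) *ᵥ ![0, 0, 0, 0, 0, 1, 0, 0] = ![0, 0, 0, 0, 0, ((c2⁻¹ : Fˣ) : F), 0, 0]) :
    ∃ x ∈ G8 F, ∃ c : Fˣ,
      ((x * g : GL (Fin 8) F) : Matrix (Fin 8) (Fin 8) F) *ᵥ ![1, 0, 0, 0, 0, 0, 0, 0] = ![(c1 : F), 0, 0, 0, 0, 0, 0, 0] ∧
      ((x * g : GL (Fin 8) F) : Matrix (Fin 8) (Fin 8) F) *ᵥ ![0, 0, 0, 0, 1, 0, 0, 0] = ![0, 0, 0, 0, ((c1⁻¹ : Fˣ) : F), 0, 0, 0] ∧
      ((x * g : GL (Fin 8) F) : Matrix (Fin 8) (Fin 8) F) *ᵥ ![0, 1, 0, 0, 0, 0, 0, 0] = ![0, (c2 : F), 0, 0, 0, 0, 0, 0] ∧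
      ((x * g : GL (Fin 8) F) : Matrix (Fin 8) (Fin 8) F) *ᵥ ![0, 0, 0, 0, 0, 1, 0, 0] = ![0, 0, 0, 0, 0, ((c2⁻¹ : Fˣ) : F), 0, 0] ∧
      ((x * g : GL (Fin 8) F) : Matrix (Fin 8) (Fin 8) F) *ᵥ ![0, 0, 1, 0, 0, 0, 0, 0] = ![0, 0, (c : F), 0, 0, 0, 0, 0] ∧
      ((x * g : GL (Fin 8) F) : Matrix (Fin 8) (Fin 8) F) *ᵥ ![0, 0, 0, 0, 0, 0, 1, 0] = ![0, 0, 0, 0, 0, 0, ((c⁻¹ : Fˣ) : F), 0] := by
  obtain ⟨u, hu⟩ : ∃ u : Fin 8 → F,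
      u = (g : Matrix (Fin 8) (Fin 8) F) *ᵥ ![0, 0, 1, 0, 0, 0, 0, 0] := ⟨_, rfl⟩
  have hune : u ≠ 0 := by
    rw [hu]
    exact d4_mulVec_ne_zero g _ (by intro h; have h' := congrFun h 2; simp at h')
  have hQu : Q8 u = 0 := by rw [hu, (mem_O8 g).1 hg]; simp [Q8]
  have hu0 : u 0 = 0 := by
    have hB := d4_B8_image g hg _ _ u _ hu h1'
    simpa [B8] using hB
  have hu4 : u 4 = 0 := by
    have hB := d4_B8_image g hg _ _ u _ hu h1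
    simpa [B8] using hB
  have hu1 : u 1 = 0 := by
    have hB := d4_B8_image g hg _ _ u _ hu h2'
    simpa [B8] using hB
  have hu5 : u 5 = 0 := by
    have hB := d4_B8_image g hg _ _ u _ hu h2
    simpa [B8] using hB
  obtain ⟨x1, hx1, hx1e, hx1f, hx1e2, hx1f2, c, hc, hx1u⟩ := hT u hune hQu hu0 hu4 hu1 hu5
  have hg1O : x1 * g ∈ O8 F := Subgroup.mul_mem _ (G8_le_O8 hx1) hg
  have k1 : ((x1 * g : GL (Fin 8) F) : Matrix (Fin 8) (Fin 8) F) *ᵥ ![1, 0, 0, 0, 0, 0, 0, 0] =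
      ![(c1 : F), 0, 0, 0, 0, 0, 0, 0] := by
    rw [Units.val_mul, ← Matrix.mulVec_mulVec, h1]
    exact d4_mulVec_smul_eq _ _ _ _ _ (c1 : F) hx1e (by funext i; fin_cases i <;> simp) (by funext i; fin_cases i <;> simp)
  have k1' : ((x1 * g : GL (Fin 8) F) : Matrix (Fin 8) (Fin 8) F) *ᵥ ![0, 0, 0, 0, 1, 0, 0, 0] =
      ![0, 0, 0, 0, ((c1⁻¹ : Fˣ) : F), 0, 0, 0] := by
    rw [Units.val_mul, ← Matrix.mulVec_mulVec, h1']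
    exact d4_mulVec_smul_eq _ _ _ _ _ ((c1⁻¹ : Fˣ) : F) hx1f (by funext i; fin_cases i <;> simp) (by funext i; fin_cases i <;> simp)
  have k2 : ((x1 * g : GL (Fin 8) F) : Matrix (Fin 8) (Fin 8) F) *ᵥ ![0, 1, 0, 0, 0, 0, 0, 0] =
      ![0, (c2 : F), 0, 0, 0, 0, 0, 0] := by
    rw [Units.val_mul, ← Matrix.mulVec_mulVec, h2]
    exact d4_mulVec_smul_eq _ _ _ _ _ (c2 : F) hx1e2 (by funext i; fin_cases i <;> simp) (by funext i; fin_cases i <;> simp)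
  have k2' : ((x1 * g : GL (Fin 8) F) : Matrix (Fin 8) (Fin 8) F) *ᵥ ![0, 0, 0, 0, 0, 1, 0, 0] =
      ![0, 0, 0, 0, 0, ((c2⁻¹ : Fˣ) : F), 0, 0] := by
    rw [Units.val_mul, ← Matrix.mulVec_mulVec, h2']
    exact d4_mulVec_smul_eq _ _ _ _ _ ((c2⁻¹ : Fˣ) : F) hx1f2 (by funext i; fin_cases i <;> simp) (by funext i; fin_cases i <;> simp)
  have k3 : ((x1 * g : GL (Fin 8) F) : Matrix (Fin 8) (Fin 8) F) *ᵥ ![0, 0, 1, 0, 0, 0, 0, 0] =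
      ![0, 0, c, 0, 0, 0, 0, 0] := by
    rw [Units.val_mul, ← Matrix.mulVec_mulVec, ← hu, hx1u]
  obtain ⟨v, hv⟩ : ∃ v : Fin 8 → F,
      v = ((x1 * g : GL (Fin 8) F) : Matrix (Fin 8) (Fin 8) F) *ᵥ ![0, 0, 0, 0, 0, 0, 1, 0] :=
    ⟨_, rfl⟩
  have hQv : Q8 v = 0 := by rw [hv, (mem_O8 _).1 hg1O]; simp [Q8]
  have hv0 : v 0 = 0 := by
    have hB := d4_B8_image (x1 * g) hg1O _ _ v _ hv k1'
    simpa [B8] using hB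
  have hv4 : v 4 = 0 := by
    have hB := d4_B8_image (x1 * g) hg1O _ _ v _ hv k1
    simpa [B8] using hB
  have hv1 : v 1 = 0 := by
    have hB := d4_B8_image (x1 * g) hg1O _ _ v _ hv k2'
    simpa [B8] using hB
  have hv5 : v 5 = 0 := by
    have hB := d4_B8_image (x1 * g) hg1O _ _ v _ hv k2
    simpa [B8] using hB
  have hcv : c * v 6 = 1 := by
    have hB := d4_B8_image (x1 * g) hg1O _ _ v _ hv k3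
    simp [B8] at hB
    rw [mul_comm]; exact hB
  have hv6 : v 6 ≠ 0 := by
    intro h; rw [h, mul_zero] at hcv; exact zero_ne_one hcv
  obtain ⟨y, hy, hye, hyf, hye2, hyf2, hye3, hyv⟩ := hP v hQv hv0 hv4 hv1 hv5 hv6
  refine ⟨y * x1, Subgroup.mul_mem _ hy hx1, Units.mk0 c hc, ?_, ?_, ?_, ?_, ?_, ?_⟩
  · rw [mul_assoc, Units.val_mul, ← Matrix.mulVec_mulVec, k1]
    exact d4_mulVec_smul_eq _ _ _ _ _ (c1 : F) hye (by funext i; fin_cases i <;> simp) (by funext i; fin_cases i <;> simp)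
  · rw [mul_assoc, Units.val_mul, ← Matrix.mulVec_mulVec, k1']
    exact d4_mulVec_smul_eq _ _ _ _ _ ((c1⁻¹ : Fˣ) : F) hyf (by funext i; fin_cases i <;> simp) (by funext i; fin_cases i <;> simp)
  · rw [mul_assoc, Units.val_mul, ← Matrix.mulVec_mulVec, k2]
    exact d4_mulVec_smul_eq _ _ _ _ _ (c2 : F) hye2 (by funext i; fin_cases i <;> simp) (by funext i; fin_cases i <;> simp)
  · rw [mul_assoc, Units.val_mul, ← Matrix.mulVec_mulVec, k2']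
    exact d4_mulVec_smul_eq _ _ _ _ _ ((c2⁻¹ : Fˣ) : F) hyf2 (by funext i; fin_cases i <;> simp) (by funext i; fin_cases i <;> simp)
  · rw [mul_assoc, Units.val_mul, ← Matrix.mulVec_mulVec, k3]
    exact d4_mulVec_smul_eq _ _ _ _ _ c hye3 (by funext i; fin_cases i <;> simp) (by funext i; fin_cases i <;> simp)
  · rw [mul_assoc, Units.val_mul, ← Matrix.mulVec_mulVec, ← hv, hyv]
    have h6 : v 6 = c⁻¹ := eq_inv_of_mul_eq_one_right hcv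
    rw [h6]
    funext i; fin_cases i <;> simp

end Cfsg.Agent.Helper29
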