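import Mathlib
import Cfsg.Prelude.Def_GeometricClasses
import Cfsg.Agent.Helper69.E3Def

/-! Piece F1 of CALL S5998 (helper69), auxiliary form: an element of the normaliser of `E3 ω`
whose `r`-th power is scalar (`r ≥ 5` prime) is scalar, given `|E3 ω| = 27`. -/

set_option autoImplicit false

namespace Cfsg.Agent.Helper29

open Cfsg.Agent.Helper69

theorem e3f1_det_X (F : Type*) [Field F] : (e3X F).det = 1 := by
  simp [e3X, Matrix.det_fin_three]

theorem e3f1_det_Z {F : Type*} [Field F] (ω : F) (hω3 : ω ^ 3 = 1) : (e3Z ω).det = 1 := by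
  simp [e3Z, Matrix.det_fin_three]
  rw [← hω3]; ring

theorem e3f1_ZX {F : Type*} [Field F] (ω : F) (hω3 : ω ^ 3 = 1) :
    e3Z ω * e3X F = (ω • (1 : Matrix (Fin 3) (Fin 3) F)) * (e3X F * e3Z ω) := by
  ext i j
  fin_cases i <;> fin_cases j <;>
    simp [e3Z, e3X, Matrix.mul_apply, Fin.sum_univ_three, Matrix.one_apply] <;>
    first | linear_combination hω3 | linear_combination (-1 : F) * hω3 | ring1

/-- A matrix commuting with `e3Z ω` and `e3X F` is scalar. -/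
theorem e3f1_scalar_of_commute {F : Type*} [Field F] (ω : F) (hω1 : ω ≠ 1) (hω3 : ω ^ 3 = 1)
    (A : Matrix (Fin 3) (Fin 3) F) (hZ : A * e3Z ω = e3Z ω * A) (hX : A * e3X F = e3X F * A) :
    A = A 0 0 • (1 : Matrix (Fin 3) (Fin 3) F) := by
  have hω0 : ω ≠ 0 := by
    rintro rfl
    simp at hω3
  have hω2 : ω ^ 2 ≠ 1 := by
    intro h
    apply hω1
    have : ω ^ 3 = ω := by rw [pow_succ, h, one_mul]
    rw [← this, hω3]
  have hω21 : ω ^ 2 ≠ ω := by
    intro h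
    apply hω1
    have h2 : ω * ω = ω * 1 := by rw [mul_one, ← pow_two, h]
    exact mul_left_cancel₀ hω0 h2
  have e01 := congrFun (congrFun hZ 0) 1
  have e02 := congrFun (congrFun hZ 0) 2
  have e10 := congrFun (congrFun hZ 1) 0
  have e12 := congrFun (congrFun hZ 1) 2
  have e20 := congrFun (congrFun hZ 2) 0
  have e21 := congrFun (congrFun hZ 2) 1
  have x10 := congrFun (congrFun hX 1) 0
  have x21 := congrFun (congrFun hX 2) 1
  simp [e3Z, Matrix.mul_apply, Fin.sum_univ_three] at e01 e02 e10 e12 e20 e21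
  simp [e3X, Matrix.mul_apply, Fin.sum_univ_three] at x10 x21
  have a01 : A 0 1 = 0 := by
    have h : A 0 1 * (ω - 1) = 0 := by rw [mul_sub, e01, mul_one, sub_self]
    rcases mul_eq_zero.1 h with h | h
    · exact h
    · exact absurd (sub_eq_zero.1 h) hω1
  have a02 : A 0 2 = 0 := by
    have h : A 0 2 * (ω ^ 2 - 1) = 0 := by rw [mul_sub, e02, mul_one, sub_self]
    rcases mul_eq_zero.1 h with h | h
    · exact h
    · exact absurd (sub_eq_zero.1 h) hω2
  have a10 : A 1 0 = 0 := by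
    have h : A 1 0 * (ω - 1) = 0 := by rw [mul_sub, mul_comm, ← e10, mul_one, sub_self]
    rcases mul_eq_zero.1 h with h | h
    · exact h
    · exact absurd (sub_eq_zero.1 h) hω1
  have a12 : A 1 2 = 0 := by
    have h : A 1 2 * (ω ^ 2 - ω) = 0 := by rw [mul_sub, e12, mul_comm, sub_self]
    rcases mul_eq_zero.1 h with h | h
    · exact h
    · exact absurd (sub_eq_zero.1 h) hω21
  have a20 : A 2 0 = 0 := by
    have h : A 2 0 * (ω ^ 2 - 1) = 0 := by rw [mul_sub, mul_comm, ← e20, mul_one, sub_self]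
    rcases mul_eq_zero.1 h with h | h
    · exact h
    · exact absurd (sub_eq_zero.1 h) hω2
  have a21 : A 2 1 = 0 := by
    have h : A 2 1 * (ω ^ 2 - ω) = 0 := by rw [mul_sub, mul_comm (A 2 1) (ω ^ 2), ← e21, sub_self]
    rcases mul_eq_zero.1 h with h | h
    · exact h
    · exact absurd (sub_eq_zero.1 h) hω21
  ext i j
  fin_cases i <;> fin_cases j <;>
    simp [a01, a02, a10, a12, a20, a21, x10, x21]

theorem e3f1_no_prime_24 (r : ℕ) (hr : r.Prime) (hr5 : 5 ≤ r) : ¬ r ∣ 24 := by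
  intro h
  have h1 : r ∣ 8 * 3 := h
  rcases (Nat.Prime.dvd_mul hr).1 h1 with h2 | h2
  · have h3 : r ∣ 2 ^ 3 := h2
    have h4 := Nat.le_of_dvd (by norm_num) (hr.dvd_of_dvd_pow h3)
    omega
  · have h4 := Nat.le_of_dvd (by norm_num) h2
    omega

theorem e3f1_no_prime_18 (r : ℕ) (hr : r.Prime) (hr5 : 5 ≤ r) : ¬ r ∣ 18 := by
  intro h
  have h1 : r ∣ 2 * 3 ^ 2 := h
  rcases (Nat.Prime.dvd_mul hr).1 h1 with h2 | h2
  · have h4 := Nat.le_of_dvd (by norm_num) h2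
    omega
  · have h4 := Nat.le_of_dvd (by norm_num) (hr.dvd_of_dvd_pow h2)
    omega

theorem e3_normalizer_scalar_aux {F : Type*} [Field F] (ω : F) (hω1 : ω ≠ 1) (hω3 : ω ^ 3 = 1)
    (hcard : Nat.card (E3 ω) = 27)
    (g : GL (Fin 3) F) (hg : g ∈ Cfsg.Geo.subgroupNormalizer (E3 ω)) (r : ℕ) (hr : r.Prime)
    (hr5 : 5 ≤ r) (z : F)
    (hz : ((g ^ r : GL (Fin 3) F) : Matrix (Fin 3) (Fin 3) F) = z • (1 : Matrix (Fin 3) (Fin 3) F)) :
    ∃ c : F, (g : Matrix (Fin 3) (Fin 3) F) = c • (1 : Matrix (Fin 3) (Fin 3) F) := by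
  classical
  have hfact : Fact r.Prime := ⟨hr⟩
  have hfin : Finite ↥(E3 ω) := Nat.finite_of_card_ne_zero (by rw [hcard]; norm_num)
  have hω0 : ω ≠ 0 := by
    rintro rfl
    simp at hω3
  have hgN : g ∈ Subgroup.normalizer ((E3 ω : Subgroup (GL (Fin 3) F)) : Set (GL (Fin 3) F)) := hg
  -- the three special elements
  have hdX : (e3X F).det ≠ 0 := by rw [e3f1_det_X]; exact one_ne_zero
  have hdZ : (e3Z ω).det ≠ 0 := by rw [e3f1_det_Z ω hω3]; exact one_ne_zero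
  have hdS : (ω • (1 : Matrix (Fin 3) (Fin 3) F)).det ≠ 0 := by
    rw [Matrix.det_smul, Matrix.det_one, mul_one]
    exact pow_ne_zero _ hω0
  obtain ⟨Xg, hXg⟩ : ∃ Xg : GL (Fin 3) F, (Xg : Matrix (Fin 3) (Fin 3) F) = e3X F :=
    ⟨Matrix.GeneralLinearGroup.mkOfDetNeZero _ hdX, rfl⟩
  obtain ⟨Zg, hZg⟩ : ∃ Zg : GL (Fin 3) F, (Zg : Matrix (Fin 3) (Fin 3) F) = e3Z ω :=
    ⟨Matrix.GeneralLinearGroup.mkOfDetNeZero _ hdZ, rfl⟩
  obtain ⟨Sg, hSg⟩ : ∃ Sg : GL (Fin 3) F,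
      (Sg : Matrix (Fin 3) (Fin 3) F) = ω • (1 : Matrix (Fin 3) (Fin 3) F) :=
    ⟨Matrix.GeneralLinearGroup.mkOfDetNeZero _ hdS, rfl⟩
  have hXE : Xg ∈ E3 ω := Subgroup.subset_closure (Or.inl hXg)
  have hZE : Zg ∈ E3 ω := Subgroup.subset_closure (Or.inr hZg)
  have hSeq : Zg * Xg = Sg * (Xg * Zg) := by
    apply Units.ext
    rw [Units.val_mul, Units.val_mul, Units.val_mul, hXg, hZg, hSg]
    exact e3f1_ZX ω hω3
  have hSE : Sg ∈ E3 ω := by
    have h1 : Sg = Zg * Xg * (Xg * Zg)⁻¹ := by rw [hSeq]; group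
    rw [h1]
    exact Subgroup.mul_mem _ (Subgroup.mul_mem _ hZE hXE)
      (Subgroup.inv_mem _ (Subgroup.mul_mem _ hXE hZE))
  have hS1 : Sg ≠ 1 := by
    intro h
    have h1 : (Sg : Matrix (Fin 3) (Fin 3) F) 0 0 = (1 : Matrix (Fin 3) (Fin 3) F) 0 0 := by
      rw [h]; rfl
    rw [hSg] at h1
    simp at h1
    exact hω1 h1
  -- scalar elements commute with everything
  have hcomm_scalar : ∀ (s : GL (Fin 3) F) (c : F),
      (s : Matrix (Fin 3) (Fin 3) F) = c • (1 : Matrix (Fin 3) (Fin 3) F) →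
      ∀ e : GL (Fin 3) F, s * e = e * s := by
    intro s c hs e
    apply Units.ext
    rw [Units.val_mul, Units.val_mul, hs, Matrix.smul_mul, Matrix.mul_smul, one_mul, mul_one]
  -- the automorphism of `E3 ω` induced by `g`
  let ψ : MulAut ↥(E3 ω) := (E3 ω).normalizerMonoidHom ⟨g, hgN⟩
  have hψ : ∀ e : ↥(E3 ω), ((ψ e : ↥(E3 ω)) : GL (Fin 3) F) = g * (e : GL (Fin 3) F) * g⁻¹ :=
    fun e => rfl
  have hψr : ψ ^ r = 1 := by
    have h1 : ψ ^ r = (E3 ω).normalizerMonoidHom (⟨g, hgN⟩ ^ r) := (map_pow _ _ _).symm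
    rw [h1]
    apply MulEquiv.ext
    intro e
    apply Subtype.ext
    have hpow : (((⟨g, hgN⟩ : ↥(Subgroup.normalizer
        ((E3 ω : Subgroup (GL (Fin 3) F)) : Set (GL (Fin 3) F)))) ^ r : ↥(Subgroup.normalizer
        ((E3 ω : Subgroup (GL (Fin 3) F)) : Set (GL (Fin 3) F)))) : GL (Fin 3) F) = g ^ r := rfl
    show (((⟨g, hgN⟩ : ↥(Subgroup.normalizer
        ((E3 ω : Subgroup (GL (Fin 3) F)) : Set (GL (Fin 3) F)))) ^ r : ↥(Subgroup.normalizer
        ((E3 ω : Subgroup (GL (Fin 3) F)) : Set (GL (Fin 3) F)))) : GL (Fin 3) F) *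
        (e : GL (Fin 3) F) * (((⟨g, hgN⟩ : ↥(Subgroup.normalizer
        ((E3 ω : Subgroup (GL (Fin 3) F)) : Set (GL (Fin 3) F)))) ^ r : ↥(Subgroup.normalizer
        ((E3 ω : Subgroup (GL (Fin 3) F)) : Set (GL (Fin 3) F)))) : GL (Fin 3) F)⁻¹ =
        (e : GL (Fin 3) F)
    rw [hpow, hcomm_scalar (g ^ r) z hz (e : GL (Fin 3) F), mul_inv_cancel_right]
  -- the fixed-point subgroup
  let D : Subgroup ↥(E3 ω) :=
    { carrier := {e | ψ e = e}
      one_mem' := map_one ψ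
      mul_mem' := fun {a b} ha hb => by
        show ψ (a * b) = a * b
        rw [map_mul, show ψ a = a from ha, show ψ b = b from hb]
      inv_mem' := fun {a} ha => by
        show ψ a⁻¹ = a⁻¹
        rw [map_inv, show ψ a = a from ha] }
  have hDmem : ∀ e : ↥(E3 ω), e ∈ D ↔ ψ e = e := fun e => Iff.rfl
  -- the cyclic group generated by `ψ` is an `r`-group
  have hpg : IsPGroup r ↥(Subgroup.zpowers ψ) := by
    rintro ⟨γ, hγ⟩
    obtain ⟨m, rfl⟩ := Subgroup.mem_zpowers_iff.1 hγ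
    refine ⟨1, ?_⟩
    apply Subtype.ext
    rw [pow_one, Subgroup.coe_pow, Subgroup.coe_one]
    show (ψ ^ m) ^ r = 1
    rw [← zpow_natCast, ← zpow_mul, mul_comm, zpow_mul, zpow_natCast, hψr, one_zpow]
  have hmod := hpg.card_modEq_card_fixedPoints ↥(E3 ω)
  have hfix : (MulAction.fixedPoints ↥(Subgroup.zpowers ψ) ↥(E3 ω)) = (D : Set ↥(E3 ω)) := by
    ext e
    constructor
    · intro he
      exact he ⟨ψ, Subgroup.mem_zpowers ψ⟩
    · intro he γ
      obtain ⟨γ, hγ⟩ := γ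
      have h1 : Subgroup.zpowers ψ ≤ MulAction.stabilizer (MulAut ↥(E3 ω)) e :=
        Subgroup.zpowers_le.2 (MulAction.mem_stabilizer_iff.2 he)
      exact MulAction.mem_stabilizer_iff.1 (h1 hγ)
  have hcardfix : Nat.card (MulAction.fixedPoints ↥(Subgroup.zpowers ψ) ↥(E3 ω)) = Nat.card D := by
    rw [hfix]; rfl
  rw [hcardfix, hcard] at hmod
  -- `D` is nontrivial
  have hSD : (⟨Sg, hSE⟩ : ↥(E3 ω)) ∈ D := by
    rw [hDmem]
    apply Subtype.ext
    rw [hψ]
    show g * Sg * g⁻¹ = Sg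
    rw [← hcomm_scalar Sg ω hSg g, mul_inv_cancel_right]
  have hDne : Nat.card D ≠ 1 := by
    intro h
    have hbot : D = ⊥ := Subgroup.card_eq_one.1 h
    rw [hbot, Subgroup.mem_bot] at hSD
    exact hS1 (congrArg Subtype.val hSD)
  have hDdvd : Nat.card D ∣ 3 ^ 3 := by
    have := Subgroup.card_subgroup_dvd_card D
    rw [hcard] at this
    exact this
  obtain ⟨j, hj3, hj⟩ := (Nat.dvd_prime_pow Nat.prime_three).1 hDdvd
  have hD27 : Nat.card D = 27 := by
    interval_cases j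
    · exact absurd hj hDne
    · exfalso
      rw [hj] at hmod
      have h1 : r ∣ 27 - 3 := (Nat.modEq_iff_dvd' (by norm_num)).1 hmod.symm
      exact e3f1_no_prime_24 r hr hr5 h1
    · exfalso
      rw [hj] at hmod
      have h1 : r ∣ 27 - 9 := (Nat.modEq_iff_dvd' (by norm_num)).1 hmod.symm
      exact e3f1_no_prime_18 r hr hr5 h1
    · rw [hj]; norm_num
  have hDtop : D = ⊤ := Subgroup.eq_top_of_card_eq D (by rw [hD27, hcard])
  have hcommE : ∀ e : GL (Fin 3) F, e ∈ E3 ω → g * e = e * g := by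
    intro e he
    have h1 : (⟨e, he⟩ : ↥(E3 ω)) ∈ D := by rw [hDtop]; trivial
    rw [hDmem] at h1
    have h2 := congrArg Subtype.val h1
    rw [hψ] at h2
    have h3 : g * e * g⁻¹ = e := h2
    calc g * e = g * e * g⁻¹ * g := by group
      _ = e * g := by rw [h3]
  have hAZ : (g : Matrix (Fin 3) (Fin 3) F) * e3Z ω = e3Z ω * (g : Matrix (Fin 3) (Fin 3) F) := by
    have := congrArg Units.val (hcommE Zg hZE)
    rw [Units.val_mul, Units.val_mul, hZg] at this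
    exact this
  have hAX : (g : Matrix (Fin 3) (Fin 3) F) * e3X F = e3X F * (g : Matrix (Fin 3) (Fin 3) F) := by
    have := congrArg Units.val (hcommE Xg hXE)
    rw [Units.val_mul, Units.val_mul, hXg] at this
    exact this
  exact ⟨_, e3f1_scalar_of_commute ω hω1 hω3 _ hAZ hAX⟩

end Cfsg.Agent.Helper29
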