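import Mathlib
import Cfsg.Agent.Helper69.E4DIAGINV
import Cfsg.Agent.Helper97.UForm

/-!
# S6001 piece INVU1 (helper29): a unitary square root of the scalar `z` with `x ^ 2 = z • 1`
-/

set_option autoImplicit false

namespace Cfsg.Agent.Helper29
open Cfsg.Agent.Helper69 Cfsg.Agent.Helper97
open scoped Matrix

theorem e4u_sqrt_unitary {F : Type*} [Field F] [Fintype F] {p : ℕ} [Fact p.Prime] [CharP F p]
    (hF : Fintype.card F = p ^ 2) (hp4 : p % 4 = 3) (σ : F ≃+* F) (hσ : IsSigma p σ) (ι : F)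
    (hι : ι ^ 2 = -1) (x : Matrix (Fin 4) (Fin 4) F) (hU : xᵀ * x.map σ = 1) (hdet : x.det = 1)
    (z : F) (hx : x ^ 2 = z • (1 : Matrix (Fin 4) (Fin 4) F)) :
    ∃ c : F, c ^ 2 = z ∧ c * σ c = 1 := by
  classical
  have hp2 : p ≠ 2 := by rintro rfl; omega
  have h2 : (2 : F) ≠ 0 := by
    intro h
    have h1 : (p : ℕ) ∣ 2 := (CharP.cast_eq_zero_iff F p 2).mp (by exact_mod_cast h)
    have hp := (Fact.out : p.Prime)
    exact hp2 ((Nat.prime_dvd_prime_iff_eq hp Nat.prime_two).mp h1)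
  -- step 1: `z * σ z = 1`
  have hsm : ∀ a : F, (a • (1 : Matrix (Fin 4) (Fin 4) F)).map σ =
      σ a • (1 : Matrix (Fin 4) (Fin 4) F) := by
    intro a
    ext i j
    simp only [Matrix.map_apply, Matrix.smul_apply, Matrix.one_apply, smul_eq_mul]
    split_ifs <;> simp
  have hxx : x * x = z • (1 : Matrix (Fin 4) (Fin 4) F) := by rw [← pow_two, hx]
  have hz : z * σ z = 1 := by
    have h1 : (x * x)ᵀ * (x * x).map σ = 1 := by
      rw [Matrix.transpose_mul, Matrix.map_mul]
      calc xᵀ * xᵀ * (x.map σ * x.map σ) = xᵀ * (xᵀ * x.map σ) * x.map σ := by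
            simp only [Matrix.mul_assoc]
        _ = 1 := by rw [hU, Matrix.mul_one, hU]
    rw [hxx, hsm, Matrix.transpose_smul, Matrix.transpose_one] at h1
    simp only [Matrix.smul_mul, Matrix.mul_smul, Matrix.one_mul, smul_smul] at h1
    have h3 := congrFun (congrFun h1 0) 0
    simp only [Matrix.smul_apply, Matrix.one_apply_eq, smul_eq_mul, mul_one] at h3
    rw [mul_comm]; exact h3
  have hz0 : z ≠ 0 := by
    rintro rfl
    simp at hz
  have hchar : ringChar F ≠ 2 := by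
    rw [ringChar.eq F p]; exact hp2
  have hsq : IsSquare z := by
    rw [FiniteField.isSquare_iff hchar hz0, hF]
    have e : p ^ 2 / 2 = (p + 1) * ((p - 1) / 2) := by
      obtain ⟨k, rfl⟩ : ∃ k, p = 2 * k + 1 := ⟨p / 2, by omega⟩
      have h1 : (2 * k + 1) ^ 2 = 2 * ((2 * k + 1 + 1) * k) + 1 := by ring
      have h3 : (2 * k + 1 - 1) / 2 = k := by omega
      rw [h1, h3]; omega
    have h1 : z ^ (p + 1) = 1 := by
      rw [pow_succ, ← hσ.pow, mul_comm]; exact hz
    rw [e, pow_mul, h1, one_pow]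
  obtain ⟨c₀, hc₀⟩ := hsq
  have hc0 : c₀ ≠ 0 := by
    rintro rfl
    rw [mul_zero] at hc₀
    exact hz0 hc₀
  have hn : (c₀ * σ c₀) ^ 2 = 1 := by
    have h1 : (c₀ * σ c₀) ^ 2 = (c₀ * c₀) * σ (c₀ * c₀) := by rw [map_mul]; ring
    rw [h1, ← hc₀, hz]
  have hn' : c₀ * σ c₀ = 1 ∨ c₀ * σ c₀ = -1 := by
    have h1 : (c₀ * σ c₀ - 1) * (c₀ * σ c₀ + 1) = 0 := by linear_combination hn
    rcases mul_eq_zero.mp h1 with h | h
    · left; linear_combination h
    · right; linear_combination h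
  rcases hn' with hn1 | hn1
  · exact ⟨c₀, by rw [pow_two, ← hc₀], hn1⟩
  -- the case `c₀ * σ c₀ = -1`
  obtain ⟨y, hydef⟩ : ∃ y : Matrix (Fin 4) (Fin 4) F, y = c₀⁻¹ • x := ⟨_, rfl⟩
  have hyy : y * y = 1 := by
    rw [hydef, Matrix.smul_mul, Matrix.mul_smul, smul_smul, hxx, smul_smul, hc₀]
    have h1 : c₀⁻¹ * c₀⁻¹ * (c₀ * c₀) = 1 := by field_simp
    rw [h1, one_smul]
  have hy2 : y ^ 2 = 1 := by rw [pow_two, hyy]
  have hyU : yᵀ * y.map σ = -1 := by
    have hm : y.map σ = (σ c₀)⁻¹ • x.map σ := by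
      rw [hydef]; ext i j
      simp [Matrix.map_apply, Matrix.smul_apply]
    rw [hm, hydef, Matrix.transpose_smul, Matrix.smul_mul, Matrix.mul_smul, smul_smul, hU]
    have h1 : c₀⁻¹ * (σ c₀)⁻¹ = -1 := by
      rw [← mul_inv, hn1]; norm_num
    rw [h1]; simp
  have hyσ : y.map σ = -yᵀ := by
    have h1 : yᵀ * yᵀ = 1 := by rw [← Matrix.transpose_mul, hyy, Matrix.transpose_one]
    calc y.map σ = (yᵀ * yᵀ) * y.map σ := by rw [h1, Matrix.one_mul]
      _ = yᵀ * (yᵀ * y.map σ) := Matrix.mul_assoc _ _ _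
      _ = -yᵀ := by rw [hyU]; simp
  have htr : σ y.trace = -y.trace := by
    have h1 : (y.map σ).trace = σ y.trace := by
      simp [Matrix.trace, Matrix.diag]
    rw [← h1, hyσ, Matrix.trace_neg, Matrix.trace_transpose]
  obtain ⟨Q, d, hQ, hd, hQy⟩ := e4_diag_involution h2 y hy2
  have hQu : IsUnit Q.det := isUnit_iff_ne_zero.mpr hQ
  have hytr : y.trace = ∑ i, d i := by
    have h1 : y = Q⁻¹ * (Matrix.diagonal d * Q) := by
      rw [← hQy, ← Matrix.mul_assoc, Matrix.nonsing_inv_mul _ hQu, Matrix.one_mul]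
    have h2' : y.trace = (Matrix.diagonal d).trace := by
      rw [h1, Matrix.trace_mul_comm, Matrix.mul_assoc, Matrix.mul_nonsing_inv _ hQu,
        Matrix.mul_one]
    rw [h2', Matrix.trace_diagonal]
  have hydet : y.det = ∏ i, d i := by
    have h1 : Q.det * y.det = (∏ i, d i) * Q.det := by
      rw [← Matrix.det_mul, hQy, Matrix.det_mul, Matrix.det_diagonal]
    have h3 : Q.det * y.det = Q.det * ∏ i, d i := by rw [h1, mul_comm]
    exact mul_left_cancel₀ hQ h3
  have hd' : ∀ i, d i = 1 ∨ d i = -1 := by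
    intro i
    have h1 : (d i - 1) * (d i + 1) = 0 := by linear_combination hd i
    rcases mul_eq_zero.mp h1 with h | h
    · left; linear_combination h
    · right; linear_combination h
  have hσd : ∀ i, σ (d i) = d i := by
    intro i
    rcases hd' i with h | h <;> simp [h]
  have htr0 : y.trace = 0 := by
    have h1 : σ y.trace = y.trace := by
      rw [hytr, map_sum]; exact Finset.sum_congr rfl fun i _ => hσd i
    rw [h1] at htr
    have h3 : (2 : F) * y.trace = 0 := by linear_combination htr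
    exact (mul_eq_zero.mp h3).resolve_left h2
  have h4 : (4 : F) ≠ 0 := by
    have h1 : (4 : F) = 2 * 2 := by norm_num
    rw [h1]; exact mul_ne_zero h2 h2
  have hprod : ∏ i, d i = 1 := by
    rw [hytr, Fin.sum_univ_four] at htr0
    rw [Fin.prod_univ_four]
    rcases hd' 0 with h0 | h0 <;> rcases hd' 1 with h1 | h1 <;> rcases hd' 2 with h2' | h2' <;>
      rcases hd' 3 with h3 | h3 <;> rw [h0, h1, h2', h3] at htr0 ⊢ <;>
      first
        | ring1
        | exact absurd (by linear_combination htr0 : (4 : F) = 0) h4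
        | exact absurd (by linear_combination htr0 : (2 : F) = 0) h2
        | exact absurd (by linear_combination -htr0 : (2 : F) = 0) h2
        | exact absurd (by linear_combination -htr0 : (4 : F) = 0) h4
  have hdety : y.det = 1 := by rw [hydet, hprod]
  have hc4 : c₀ ^ 4 = 1 := by
    have h1 : y.det = (c₀⁻¹) ^ 4 * x.det := by
      rw [hydef, Matrix.det_smul]; simp
    rw [hdety, hdet, mul_one] at h1
    have h3 : (c₀⁻¹) ^ 4 * c₀ ^ 4 = 1 := by field_simp
    rw [← h1, one_mul] at h3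
    exact h3
  have hz2 : z ^ 2 = 1 := by rw [hc₀]; linear_combination hc4
  have hz' : z = 1 ∨ z = -1 := by
    have h1 : (z - 1) * (z + 1) = 0 := by linear_combination hz2
    rcases mul_eq_zero.mp h1 with h | h
    · left; linear_combination h
    · right; linear_combination h
  rcases hz' with rfl | rfl
  · exact ⟨1, by simp, by simp⟩
  · refine ⟨ι, hι, ?_⟩
    rw [hσ.pow, ← pow_succ']
    obtain ⟨k, hk⟩ : ∃ k, p + 1 = 2 * (2 * k) := ⟨(p + 1) / 4, by omega⟩
    rw [hk, pow_mul, hι, pow_mul]; simp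

end Cfsg.Agent.Helper29
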