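import Mathlib
import Cfsg.Prelude.Def_Transfer
import Cfsg.Agent.Helper29.SL23

set_option autoImplicit false

namespace Cfsg.Agent.Helper29

universe u v

/-- Gluing homomorphisms along a central product decomposition `P = E C`. -/
theorem exists_hom_of_centralProd {P : Type u} {Q : Type v} [Group P] [Group Q] (E C : Subgroup P)
    (hcomm : ∀ e ∈ E, ∀ c ∈ C, e * c = c * e)
    (htop : ∀ g : P, ∃ e ∈ E, ∃ c ∈ C, g = e * c)
    (φ : E →* Q) (ψ : C →* Q)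
    (hφψ : ∀ (e : E) (c : C), φ e * ψ c = ψ c * φ e)
    (hagree : ∀ d (hE : d ∈ E) (hC : d ∈ C), φ ⟨d, hE⟩ = ψ ⟨d, hC⟩) :
    ∃ F : P →* Q, (∀ e : E, F e = φ e) ∧ (∀ c : C, F c = ψ c) := by
  let f₁ : E × C →* P := MonoidHom.noncommCoprod E.subtype C.subtype
    (fun e c => hcomm e e.2 c c.2)
  let f₂ : E × C →* Q := MonoidHom.noncommCoprod φ ψ (fun e c => hφψ e c)
  have hf₁ : ∀ (e : E) (c : C), f₁ (e, c) = (e : P) * (c : P) := fun e c => rfl
  have hf₂ : ∀ (e : E) (c : C), f₂ (e, c) = φ e * ψ c := fun e c => rfl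
  have hsurj : Function.Surjective f₁ := by
    intro g
    obtain ⟨e, he, c, hc, rfl⟩ := htop g
    exact ⟨(⟨e, he⟩, ⟨c, hc⟩), rfl⟩
  have hker : f₁.ker ≤ f₂.ker := by
    rintro ⟨e, c⟩ h
    rw [MonoidHom.mem_ker] at h ⊢
    rw [hf₁] at h
    rw [hf₂]
    have h2 : (e : P) = (c : P)⁻¹ := eq_inv_of_mul_eq_one_left h
    have hmem : (e : P) ∈ C := by rw [h2]; exact C.inv_mem c.2
    have h3 := hagree (e : P) e.2 hmem
    have h4 : (⟨(e : P), hmem⟩ : C) = c⁻¹ := Subtype.ext h2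
    have h5 : φ e = ψ c⁻¹ := by rw [← h4, ← h3]
    rw [h5, map_inv, inv_mul_cancel]
  refine ⟨f₁.liftOfSurjective hsurj ⟨f₂, hker⟩, ?_, ?_⟩
  · intro e
    have := MonoidHom.liftOfRightInverse_comp_apply f₁ _ (Function.rightInverse_surjInv hsurj)
      ⟨f₂, hker⟩ (e, 1)
    rw [hf₁] at this
    simpa [hf₂] using this
  · intro c
    have := MonoidHom.liftOfRightInverse_comp_apply f₁ _ (Function.rightInverse_surjInv hsurj)
      ⟨f₂, hker⟩ (1, c)
    rw [hf₁] at this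
    simpa [hf₂] using this

/-- In a group where the commutator `w` of `s` and `t` is central: `s^k t = w^k t s^k`. -/
theorem pow_mul_of_comm_central {P : Type*} [Group P] (s t w : P)
    (hst : s * t * s⁻¹ * t⁻¹ = w) (hw : ∀ u, u * w = w * u) (k : ℕ) :
    s ^ k * t = w ^ k * t * s ^ k := by
  have h1 : s * t = w * t * s := by
    rw [← hst]; group
  induction k with
  | zero => simp
  | succ k ih =>
    have hwk : s * w ^ k = w ^ k * s := (Commute.pow_right (hw s) k).eq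
    calc s ^ (k + 1) * t = s * (s ^ k * t) := by rw [pow_succ', mul_assoc]
      _ = s * (w ^ k * t * s ^ k) := by rw [ih]
      _ = w ^ k * (s * t) * s ^ k := by
        rw [mul_assoc (w ^ k), ← mul_assoc s, hwk]; simp only [mul_assoc]
      _ = w ^ k * (w * t * s) * s ^ k := by rw [h1]
      _ = w ^ (k + 1) * t * s ^ (k + 1) := by
        rw [pow_succ, pow_succ']; simp only [mul_assoc]

/-- Multiplying `g` by a suitable power of `s` makes it commute with `t`, when `[s,t] = w` is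
central of order dividing `p` and `[g,t]` is a power of `w`. -/
theorem exists_pow_mul_comm {P : Type*} [Group P] {p : ℕ} (hp : 0 < p) (s t w g : P)
    (hst : s * t * s⁻¹ * t⁻¹ = w) (hw : ∀ u, u * w = w * u) (hwp : w ^ p = 1) (i : ℤ)
    (hg : g * t * g⁻¹ * t⁻¹ = w ^ i) : ∃ k : ℕ, (s ^ k * g) * t = t * (s ^ k * g) := by
  have hgt : g * t = w ^ i * t * g := by
    rw [← hg]; group
  refine ⟨((-i) % (p : ℤ)).toNat, ?_⟩
  set k := ((-i) % (p : ℤ)).toNat with hk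
  have hpz : (0 : ℤ) < p := by exact_mod_cast hp
  have hk1 : (k : ℤ) = (-i) % (p : ℤ) := Int.toNat_of_nonneg (Int.emod_nonneg _ hpz.ne')
  have hdvd : (p : ℤ) ∣ (k : ℤ) + i := by
    rw [hk1]
    have h2 := (Int.mod_modEq (-i) (p : ℤ)).dvd
    have h3 : (-i) % (p : ℤ) + i = -(-i - -i % (p : ℤ)) := by ring
    rw [h3]
    exact h2.neg_right
  have hone : w ^ ((k : ℤ) + i) = 1 := by
    obtain ⟨m, hm⟩ := hdvd
    rw [hm, zpow_mul, zpow_natCast, hwp, one_zpow]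
  have hwi : ∀ u, u * w ^ i = w ^ i * u := fun u => (Commute.zpow_right (hw u) i).eq
  calc s ^ k * g * t = s ^ k * (g * t) := by rw [mul_assoc]
    _ = s ^ k * (w ^ i * t * g) := by rw [hgt]
    _ = w ^ i * (s ^ k * t) * g := by
      rw [mul_assoc (w ^ i), ← mul_assoc (s ^ k), hwi]; simp only [mul_assoc]
    _ = w ^ i * (w ^ k * t * s ^ k) * g := by rw [pow_mul_of_comm_central s t w hst hw k]
    _ = w ^ ((k : ℤ) + i) * (t * (s ^ k * g)) := by
      have hcomm : w ^ i * w ^ k = w ^ k * w ^ i := (hwi (w ^ k)).symm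
      rw [zpow_add, zpow_natCast, ← hcomm]
      simp only [mul_assoc]
    _ = t * (s ^ k * g) := by rw [hone, one_mul]

/-- Normal form in a group generated by `X`, `Y` whose commutator `Z` is central. -/
theorem heis_normal_form {Γ : Type*} [Group Γ] {p : ℕ} (hp : 0 < p) (X Y Z : Γ)
    (hX : X ^ p = 1) (hY : Y ^ p = 1) (hXY : X * Y * X⁻¹ * Y⁻¹ = Z)
    (hZ : ∀ u ∈ ({X, Y} : Set Γ), u * Z = Z * u) :
    ∀ g ∈ Subgroup.closure ({X, Y} : Set Γ), ∃ (a b : ℕ) (c : ℤ), g = X ^ a * Y ^ b * Z ^ c := by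
  have hZX : X * Z = Z * X := hZ X (by simp)
  have hZY : Y * Z = Z * Y := hZ Y (by simp)
  -- `X^a * Y = Z^a * Y * X^a`
  have key : ∀ a : ℕ, X ^ a * Y = Z ^ a * Y * X ^ a := by
    have h1 : X * Y = Z * Y * X := by rw [← hXY]; group
    intro a
    induction a with
    | zero => simp
    | succ a ih =>
      have hwk : X * Z ^ a = Z ^ a * X := (Commute.pow_right hZX a).eq
      calc X ^ (a + 1) * Y = X * (X ^ a * Y) := by rw [pow_succ', mul_assoc]
        _ = X * (Z ^ a * Y * X ^ a) := by rw [ih]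
        _ = Z ^ a * (X * Y) * X ^ a := by
          rw [mul_assoc (Z ^ a), ← mul_assoc X, hwk]; simp only [mul_assoc]
        _ = Z ^ a * (Z * Y * X) * X ^ a := by rw [h1]
        _ = Z ^ (a + 1) * Y * X ^ (a + 1) := by
          rw [pow_succ, pow_succ']; simp only [mul_assoc]
  apply closure_subset_of_left_mul _ {g | ∃ (a b : ℕ) (c : ℤ), g = X ^ a * Y ^ b * Z ^ c}
  · exact ⟨0, 0, 0, by simp⟩
  · intro x hx
    rcases hx with rfl | rfl
    · refine ⟨⟨p, hp, hX⟩, ?_⟩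
      rintro _ ⟨a, b, c, rfl⟩
      exact ⟨a + 1, b, c, by rw [pow_succ']; simp only [mul_assoc]⟩
    · refine ⟨⟨p, hp, hY⟩, ?_⟩
      rintro _ ⟨a, b, c, rfl⟩
      refine ⟨a, b + 1, c - a, ?_⟩
      have hYa : x * X ^ a = X ^ a * x * (Z ^ a)⁻¹ := by
        have hcomm : Commute (Z ^ a) (x * X ^ a) :=
          ((Commute.pow_right hZY a).symm).mul_right ((Commute.pow_right hZX a).symm.pow_right a)
        rw [key a, mul_assoc (Z ^ a), hcomm.eq, mul_assoc, mul_inv_cancel, mul_one]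
      have hZa' : (Z ^ a)⁻¹ * x ^ b = x ^ b * (Z ^ a)⁻¹ :=
        (((Commute.pow_right hZY a).pow_left b).inv_right).eq.symm
      calc x * (X ^ a * x ^ b * Z ^ c) = (x * X ^ a) * x ^ b * Z ^ c := by simp only [mul_assoc]
        _ = X ^ a * x * ((Z ^ a)⁻¹ * x ^ b) * Z ^ c := by rw [hYa]; simp only [mul_assoc]
        _ = X ^ a * x * (x ^ b * (Z ^ a)⁻¹) * Z ^ c := by rw [hZa']
        _ = X ^ a * x ^ (b + 1) * Z ^ (c - a) := by
          rw [pow_succ', zpow_sub, zpow_natCast]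
          have h3 : (Z ^ a)⁻¹ * Z ^ c = Z ^ c * (Z ^ a)⁻¹ := by
            rw [← zpow_natCast, ← zpow_neg, ← zpow_add, ← zpow_add, add_comm]
          simp only [mul_assoc, h3]

/-- Elementwise form of "extraspecial of exponent `p` with centre generated by `z`" (the cyclic
group of order `p` is included). -/
structure ESp (p : ℕ) (P : Type u) [Group P] (z : P) : Prop where
  z_ne : z ≠ 1
  exp : ∀ g : P, g ^ p = 1
  comm : ∀ g h : P, g * h * g⁻¹ * h⁻¹ ∈ Subgroup.zpowers z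
  central : ∀ g : P, g * z = z * g
  center : ∀ g : P, (∀ h, g * h = h * g) → g ∈ Subgroup.zpowers z

namespace ESp

variable {p : ℕ} [hp : Fact p.Prime] {P : Type u} [Group P] {z : P}

theorem orderOf_z (h : ESp p P z) : orderOf z = p := orderOf_eq_prime (h.exp z) h.z_ne

theorem zpow_eq_one_iff (h : ESp p P z) (i : ℤ) : z ^ i = 1 ↔ (p : ℤ) ∣ i := by
  rw [← h.orderOf_z]; exact orderOf_dvd_iff_zpow_eq_one.symm

theorem pow_eq_one_iff (h : ESp p P z) (k : ℕ) : z ^ k = 1 ↔ p ∣ k := by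
  rw [← h.orderOf_z]; exact orderOf_dvd_iff_pow_eq_one.symm

theorem pow_eq_one_of_dvd (h : ESp p P z) (g : P) {k : ℕ} (hk : p ∣ k) : g ^ k = 1 := by
  obtain ⟨m, rfl⟩ := hk; rw [pow_mul, h.exp, one_pow]

theorem zpow_eq_one_of_dvd (h : ESp p P z) (g : P) {k : ℤ} (hk : (p : ℤ) ∣ k) : g ^ k = 1 := by
  obtain ⟨m, rfl⟩ := hk; rw [zpow_mul, zpow_natCast, h.exp, one_zpow]

theorem z_mem_centralizer (h : ESp p P z) (S : Set P) : z ∈ Subgroup.centralizer S :=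
  Subgroup.mem_centralizer_iff.mpr (fun u _ => h.central u)

/-- If `x^a y^b z^c` commutes with `x` and `y` (where `[x,y] = z`) then `p ∣ a` and `p ∣ b`. -/
theorem dvd_of_comm (h : ESp p P z) (x y : P) (hc : x * y * x⁻¹ * y⁻¹ = z) (a b : ℕ) (c : ℤ)
    (hx : (x ^ a * y ^ b * z ^ c) * x = x * (x ^ a * y ^ b * z ^ c))
    (hy : (x ^ a * y ^ b * z ^ c) * y = y * (x ^ a * y ^ b * z ^ c)) : p ∣ a ∧ p ∣ b := by
  have hzc : ∀ u, u * z ^ c = z ^ c * u := fun u => (Commute.zpow_right (h.central u) c).eq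
  have h1 := pow_mul_of_comm_central x y z hc h.central a
  have hc' : y * x * y⁻¹ * x⁻¹ = z⁻¹ := by rw [← hc]; group
  have hzi : ∀ u, u * z⁻¹ = z⁻¹ * u := fun u => (Commute.inv_right (h.central u)).eq
  have h2 := pow_mul_of_comm_central y x z⁻¹ hc' hzi b
  constructor
  · rw [← h.pow_eq_one_iff]
    have e1 : x ^ a * y ^ b * z ^ c * y = (x ^ a * y) * (y ^ b * z ^ c) := by
      rw [mul_assoc (x ^ a * y ^ b), ← hzc y]
      have : y ^ b * y = y * y ^ b := by rw [← pow_succ, ← pow_succ']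
      simp only [mul_assoc]
      rw [← mul_assoc (y ^ b), this]; simp only [mul_assoc]
    rw [e1, h1] at hy
    have : z ^ a * (y * (x ^ a * y ^ b * z ^ c)) = 1 * (y * (x ^ a * y ^ b * z ^ c)) :=
      calc z ^ a * (y * (x ^ a * y ^ b * z ^ c)) = z ^ a * y * x ^ a * (y ^ b * z ^ c) := by
            simp only [mul_assoc]
        _ = y * (x ^ a * y ^ b * z ^ c) := hy
        _ = 1 * (y * (x ^ a * y ^ b * z ^ c)) := (one_mul _).symm
    exact mul_right_cancel this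
  · have hb : (z⁻¹) ^ b = 1 := by
      have e1 : x ^ a * y ^ b * z ^ c * x = x ^ a * (y ^ b * x) * z ^ c := by
        rw [mul_assoc (x ^ a * y ^ b), ← hzc x]; simp only [mul_assoc]
      rw [e1, h2] at hx
      have hzb : ∀ u, u * z⁻¹ ^ b = z⁻¹ ^ b * u := fun u => (Commute.pow_right (hzi u) b).eq
      have hxa : x ^ a * x = x * x ^ a := by rw [← pow_succ, ← pow_succ']
      have : z⁻¹ ^ b * (x * (x ^ a * y ^ b * z ^ c)) = 1 * (x * (x ^ a * y ^ b * z ^ c)) :=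
        calc z⁻¹ ^ b * (x * (x ^ a * y ^ b * z ^ c))
            = z⁻¹ ^ b * (x * x ^ a) * y ^ b * z ^ c := by simp only [mul_assoc]
          _ = z⁻¹ ^ b * (x ^ a * x) * y ^ b * z ^ c := by rw [hxa]
          _ = (x ^ a * z⁻¹ ^ b) * x * y ^ b * z ^ c := by rw [hzb (x ^ a)]; simp only [mul_assoc]
          _ = x ^ a * (z⁻¹ ^ b * x * y ^ b) * z ^ c := by simp only [mul_assoc]
          _ = x * (x ^ a * y ^ b * z ^ c) := hx
          _ = 1 * (x * (x ^ a * y ^ b * z ^ c)) := (one_mul _).symm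
      exact mul_right_cancel this
    rw [← h.pow_eq_one_iff]
    rw [inv_pow, inv_eq_one] at hb
    exact hb

/-- Every element is a product of powers of `y`, `x` and an element centralizing both. -/
theorem decomp (h : ESp p P z) (x y : P) (hc : x * y * x⁻¹ * y⁻¹ = z) (g : P) :
    ∃ (a b : ℕ), x ^ a * (y ^ b * g) ∈ Subgroup.centralizer ({x, y} : Set P) := by
  have hc' : y * x * y⁻¹ * x⁻¹ = z⁻¹ := by rw [← hc]; group
  have hzi : ∀ u, u * z⁻¹ = z⁻¹ * u := fun u => (Commute.inv_right (h.central u)).eq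
  obtain ⟨i, hi⟩ := Subgroup.mem_zpowers_iff.mp (h.comm g x)
  obtain ⟨b, hb⟩ := exists_pow_mul_comm hp.out.pos y x z⁻¹ g hc' hzi
    (by rw [inv_pow, h.exp, inv_one]) (-i) (by rw [← hi, zpow_neg, inv_zpow, inv_inv])
  obtain ⟨j, hj⟩ := Subgroup.mem_zpowers_iff.mp (h.comm (y ^ b * g) y)
  obtain ⟨a, ha⟩ := exists_pow_mul_comm hp.out.pos x y z (y ^ b * g) hc h.central (h.exp z) j
    hj.symm
  refine ⟨a, b, ?_⟩
  rw [Subgroup.mem_centralizer_iff]
  intro u hu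
  rcases hu with rfl | rfl
  · have : u * u ^ a = u ^ a * u := by rw [← pow_succ, ← pow_succ']
    calc u * (u ^ a * (y ^ b * g)) = (u * u ^ a) * (y ^ b * g) := by rw [mul_assoc]
      _ = u ^ a * (u * (y ^ b * g)) := by rw [this, mul_assoc]
      _ = u ^ a * (y ^ b * g) * u := by rw [← hb]; simp only [mul_assoc]
  · exact ha.symm

/-- The centralizer of a hyperbolic pair is again of the same kind. -/
theorem centralizer (h : ESp p P z) (x y : P) (hc : x * y * x⁻¹ * y⁻¹ = z) :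
    ESp p (Subgroup.centralizer ({x, y} : Set P)) ⟨z, h.z_mem_centralizer _⟩ where
  z_ne := fun e => h.z_ne (congrArg Subtype.val e)
  exp := fun g => Subtype.ext (by simpa using h.exp g.1)
  comm := fun g k => by
    obtain ⟨i, hi⟩ := Subgroup.mem_zpowers_iff.mp (h.comm g.1 k.1)
    exact Subgroup.mem_zpowers_iff.mpr ⟨i, Subtype.ext (by simpa using hi)⟩
  central := fun g => Subtype.ext (h.central g.1)
  center := fun g hg => by
    have hgz : g.1 ∈ Subgroup.zpowers z := by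
      apply h.center
      intro u
      obtain ⟨a, b, hab⟩ := h.decomp x y hc u
      have hgx : Commute g.1 x := (Subgroup.mem_centralizer_iff.mp g.2 x (by simp)).symm
      have hgy : Commute g.1 y := (Subgroup.mem_centralizer_iff.mp g.2 y (by simp)).symm
      have hgc : Commute g.1 (x ^ a * (y ^ b * u)) := congrArg Subtype.val (hg ⟨_, hab⟩)
      have hu : u = (y ^ b)⁻¹ * ((x ^ a)⁻¹ * (x ^ a * (y ^ b * u))) := by group
      have : Commute g.1 u := by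
        rw [hu]
        exact ((hgy.pow_right b).inv_right).mul_right (((hgx.pow_right a).inv_right).mul_right hgc)
      exact this.eq
    obtain ⟨i, hi⟩ := Subgroup.mem_zpowers_iff.mp hgz
    exact Subgroup.mem_zpowers_iff.mpr ⟨i, Subtype.ext (by simpa using hi)⟩

/-- The Heisenberg subgroup generated by a hyperbolic pair maps homomorphically onto the
corresponding one in a second group. -/
theorem exists_heis_hom {P₁ : Type u} {P₂ : Type v} [Group P₁] [Group P₂] {z₁ : P₁} {z₂ : P₂}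
    (h₁ : ESp p P₁ z₁) (h₂ : ESp p P₂ z₂) (x₁ y₁ : P₁) (x₂ y₂ : P₂)
    (hc₁ : x₁ * y₁ * x₁⁻¹ * y₁⁻¹ = z₁) (hc₂ : x₂ * y₂ * x₂⁻¹ * y₂⁻¹ = z₂) :
    ∃ (E : Subgroup P₁) (φ : E →* P₂), x₁ ∈ E ∧ y₁ ∈ E ∧
      ∀ e : E, ∃ (a b : ℕ) (c : ℤ), (e : P₁) = x₁ ^ a * y₁ ^ b * z₁ ^ c ∧
        φ e = x₂ ^ a * y₂ ^ b * z₂ ^ c := by
  set H : Subgroup (P₁ × P₂) := Subgroup.closure {(x₁, x₂), (y₁, y₂)} with hH
  have hnf : ∀ g ∈ H, ∃ (a b : ℕ) (c : ℤ),
      g = (x₁, x₂) ^ a * (y₁, y₂) ^ b * (z₁, z₂) ^ c := by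
    apply heis_normal_form hp.out.pos (x₁, x₂) (y₁, y₂) (z₁, z₂)
    · ext <;> simp [h₁.exp, h₂.exp]
    · ext <;> simp [h₁.exp, h₂.exp]
    · ext <;> simp [hc₁, hc₂]
    · intro u _
      ext
      · exact h₁.central u.1
      · exact h₂.central u.2
  let f : H →* P₁ := (MonoidHom.fst P₁ P₂).comp H.subtype
  have hf : Function.Injective f := by
    rw [injective_iff_map_eq_one]
    intro g hg
    obtain ⟨a, b, c, habc⟩ := hnf g.1 g.2
    have hg1 : x₁ ^ a * y₁ ^ b * z₁ ^ c = 1 := by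
      have : (g : P₁ × P₂).1 = 1 := hg
      rw [habc] at this
      simpa using this
    have hd := h₁.dvd_of_comm x₁ y₁ hc₁ a b c (by rw [hg1]; simp) (by rw [hg1]; simp)
    have hxa : x₁ ^ a = 1 := h₁.pow_eq_one_of_dvd _ hd.1
    have hyb : y₁ ^ b = 1 := h₁.pow_eq_one_of_dvd _ hd.2
    rw [hxa, hyb, one_mul, one_mul] at hg1
    have hcz : (p : ℤ) ∣ c := (h₁.zpow_eq_one_iff c).mp hg1
    apply Subtype.ext
    rw [habc]
    ext
    · simp [hxa, hyb, hg1]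
    · simp [h₂.pow_eq_one_of_dvd _ hd.1, h₂.pow_eq_one_of_dvd _ hd.2,
        (h₂.zpow_eq_one_iff c).mpr hcz]
  let e := MonoidHom.ofInjective hf
  refine ⟨f.range, ((MonoidHom.snd P₁ P₂).comp H.subtype).comp e.symm.toMonoidHom,
    ⟨⟨(x₁, x₂), Subgroup.subset_closure (by simp)⟩, rfl⟩,
    ⟨⟨(y₁, y₂), Subgroup.subset_closure (by simp)⟩, rfl⟩, ?_⟩
  intro r
  obtain ⟨a, b, c, habc⟩ := hnf (e.symm r).1 (e.symm r).2
  refine ⟨a, b, c, ?_, ?_⟩
  · have h1 : f (e.symm r) = r := MonoidHom.apply_ofInjective_symm hf r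
    rw [← h1]
    show ((e.symm r : P₁ × P₂)).1 = _
    rw [habc]; simp
  · show ((e.symm r : P₁ × P₂)).2 = _
    rw [habc]; simp

/-- Gluing an embedding of the centralizers of hyperbolic pairs to an embedding of the groups. -/
theorem glue {P₁ : Type u} {P₂ : Type v} [Group P₁] [Group P₂] {z₁ : P₁} {z₂ : P₂}
    (h₁ : ESp p P₁ z₁) (h₂ : ESp p P₂ z₂) (x₁ y₁ : P₁) (x₂ y₂ : P₂)
    (hc₁ : x₁ * y₁ * x₁⁻¹ * y₁⁻¹ = z₁) (hc₂ : x₂ * y₂ * x₂⁻¹ * y₂⁻¹ = z₂)
    (C : Subgroup P₁) (C₂ : Subgroup P₂)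
    (hC : C = Subgroup.centralizer ({x₁, y₁} : Set P₁))
    (hC₂ : C₂ = Subgroup.centralizer ({x₂, y₂} : Set P₂))
    (hzC : z₁ ∈ C) (hzC₂ : z₂ ∈ C₂)
    (ψ : C →* C₂) (hψ : Function.Injective ψ) (hψz : ψ ⟨z₁, hzC⟩ = ⟨z₂, hzC₂⟩) :
    ∃ F : P₁ →* P₂, Function.Injective F ∧ F z₁ = z₂ := by
  obtain ⟨E, φ, hxE, hyE, hE⟩ := h₁.exists_heis_hom h₂ x₁ y₁ x₂ y₂ hc₁ hc₂
  let ψ' : C →* P₂ := C₂.subtype.comp ψ
  have hψ' : ∀ c : C, ψ' c = (ψ c : P₂) := fun c => rfl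
  -- elements of `C` commute with `x₁`, `y₁`, `z₁`
  have hCx : ∀ c ∈ C, Commute c x₁ := fun c hc =>
    (Subgroup.mem_centralizer_iff.mp (hC ▸ hc) x₁ (by simp)).symm
  have hCy : ∀ c ∈ C, Commute c y₁ := fun c hc =>
    (Subgroup.mem_centralizer_iff.mp (hC ▸ hc) y₁ (by simp)).symm
  have hCx₂ : ∀ c ∈ C₂, Commute c x₂ := fun c hc =>
    (Subgroup.mem_centralizer_iff.mp (hC₂ ▸ hc) x₂ (by simp)).symm
  have hCy₂ : ∀ c ∈ C₂, Commute c y₂ := fun c hc =>
    (Subgroup.mem_centralizer_iff.mp (hC₂ ▸ hc) y₂ (by simp)).symm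
  have hz₁ : ∀ c : P₁, Commute c z₁ := fun c => h₁.central c
  have hz₂ : ∀ c : P₂, Commute c z₂ := fun c => h₂.central c
  have hdec : ∀ g : P₁, ∃ (a b : ℕ), x₁ ^ a * (y₁ ^ b * g) ∈ C := by
    intro g
    obtain ⟨a, b, hab⟩ := h₁.decomp x₁ y₁ hc₁ g
    exact ⟨a, b, hC ▸ hab⟩
  have hψzpow : ∀ (k : ℤ) (hk : z₁ ^ k ∈ C), ψ' ⟨z₁ ^ k, hk⟩ = z₂ ^ k := by
    intro k hk
    have : (⟨z₁ ^ k, hk⟩ : C) = (⟨z₁, hzC⟩ : C) ^ k := Subtype.ext (by simp)
    rw [hψ', this, map_zpow, hψz]; simp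
  -- the key fact about `E ∩ C`
  have hEC : ∀ (e : E), (e : P₁) ∈ C → ∃ k : ℤ, (e : P₁) = z₁ ^ k ∧ φ e = z₂ ^ k := by
    intro e heC
    obtain ⟨a, b, c, he, hφe⟩ := hE e
    have hd := h₁.dvd_of_comm x₁ y₁ hc₁ a b c (by rw [← he]; exact (hCx _ heC).eq)
      (by rw [← he]; exact (hCy _ heC).eq)
    refine ⟨c, ?_, ?_⟩
    · rw [he, h₁.pow_eq_one_of_dvd _ hd.1, h₁.pow_eq_one_of_dvd _ hd.2, one_mul, one_mul]
    · rw [hφe, h₂.pow_eq_one_of_dvd _ hd.1, h₂.pow_eq_one_of_dvd _ hd.2, one_mul, one_mul]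
  obtain ⟨F, hFE, hFC⟩ := exists_hom_of_centralProd E C
    (by
      intro e he c hc
      obtain ⟨a, b, k, hek, -⟩ := hE ⟨e, he⟩
      have hek' : e = x₁ ^ a * y₁ ^ b * z₁ ^ k := hek
      rw [hek']
      exact ((((hCx c hc).pow_right a).mul_right ((hCy c hc).pow_right b)).mul_right
        ((hz₁ c).zpow_right k)).eq.symm)
    (by
      intro g
      obtain ⟨a, b, hab⟩ := hdec g
      refine ⟨(y₁ ^ b)⁻¹ * (x₁ ^ a)⁻¹, E.mul_mem (E.inv_mem (E.pow_mem hyE b))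
        (E.inv_mem (E.pow_mem hxE a)), _, hab, by group⟩)
    φ ψ'
    (by
      intro e c
      obtain ⟨a, b, k, -, hφe⟩ := hE e
      rw [hφe, hψ']
      have hc := (ψ c).2
      exact ((((hCx₂ _ hc).pow_right a).mul_right ((hCy₂ _ hc).pow_right b)).mul_right
        ((hz₂ _).zpow_right k)).eq.symm)
    (by
      intro d hdE hdC
      obtain ⟨k, hk1, hk2⟩ := hEC ⟨d, hdE⟩ hdC
      have hk1' : d = z₁ ^ k := hk1
      rw [hk2]
      subst hk1'
      exact (hψzpow k hdC).symm)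
  refine ⟨F, ?_, ?_⟩
  · rw [injective_iff_map_eq_one]
    intro g hg
    obtain ⟨a, b, hab⟩ := hdec g
    set c : P₁ := x₁ ^ a * (y₁ ^ b * g) with hc
    set e : P₁ := (y₁ ^ b)⁻¹ * (x₁ ^ a)⁻¹ with he
    have heE : e ∈ E := E.mul_mem (E.inv_mem (E.pow_mem hyE b)) (E.inv_mem (E.pow_mem hxE a))
    have hgec : g = e * c := by rw [he, hc]; group
    have h1 : F g = φ ⟨e, heE⟩ * ψ' ⟨c, hab⟩ := by
      rw [hgec, map_mul]
      exact congrArg₂ _ (hFE ⟨e, heE⟩) (hFC ⟨c, hab⟩)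
    rw [hg] at h1
    obtain ⟨a', b', k, hek, hφe⟩ := hE ⟨e, heE⟩
    -- `φ e` lies in `C₂`
    have hφC : φ ⟨e, heE⟩ = ((ψ ⟨c, hab⟩)⁻¹ : C₂) := by
      rw [Subgroup.coe_inv, ← hψ']
      exact eq_inv_of_mul_eq_one_left h1.symm
    have hmem : x₂ ^ a' * y₂ ^ b' * z₂ ^ k ∈ C₂ := by
      rw [← hφe, hφC]; exact ((ψ ⟨c, hab⟩)⁻¹).2
    have hd := h₂.dvd_of_comm x₂ y₂ hc₂ a' b' k (hCx₂ _ hmem).eq (hCy₂ _ hmem).eq
    have hek' : e = z₁ ^ k := by
      have : e = x₁ ^ a' * y₁ ^ b' * z₁ ^ k := hek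
      rw [this, h₁.pow_eq_one_of_dvd _ hd.1, h₁.pow_eq_one_of_dvd _ hd.2, one_mul, one_mul]
    have heC : e ∈ C := by rw [hek']; exact C.zpow_mem hzC k
    have hgC : g ∈ C := by rw [hgec]; exact C.mul_mem heC hab
    have h2 : F g = ψ' ⟨g, hgC⟩ := hFC ⟨g, hgC⟩
    rw [hg] at h2
    have h3 : ψ ⟨g, hgC⟩ = 1 := Subtype.ext h2.symm
    have h4 : (⟨g, hgC⟩ : C) = 1 := (injective_iff_map_eq_one ψ).mp hψ _ h3
    exact congrArg Subtype.val h4
  · have := hFC ⟨z₁, hzC⟩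
    rw [hψ', hψz] at this
    exact this

/-- The abelian case: the group is cyclic of order `p`. -/
theorem hom_of_abelian {P₁ : Type u} {P₂ : Type v} [Group P₁] [Group P₂] {z₁ : P₁} {z₂ : P₂}
    (h₁ : ESp p P₁ z₁) (h₂ : ESp p P₂ z₂) (hab : ∀ g k : P₁, g * k = k * g) :
    ∃ F : P₁ →* P₂, Function.Injective F ∧ F z₁ = z₂ := by
  have hg : ∀ x, x ∈ Subgroup.zpowers z₁ := fun x => h₁.center x (hab x)
  have hg' : orderOf z₂ ∣ orderOf z₁ := by rw [h₁.orderOf_z, h₂.orderOf_z]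
  refine ⟨monoidHomOfForallMemZpowers hg hg', ?_, monoidHomOfForallMemZpowers_apply_gen hg hg'⟩
  rw [injective_iff_map_eq_one]
  intro x hx
  obtain ⟨i, rfl⟩ := Subgroup.mem_zpowers_iff.mp (hg x)
  rw [map_zpow, monoidHomOfForallMemZpowers_apply_gen, h₂.zpow_eq_one_iff] at hx
  exact (h₁.zpow_eq_one_iff i).mpr hx

/-- In the nonabelian case there is a hyperbolic pair. -/
theorem exists_comm_eq (h : ESp p P z) (hab : ¬ ∀ g k : P, g * k = k * g) :
    ∃ x y : P, x * y * x⁻¹ * y⁻¹ = z := by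
  push Not at hab
  obtain ⟨g, k, hgk⟩ := hab
  obtain ⟨i, hi⟩ := Subgroup.mem_zpowers_iff.mp (h.comm g k)
  have hi1 : ¬ (p : ℤ) ∣ i := by
    intro hdvd
    rw [(h.zpow_eq_one_iff i).mpr hdvd] at hi
    apply hgk
    have : g * k * g⁻¹ * k⁻¹ = 1 := hi.symm
    calc g * k = (g * k * g⁻¹ * k⁻¹) * (k * g) := by group
      _ = k * g := by rw [this, one_mul]
  have hi0 : ((i : ℤ) : ZMod p) ≠ 0 := by
    rw [Ne, ZMod.intCast_zmod_eq_zero_iff_dvd]; exact hi1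
  set j : ℕ := (((i : ℤ) : ZMod p)⁻¹).val with hj
  have hij : (((i * (j : ℤ) : ℤ)) : ZMod p) = ((1 : ℤ) : ZMod p) := by
    push_cast
    rw [hj, ZMod.natCast_val, ZMod.cast_id', id, mul_inv_cancel₀ hi0]
  have hdvd : (p : ℤ) ∣ i * (j : ℤ) - 1 := by
    have := (ZMod.intCast_eq_intCast_iff_dvd_sub 1 (i * (j : ℤ)) p).mp hij.symm
    exact this
  refine ⟨g, k ^ j, ?_⟩
  -- `[g, k^j] = [g,k]^j`
  have hcz : ∀ u, u * (z ^ i)⁻¹ = (z ^ i)⁻¹ * u := fun u =>
    ((Commute.zpow_right (h.central u) i).inv_right).eq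
  have hkg : k * g * k⁻¹ * g⁻¹ = (z ^ i)⁻¹ := by rw [hi]; group
  have h1 := pow_mul_of_comm_central k g (z ^ i)⁻¹ hkg hcz j
  have h2 : g * k ^ j * g⁻¹ * (k ^ j)⁻¹ = (z ^ i) ^ j := by
    have : g * k ^ j = (z ^ i) ^ j * (k ^ j * g) := by
      rw [h1, inv_pow]; group
    rw [this]; group
  rw [h2, ← zpow_natCast, ← zpow_mul]
  obtain ⟨m, hm⟩ := hdvd
  have : i * (j : ℤ) = 1 + (p : ℤ) * m := by linarith
  rw [this, zpow_add, zpow_one, h.zpow_eq_one_of_dvd z (dvd_mul_right _ _), mul_one]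

/-- Two groups of this kind: one embeds into the other, respecting the central generators. -/
theorem embed : ∀ n : ℕ, ∀ {P₁ : Type u} {P₂ : Type v} [Group P₁] [Group P₂] [Finite P₁]
    [Finite P₂] {z₁ : P₁} {z₂ : P₂}, ESp p P₁ z₁ → ESp p P₂ z₂ →
    Nat.card P₁ + Nat.card P₂ ≤ n →
    (∃ F : P₁ →* P₂, Function.Injective F ∧ F z₁ = z₂) ∨
    (∃ F : P₂ →* P₁, Function.Injective F ∧ F z₂ = z₁) := by
  intro n
  induction n with
  | zero =>
    intro P₁ P₂ _ _ _ _ z₁ z₂ h₁ h₂ hn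
    have := Nat.card_pos (α := P₁)
    omega
  | succ n ih =>
    intro P₁ P₂ _ _ _ _ z₁ z₂ h₁ h₂ hn
    by_cases hab₁ : ∀ g k : P₁, g * k = k * g
    · left; exact h₁.hom_of_abelian h₂ hab₁
    by_cases hab₂ : ∀ g k : P₂, g * k = k * g
    · right; exact h₂.hom_of_abelian h₁ hab₂
    obtain ⟨x₁, y₁, hc₁⟩ := h₁.exists_comm_eq hab₁
    obtain ⟨x₂, y₂, hc₂⟩ := h₂.exists_comm_eq hab₂
    have hlt : Nat.card (Subgroup.centralizer ({x₁, y₁} : Set P₁)) < Nat.card P₁ := by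
      apply lt_of_le_of_ne (Subgroup.card_le_card_group _)
      intro hcard
      have htop := (Subgroup.card_eq_iff_eq_top _).mp hcard
      have hx : x₁ ∈ Subgroup.centralizer ({x₁, y₁} : Set P₁) := by rw [htop]; trivial
      have hxy : y₁ * x₁ = x₁ * y₁ := Subgroup.mem_centralizer_iff.mp hx y₁ (by simp)
      apply h₁.z_ne
      rw [← hc₁, ← hxy]; group
    have hle : Nat.card (Subgroup.centralizer ({x₂, y₂} : Set P₂)) ≤ Nat.card P₂ :=
      Subgroup.card_le_card_group _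
    rcases ih (h₁.centralizer x₁ y₁ hc₁) (h₂.centralizer x₂ y₂ hc₂) (by omega) with
      ⟨ψ, hψ, hψz⟩ | ⟨ψ, hψ, hψz⟩
    · left; exact h₁.glue h₂ x₁ y₁ x₂ y₂ hc₁ hc₂ _ _ rfl rfl _ _ ψ hψ hψz
    · right; exact h₂.glue h₁ x₂ y₂ x₁ y₁ hc₂ hc₁ _ _ rfl rfl _ _ ψ hψ hψz

/-- Two finite groups of this kind of the same order are isomorphic, by an isomorphism matching
the central generators. -/
theorem exists_mulEquiv {P₁ : Type u} {P₂ : Type v} [Group P₁] [Group P₂] [Finite P₁]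
    [Finite P₂] {z₁ : P₁} {z₂ : P₂} (h₁ : ESp p P₁ z₁) (h₂ : ESp p P₂ z₂)
    (hc : Nat.card P₁ = Nat.card P₂) : ∃ e : P₁ ≃* P₂, e z₁ = z₂ := by
  rcases embed _ h₁ h₂ le_rfl with ⟨F, hF, hFz⟩ | ⟨F, hF, hFz⟩
  · have hb : Function.Bijective F := hF.bijective_of_nat_card_le hc.ge
    exact ⟨MulEquiv.ofBijective F hb, hFz⟩
  · have hb : Function.Bijective F := hF.bijective_of_nat_card_le hc.le
    refine ⟨(MulEquiv.ofBijective F hb).symm, ?_⟩
    rw [MulEquiv.symm_apply_eq]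
    exact hFz.symm

end ESp

/-- An extraspecial `p`-group of exponent `p` is of the elementwise kind `ESp`. -/
theorem exists_ESp_of_isExtraspecial {p : ℕ} [Fact p.Prime] {E : Type u} [Group E] [Finite E]
    (h : Cfsg.IsExtraspecial p E) (he : Monoid.exponent E = p) : ∃ z : E, ESp p E z := by
  obtain ⟨⟨-, -, hcomm⟩, hcard⟩ := h
  have hexp : ∀ g : E, g ^ p = 1 := fun g => by rw [← he]; exact Monoid.pow_exponent_eq_one g
  have hex : ∃ z ∈ Subgroup.center E, z ≠ 1 := by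
    by_contra hcon
    push Not at hcon
    have hbot : Subgroup.center E = ⊥ := (Subgroup.eq_bot_iff_forall _).mpr hcon
    rw [hbot, Subgroup.card_bot] at hcard
    exact (Fact.out : p.Prime).one_lt.ne hcard
  obtain ⟨z, hz, hz1⟩ := hex
  have hoz : orderOf z = p := orderOf_eq_prime (hexp z) hz1
  have hzc : Subgroup.zpowers z = Subgroup.center E := by
    apply Subgroup.eq_of_le_of_card_ge (Subgroup.zpowers_le.mpr hz)
    rw [Nat.card_zpowers, hoz, hcard]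
  refine ⟨z, hz1, hexp, ?_, ?_, ?_⟩
  · intro g k
    rw [hzc, ← hcomm]
    have := Subgroup.commutator_mem_commutator (Subgroup.mem_top g) (Subgroup.mem_top k)
    rw [commutatorElement_def] at this
    exact this
  · intro g
    exact Subgroup.mem_center_iff.mp hz g
  · intro g hg
    rw [hzc, Subgroup.mem_center_iff]
    intro k
    exact (hg k).symm

end Cfsg.Agent.Helper29
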