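import Cfsg.Agent.Helper29.Fitting

set_option autoImplicit false

/-!
Groups with centre of order two containing the commutator subgroup (for instance extraspecial
2-groups), helper29.

* `exists_central_involution`: the non-identity element `z` of the centre.
* `card_le_two_mul_card_commuting`: every centraliser has index at most two.
* `exists_inner_of_involutive`: an involutive automorphism whose fixed-point subgroup has index
  two is inner.
-/

namespace Cfsg.Agent.Helper29

/-- If the centre of `Q` has order two, it consists of `1` and an element `z ≠ 1` with `z² = 1`. -/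
theorem exists_central_involution {Q : Type*} [Group Q]
    (hZ : Nat.card (Subgroup.center Q) = 2) :
    ∃ z : Q, z ∈ Subgroup.center Q ∧ z ≠ 1 ∧ z * z = 1 ∧
      ∀ c ∈ Subgroup.center Q, c = 1 ∨ c = z := by
  obtain ⟨z, hz1, hzu⟩ := (Nat.card_eq_two_iff' (1 : Subgroup.center Q)).mp hZ
  have hz1' : (z : Q) ≠ 1 := fun h => hz1 (Subtype.ext h)
  have hall : ∀ c ∈ Subgroup.center Q, c = 1 ∨ c = (z : Q) := by
    intro c hc
    by_cases h : c = 1
    · exact Or.inl h
    · right
      have := hzu ⟨c, hc⟩ (fun h' => h (congrArg Subtype.val h'))
      exact congrArg Subtype.val this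
  refine ⟨z, z.2, hz1', ?_, hall⟩
  rcases hall _ (Subgroup.mul_mem _ z.2 z.2) with h | h
  · exact h
  · exfalso
    apply hz1'
    have h' : (z : Q) * z = z * 1 := by rw [h, mul_one]
    exact mul_left_cancel h'

/-- In a finite group whose centre has order two and contains all commutators, every centraliser
has index at most two. -/
theorem card_le_two_mul_card_commuting {Q : Type*} [Group Q] [Fintype Q] [DecidableEq Q]
    (hZ : Nat.card (Subgroup.center Q) = 2) (hQ' : commutator Q ≤ Subgroup.center Q) (q : Q) :
    Fintype.card Q ≤ 2 * (Finset.univ.filter (fun y : Q => q * y = y * q)).card := by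
  obtain ⟨z, hzc, hz1, hzz, hzall⟩ := exists_central_involution hZ
  have hzcomm : ∀ g : Q, g * z = z * g := fun g => Subgroup.mem_center_iff.mp hzc g
  have hcomm : ∀ a b : Q, a * b ≠ b * a → a * b = z * b * a := by
    intro a b hab
    have hmem : a * b * a⁻¹ * b⁻¹ ∈ Subgroup.center Q :=
      hQ' (Subgroup.commutator_mem_commutator (Subgroup.mem_top a) (Subgroup.mem_top b))
    rcases hzall _ hmem with h | h
    · exfalso
      apply hab
      calc a * b = (a * b * a⁻¹ * b⁻¹) * (b * a) := by group
        _ = b * a := by rw [h, one_mul]
    · calc a * b = (a * b * a⁻¹ * b⁻¹) * b * a := by group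
        _ = z * b * a := by rw [h]
  by_cases hq : ∃ a : Q, a * q ≠ q * a
  · obtain ⟨a, ha⟩ := hq
    have haq : a * q = z * q * a := hcomm a q ha
    -- `a⁻¹ q = z q a⁻¹`
    have haq' : a⁻¹ * q = z * q * a⁻¹ := by
      have h1 : q = a⁻¹ * (z * q * a) := by rw [← haq]; group
      have h2 : a⁻¹ * (z * q * a) = z * (a⁻¹ * q) * a := by
        rw [← mul_assoc, ← mul_assoc, hzcomm a⁻¹]; group
      calc a⁻¹ * q = z * (z * (a⁻¹ * q) * a) * a⁻¹ := by
            rw [← mul_assoc, ← mul_assoc, hzz]; group
        _ = z * q * a⁻¹ := by rw [← h2, ← h1]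
    have hsub : (Finset.univ : Finset Q) ⊆ Finset.univ.filter (fun y : Q => q * y = y * q) ∪
        (Finset.univ.filter (fun y : Q => q * y = y * q)).image (fun y => a * y) := by
      intro b _
      rw [Finset.mem_union]
      by_cases hb : q * b = b * q
      · left
        simp [hb]
      · right
        rw [Finset.mem_image]
        refine ⟨a⁻¹ * b, ?_, by group⟩
        rw [Finset.mem_filter]
        refine ⟨Finset.mem_univ _, ?_⟩
        have hbq : b * q = z * q * b := hcomm b q (fun h => hb h.symm)
        calc q * (a⁻¹ * b) = z * (z * q * a⁻¹) * b := by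
              rw [← mul_assoc z, ← mul_assoc z, hzz]; group
          _ = z * (a⁻¹ * q) * b := by rw [haq']
          _ = a⁻¹ * (z * q * b) := by
              rw [← mul_assoc, ← hzcomm a⁻¹]; group
          _ = a⁻¹ * b * q := by rw [← hbq]; group
    calc Fintype.card Q = (Finset.univ : Finset Q).card := rfl
      _ ≤ (Finset.univ.filter (fun y : Q => q * y = y * q) ∪
          (Finset.univ.filter (fun y : Q => q * y = y * q)).image (fun y => a * y)).card :=
        Finset.card_le_card hsub
      _ ≤ (Finset.univ.filter (fun y : Q => q * y = y * q)).card +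
          ((Finset.univ.filter (fun y : Q => q * y = y * q)).image (fun y => a * y)).card :=
        Finset.card_union_le _ _
      _ ≤ (Finset.univ.filter (fun y : Q => q * y = y * q)).card +
          (Finset.univ.filter (fun y : Q => q * y = y * q)).card :=
        Nat.add_le_add_left Finset.card_image_le _
      _ = 2 * (Finset.univ.filter (fun y : Q => q * y = y * q)).card := by ring
  · have hall : ∀ a : Q, a * q = q * a := by
      intro a
      by_contra h
      exact hq ⟨a, h⟩
    have : Finset.univ.filter (fun y : Q => q * y = y * q) = Finset.univ := by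
      rw [Finset.filter_eq_self]
      intro y _
      exact (hall y).symm
    rw [this]
    have : Fintype.card Q = (Finset.univ : Finset Q).card := rfl
    omega

/-- Let `Q` be a finite group whose centre has order two and contains all commutators (for
instance an extraspecial 2-group), and let `α` be an involutive automorphism of `Q` (given as a
multiplicative map with `α ∘ α = id`) whose fixed points form a subgroup `M` of index two.
Then `α` is an inner automorphism. -/
theorem exists_inner_of_involutive {Q : Type*} [Group Q] [Finite Q]
    (hZ : Nat.card (Subgroup.center Q) = 2) (hQ' : commutator Q ≤ Subgroup.center Q)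
    (α : Q → Q) (hmul : ∀ a b, α (a * b) = α a * α b) (hinv : ∀ a, α (α a) = a)
    (M : Subgroup Q) (hM : ∀ q, q ∈ M ↔ α q = q) (hidx : M.index = 2) :
    ∃ y : Q, ∀ q, α q = y * q * y⁻¹ := by
  classical
  have := Fintype.ofFinite Q
  obtain ⟨z, hzc, hz1, hzz, hzall⟩ := exists_central_involution hZ
  have hzcomm : ∀ g : Q, g * z = z * g := fun g => Subgroup.mem_center_iff.mp hzc g
  have hcomm : ∀ a b : Q, a * b ≠ b * a → a * b = z * b * a := by
    intro a b hab
    have hmem : a * b * a⁻¹ * b⁻¹ ∈ Subgroup.center Q :=
      hQ' (Subgroup.commutator_mem_commutator (Subgroup.mem_top a) (Subgroup.mem_top b))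
    rcases hzall _ hmem with h | h
    · exfalso
      apply hab
      calc a * b = (a * b * a⁻¹ * b⁻¹) * (b * a) := by group
        _ = b * a := by rw [h, one_mul]
    · calc a * b = (a * b * a⁻¹ * b⁻¹) * b * a := by group
        _ = z * b * a := by rw [h]
  have hmem2 : ∀ a b : Q, a * b ∈ M ↔ (a ∈ M ↔ b ∈ M) :=
    fun a b => Subgroup.mul_mem_iff_of_index_two hidx
  have hα1 : α 1 = 1 := by
    have h := hmul 1 1
    rw [one_mul] at h
    exact (mul_eq_left.mp h.symm)
  have hαinv : ∀ a, α a⁻¹ = (α a)⁻¹ := fun a =>
    eq_inv_of_mul_eq_one_left (by rw [← hmul, inv_mul_cancel, hα1])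
  have hαinj : Function.Injective α := fun a b h => by
    rw [← hinv a, ← hinv b, h]
  -- outside `M` the automorphism is multiplication by `z`
  have hα_out : ∀ x : Q, x ∉ M → α x = x * z := by
    intro x hx
    have hαx : α x = x * (x⁻¹ * α x) := by group
    have hαxM : α x ∉ M := by
      intro h
      rw [hM, hinv] at h
      exact hx ((hM x).mpr h.symm)
    have hcM : x⁻¹ * α x ∈ M := by
      rw [hmem2]
      constructor
      · intro h
        exact absurd (M.inv_mem_iff.mp h) hx
      · intro h
        exact absurd h hαxM
    generalize x⁻¹ * α x = c at hαx hcM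
    have hαc : α c = c := (hM c).mp hcM
    have hcc : c * c = 1 := by
      have h1 : α (α x) = x * c * c := by rw [hαx, hmul, hαx, hαc]
      rw [hinv] at h1
      have h2 : x * 1 = x * (c * c) := by rw [mul_one, ← mul_assoc]; exact h1
      exact (mul_left_cancel h2).symm
    have hcinv : c⁻¹ = c := inv_eq_of_mul_eq_one_left hcc
    have hcMcomm : ∀ m ∈ M, c * m = m * c := by
      intro m hm
      have hxm : x * m * x⁻¹ ∈ M := by
        rw [hmem2, hmem2]
        constructor
        · intro h
          exact absurd (h.mpr hm) hx
        · intro h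
          exact absurd (M.inv_mem_iff.mp h) hx
      have h1 : α (x * m * x⁻¹) = x * m * x⁻¹ := (hM _).mp hxm
      rw [hmul, hmul, hαinv, hαx, (hM m).mp hm] at h1
      calc c * m = x⁻¹ * (x * c * m * (x * c)⁻¹) * x * c := by group
        _ = x⁻¹ * (x * m * x⁻¹) * x * c := by rw [h1]
        _ = m * c := by group
    have hcx : c * x = x * c := by
      have hxx : x * x ∈ M := by rw [hmem2]
      have h1 : α (x * x) = x * x := (hM _).mp hxx
      rw [hmul, hαx] at h1
      calc c * x = x⁻¹ * (x * c * (x * c)) * c⁻¹ := by group
        _ = x⁻¹ * (x * x) * c⁻¹ := by rw [h1]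
        _ = x * c := by rw [hcinv]; group
    have hcc' : c ∈ Subgroup.center Q := by
      rw [Subgroup.mem_center_iff]
      intro q
      by_cases hq : q ∈ M
      · exact (hcMcomm q hq).symm
      · have h1 : x⁻¹ * q ∈ M := by
          rw [hmem2]
          constructor
          · intro h
            exact absurd (M.inv_mem_iff.mp h) hx
          · intro h
            exact absurd h hq
        have h2 := hcMcomm _ h1
        calc q * c = x * (x⁻¹ * q * c) := by group
          _ = x * (c * (x⁻¹ * q)) := by rw [h2]
          _ = (x * c) * (x⁻¹ * q) := by group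
          _ = (c * x) * (x⁻¹ * q) := by rw [hcx]
          _ = c * q := by group
    rcases hzall c hcc' with h | h
    · exfalso
      apply hx
      rw [hM, hαx, h, mul_one]
    · rw [hαx, h]
  -- elements outside `M` are not central
  have hout_noncentral : ∀ x : Q, x ∉ M → ∃ y : Q, y * x ≠ x * y := by
    intro x hx
    by_contra hall
    have hxc : x ∈ Subgroup.center Q := by
      rw [Subgroup.mem_center_iff]
      intro g
      by_contra h
      exact hall ⟨g, h⟩
    rcases hzall x hxc with h | h
    · apply hx
      rw [h]
      exact M.one_mem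
    · have h1 := hα_out x hx
      rw [h, hzz, ← hα1] at h1
      exact hz1 (hαinj h1)
  -- double counting of the pairs `(q, y)` with `α q * y = y * q`
  have hlower : ∀ q : Q, Fintype.card Q ≤
      2 * (Finset.univ.filter (fun y : Q => α q * y = y * q)).card := by
    intro q
    have hC := card_le_two_mul_card_commuting hZ hQ' q
    obtain ⟨y₀, hy₀⟩ : ∃ y₀ : Q, α q * y₀ = y₀ * q := by
      by_cases hq : q ∈ M
      · exact ⟨1, by rw [(hM q).mp hq, mul_one, one_mul]⟩
      · obtain ⟨y, hy⟩ := hout_noncentral q hq
        refine ⟨y, ?_⟩
        rw [hα_out q hq, hcomm y q hy, hzcomm q]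
    have hle : (Finset.univ.filter (fun y : Q => q * y = y * q)).card ≤
        (Finset.univ.filter (fun y : Q => α q * y = y * q)).card := by
      apply Finset.card_le_card_of_injOn (fun c => y₀ * c)
      · intro c hc
        have hc' : q * c = c * q := by simpa using hc
        simp only [Finset.coe_filter, Finset.mem_univ, true_and, Set.mem_ofPred_eq]
        calc α q * (y₀ * c) = (α q * y₀) * c := by group
          _ = y₀ * (q * c) := by rw [hy₀]; group
          _ = y₀ * c * q := by rw [hc']; group
      · intro a _ b _ hab
        exact mul_left_cancel hab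
    omega
  have hone : (Finset.univ.filter (fun y : Q => α 1 * y = y * 1)).card = Fintype.card Q := by
    have : Finset.univ.filter (fun y : Q => α 1 * y = y * 1) = Finset.univ := by
      rw [Finset.filter_eq_self]
      intro y _
      rw [hα1, one_mul, mul_one]
    rw [this]
    rfl
  by_contra hno
  have hupper : ∀ y : Q, 2 * (Finset.univ.filter (fun q : Q => α q * y = y * q)).card ≤
      Fintype.card Q := by
    intro y
    -- the fixed points of `q ↦ y⁻¹ α(q) y` form a proper subgroup
    let F : Subgroup Q :=
      { carrier := {q | α q * y = y * q}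
        mul_mem' := fun {a b} ha hb => by
          have ha' : α a * y = y * a := ha
          have hb' : α b * y = y * b := hb
          change α (a * b) * y = y * (a * b)
          calc α (a * b) * y = α a * (α b * y) := by rw [hmul]; group
            _ = (α a * y) * b := by rw [hb']; group
            _ = y * (a * b) := by rw [ha']; group
        one_mem' := by
          change α 1 * y = y * 1
          rw [hα1, one_mul, mul_one]
        inv_mem' := fun {a} ha => by
          have ha' : α a * y = y * a := ha
          change α a⁻¹ * y = y * a⁻¹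
          rw [hαinv]
          calc (α a)⁻¹ * y = (α a)⁻¹ * (y * a) * a⁻¹ := by group
            _ = (α a)⁻¹ * (α a * y) * a⁻¹ := by rw [ha']
            _ = y * a⁻¹ := by group }
    have hFne : F ≠ ⊤ := by
      intro hF
      apply hno
      refine ⟨y, fun q => ?_⟩
      have hq : q ∈ F := by rw [hF]; trivial
      have hq' : α q * y = y * q := hq
      calc α q = (α q * y) * y⁻¹ := by group
        _ = y * q * y⁻¹ := by rw [hq']
    have hcardF : Nat.card F = (Finset.univ.filter (fun q : Q => α q * y = y * q)).card := by
      rw [Nat.card_eq_fintype_card]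
      exact Fintype.card_subtype _
    have hidxF : 2 ≤ F.index := by
      have h0 : F.index ≠ 0 := Subgroup.index_ne_zero_of_finite
      have h1 : F.index ≠ 1 := fun h => hFne (Subgroup.index_eq_one.mp h)
      omega
    have hmulF := Subgroup.card_mul_index F
    rw [Nat.card_eq_fintype_card (α := Q)] at hmulF
    rw [← hcardF, ← hmulF]
    calc 2 * Nat.card F = Nat.card F * 2 := by ring
      _ ≤ Nat.card F * F.index := Nat.mul_le_mul_left _ hidxF
  have hdc := Finset.sum_card_bipartiteAbove_eq_sum_card_bipartiteBelow
    (s := (Finset.univ : Finset Q)) (t := (Finset.univ : Finset Q))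
    (r := fun q y : Q => α q * y = y * q)
  simp only [Finset.bipartiteAbove, Finset.bipartiteBelow] at hdc
  -- lower bound for the left-hand side
  have h1 : ∑ q : Q, (if q = 1 then 2 * Fintype.card Q else Fintype.card Q) ≤
      ∑ q : Q, 2 * (Finset.univ.filter (fun y : Q => α q * y = y * q)).card := by
    apply Finset.sum_le_sum
    intro q _
    by_cases hq : q = 1
    · rw [if_pos hq, hq, hone]
    · rw [if_neg hq]
      exact hlower q
  have h2 : ∑ q : Q, (if q = 1 then 2 * Fintype.card Q else Fintype.card Q) =
      Fintype.card Q * Fintype.card Q + Fintype.card Q := by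
    have : ∀ q : Q, (if q = 1 then 2 * Fintype.card Q else Fintype.card Q) =
        Fintype.card Q + (if q = 1 then Fintype.card Q else 0) := by
      intro q
      by_cases hq : q = 1
      · rw [if_pos hq, if_pos hq]; ring
      · rw [if_neg hq, if_neg hq]; ring
    simp only [this]
    rw [Finset.sum_add_distrib, Finset.sum_const, Finset.sum_ite_eq']
    simp [Finset.card_univ]
  have h3 : ∑ y : Q, 2 * (Finset.univ.filter (fun q : Q => α q * y = y * q)).card ≤
      Fintype.card Q * Fintype.card Q := by
    calc ∑ y : Q, 2 * (Finset.univ.filter (fun q : Q => α q * y = y * q)).card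
        ≤ ∑ _y : Q, Fintype.card Q := Finset.sum_le_sum (fun y _ => hupper y)
      _ = Fintype.card Q * Fintype.card Q := by
          rw [Finset.sum_const, Finset.card_univ, smul_eq_mul]
  have h4 : ∑ q : Q, 2 * (Finset.univ.filter (fun y : Q => α q * y = y * q)).card =
      ∑ y : Q, 2 * (Finset.univ.filter (fun q : Q => α q * y = y * q)).card := by
    rw [← Finset.mul_sum, ← Finset.mul_sum, hdc]
  have hpos : 0 < Fintype.card Q := Fintype.card_pos
  omega

end Cfsg.Agent.Helper29
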