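import Cfsg.Agent.Helper29.Frobenius

/-!
# Solutions of `x ^ n = 1` in finite solvable groups

If `G` is a finite solvable group, `n` divides `|G|` and `x ^ n = 1` has exactly `n` solutions,
the solutions form a normal subgroup (P. Hall, *The Theory of Groups*, Theorem 9.4.1).
-/

set_option autoImplicit false

namespace Cfsg.Agent.Helper29

universe u

section Solvable

/-- A nontrivial finite solvable group has a nontrivial normal subgroup of prime exponent. -/
theorem exists_normal_exponent_prime (G : Type*) [Group G] [Finite G] [hG : Group.IsSolvable G]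
    [Nontrivial G] :
    ∃ (p : ℕ) (K : Subgroup G), p.Prime ∧ K.Normal ∧ K ≠ ⊥ ∧ ∀ x ∈ K, x ^ p = 1 := by
  classical
  have hex : ∃ n, derivedSeries G n = ⊥ := hG.solvable
  have hk : derivedSeries G (Nat.find hex) = ⊥ := Nat.find_spec hex
  have hk0 : Nat.find hex ≠ 0 := by
    intro h0
    rw [h0, derivedSeries_zero] at hk
    exact top_ne_bot hk
  obtain ⟨m, hm⟩ := Nat.exists_eq_succ_of_ne_zero hk0
  have hAn : (derivedSeries G m).Normal := derivedSeries_normal G m
  have hA0 : derivedSeries G m ≠ ⊥ := Nat.find_min hex (by rw [hm]; exact Nat.lt_succ_self m)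
  have hAc : ∀ a ∈ derivedSeries G m, ∀ b ∈ derivedSeries G m, a * b = b * a := by
    intro a ha b hb
    have h1 : a * b * a⁻¹ * b⁻¹ ∈ derivedSeries G (m + 1) := by
      rw [derivedSeries_succ]
      exact Subgroup.commutator_mem_commutator ha hb
    rw [← Nat.succ_eq_add_one, ← hm, hk, Subgroup.mem_bot] at h1
    have : a * b = (a * b * a⁻¹ * b⁻¹) * (b * a) := by group
    rw [this, h1, one_mul]
  generalize derivedSeries G m = A at hAn hA0 hAc
  have hcard : Nat.card A ≠ 1 := fun h => hA0 (Subgroup.card_eq_one.1 h)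
  obtain ⟨p, hp, hpd⟩ := Nat.exists_prime_and_dvd hcard
  have : Fact p.Prime := ⟨hp⟩
  obtain ⟨a, ha⟩ := exists_prime_orderOf_dvd_card' p hpd
  let K : Subgroup G :=
    { carrier := {x | x ∈ A ∧ x ^ p = 1}
      mul_mem' := by
        rintro x y ⟨hx, hxp⟩ ⟨hy, hyp⟩
        exact ⟨mul_mem hx hy, by
          rw [(show Commute x y from hAc x hx y hy).mul_pow, hxp, hyp, one_mul]⟩
      one_mem' := ⟨one_mem _, one_pow _⟩
      inv_mem' := by
        rintro x ⟨hx, hxp⟩
        exact ⟨inv_mem hx, by rw [inv_pow, hxp, inv_one]⟩ }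
  refine ⟨p, K, hp, ⟨?_⟩, ?_, fun x hx => hx.2⟩
  · rintro x ⟨hx, hxp⟩ g
    exact ⟨hAn.conj_mem x hx g, by rw [conj_pow, hxp, mul_one, mul_inv_cancel]⟩
  · intro hK
    have h1 : (a : G) ∈ K :=
      ⟨a.2, by rw [← ha, ← Subgroup.orderOf_coe]; exact pow_orderOf_eq_one _⟩
    rw [hK, Subgroup.mem_bot] at h1
    have h2 : a = 1 := Subtype.ext h1
    rw [h2, orderOf_one] at ha
    exact hp.one_lt.ne ha

/-- Counting the preimage of a subset of a quotient group. -/
theorem card_preimage_quotient {G : Type*} [Group G] [Finite G] (K : Subgroup G) [K.Normal]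
    (P : G ⧸ K → Prop) :
    Nat.card {x : G // P (x : G ⧸ K)} = Nat.card K * Nat.card {y : G ⧸ K // P y} := by
  classical
  have : Fintype {y : G ⧸ K // P y} := Fintype.ofFinite _
  rw [card_eq_sum_card_fiber
    (fun x : {x : G // P (x : G ⧸ K)} => (⟨(x.1 : G ⧸ K), x.2⟩ : {y : G ⧸ K // P y}))]
  have h : ∀ y : {y : G ⧸ K // P y},
      Nat.card {x : {x : G // P (x : G ⧸ K)} //
        (⟨(x.1 : G ⧸ K), x.2⟩ : {y : G ⧸ K // P y}) = y} = Nat.card K := by
    rintro ⟨y, hy⟩
    obtain ⟨g₀, rfl⟩ := QuotientGroup.mk_surjective y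
    have hto : ∀ x : G, (x : G ⧸ K) = (g₀ : G ⧸ K) → g₀⁻¹ * x ∈ K :=
      fun x hx => QuotientGroup.eq.1 hx.symm
    have hinv : ∀ z ∈ K, ((g₀ * z : G) : G ⧸ K) = g₀ :=
      fun z hz => (QuotientGroup.eq.2 (by simpa using hz)).symm
    exact Nat.card_congr
      ⟨fun x => ⟨g₀⁻¹ * x.1.1, hto x.1.1 (congrArg Subtype.val x.2)⟩,
        fun z => ⟨⟨g₀ * z.1, by rw [hinv z.1 z.2]; exact hy⟩, Subtype.ext (hinv z.1 z.2)⟩,
        fun x => Subtype.ext (Subtype.ext (by simp)), fun z => Subtype.ext (by simp)⟩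
  rw [Finset.sum_congr rfl fun y _ => h y, Finset.sum_const, Finset.card_univ,
    Fintype.card_eq_nat_card, smul_eq_mul, mul_comm]

theorem solvable_pow_eq_one_aux : ∀ (N : ℕ) (G : Type u) [Group G] [Finite G]
    [Group.IsSolvable G], Nat.card G = N → ∀ n : ℕ, n ∣ Nat.card G →
      Nat.card {x : G // x ^ n = 1} = n →
      ∃ H : Subgroup G, H.Normal ∧ (H : Set G) = {x : G | x ^ n = 1} := by
  intro N
  induction N using Nat.strong_induction_on with
  | _ N IH =>
    intro G _ _ _ hN n hn hcount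
    have hnpos : 0 < n := Nat.pos_of_dvd_of_pos hn Nat.card_pos
    by_cases hn1 : n = 1
    · subst hn1
      refine ⟨⊥, inferInstance, ?_⟩
      ext x; simp
    by_cases hG : Nontrivial G
    swap
    · rw [not_nontrivial_iff_subsingleton] at hG
      exfalso
      have h1 : Nat.card G = 1 := Nat.card_of_subsingleton 1
      rw [h1] at hn
      exact hn1 (Nat.dvd_one.1 hn)
    obtain ⟨p, K, hp, hKn, hK0, hKp⟩ := exists_normal_exponent_prime G
    have : Fact p.Prime := ⟨hp⟩
    have hKpg : IsPGroup p K := fun g => ⟨1, by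
      rw [pow_one]; exact Subtype.ext (by simpa using hKp g.1 g.2)⟩
    obtain ⟨i, hi⟩ := IsPGroup.iff_card.1 hKpg
    have hi0 : i ≠ 0 := by
      rintro rfl
      rw [pow_zero] at hi
      exact hK0 (Subgroup.card_eq_one.1 hi)
    have hpk : p ∣ Nat.card K := by rw [hi]; exact dvd_pow_self p hi0
    have hkpos : 0 < Nat.card K := Nat.card_pos
    have hk2 : 2 ≤ Nat.card K := le_trans hp.two_le (Nat.le_of_dvd hkpos hpk)
    have hGK : Nat.card G = Nat.card (G ⧸ K) * Nat.card K :=
      Subgroup.card_eq_card_quotient_mul_card_subgroup K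
    have hqpos : 0 < Nat.card (G ⧸ K) := Nat.card_pos
    have hlt : Nat.card (G ⧸ K) < N := by
      rw [← hN, hGK]; nlinarith
    obtain ⟨nb, hnb⟩ : Nat.gcd n (Nat.card K) ∣ n := Nat.gcd_dvd_left _ _
    obtain ⟨k', hk'⟩ : Nat.gcd n (Nat.card K) ∣ Nat.card K := Nat.gcd_dvd_right _ _
    have hdpos : 0 < Nat.gcd n (Nat.card K) := Nat.gcd_pos_of_pos_left _ hnpos
    obtain ⟨d, hd⟩ : ∃ d, Nat.gcd n (Nat.card K) = d := ⟨_, rfl⟩
    rw [hd] at hnb hk' hdpos
    have hnbpos : 0 < nb := by
      rcases Nat.eq_zero_or_pos nb with h | h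
      · rw [h, mul_zero] at hnb; omega
      · exact h
    have hdle : d ≤ Nat.card K := by
      rw [← hd]; exact Nat.le_of_dvd hkpos (Nat.gcd_dvd_right _ _)
    have hnb_dvd : nb ∣ Nat.card (G ⧸ K) := by
      have hco : Nat.Coprime nb k' := by
        have h1 : Nat.gcd (d * nb) (d * k') = d := by rw [← hnb, ← hk']; exact hd
        rw [Nat.gcd_mul_left] at h1
        exact Nat.eq_of_mul_eq_mul_left hdpos (by rw [h1, mul_one])
      have h1 : d * nb ∣ d * (Nat.card (G ⧸ K) * k') := by
        have h2 : d * (Nat.card (G ⧸ K) * k') = Nat.card G := by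
          rw [hGK]; conv_rhs => rw [hk']
          ring
        rw [h2, ← hnb]; exact hn
      exact hco.dvd_of_dvd_mul_right (Nat.dvd_of_mul_dvd_mul_left hdpos h1)
    -- Frobenius in the quotient
    have hfrob : nb ∣ Nat.card {y : G ⧸ K // y ^ nb = 1} := dvd_card_pow_eq_one nb hnb_dvd
    have hLpos : 0 < Nat.card {y : G ⧸ K // y ^ nb = 1} := by
      have : Nonempty {y : G ⧸ K // y ^ nb = 1} := ⟨⟨1, one_pow _⟩⟩
      exact Nat.card_pos
    have hLge : nb ≤ Nat.card {y : G ⧸ K // y ^ nb = 1} := Nat.le_of_dvd hLpos hfrob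
    have hpre : Nat.card {x : G // (x : G ⧸ K) ^ nb = 1} =
        Nat.card K * Nat.card {y : G ⧸ K // y ^ nb = 1} :=
      card_preimage_quotient K (fun y => y ^ nb = 1)
    by_cases hpn : p ∣ n
    · -- the prime divides `n`
      have hpd : p ∣ d := by rw [← hd]; exact Nat.dvd_gcd hpn hpk
      have hsub : ∀ x : G, (x : G ⧸ K) ^ nb = 1 → x ^ n = 1 := by
        intro x hx
        have h1 : x ^ nb ∈ K := by
          rw [← QuotientGroup.eq_one_iff, QuotientGroup.mk_pow]; exact hx
        obtain ⟨d', hd'⟩ := hpd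
        have h2 := hKp _ h1
        have h3 : n = nb * p * d' := by rw [hnb, hd']; ring
        rw [h3, pow_mul, pow_mul, h2, one_pow]
      have hle : Nat.card K * Nat.card {y : G ⧸ K // y ^ nb = 1} ≤ n := by
        have h1 : Nat.card {x : G // (x : G ⧸ K) ^ nb = 1} ≤ Nat.card {x : G // x ^ n = 1} :=
          Nat.card_le_card_of_injective
            (fun x : {x : G // (x : G ⧸ K) ^ nb = 1} =>
              (⟨x.1, hsub x.1 x.2⟩ : {x : G // x ^ n = 1}))
            (fun a b h => Subtype.ext (by simpa using h))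
        rw [hpre, hcount] at h1
        exact h1
      have hLeq : Nat.card {y : G ⧸ K // y ^ nb = 1} = nb := by
        apply le_antisymm _ hLge
        have h1 : Nat.card K * Nat.card {y : G ⧸ K // y ^ nb = 1} ≤ Nat.card K * nb := by
          calc Nat.card K * Nat.card {y : G ⧸ K // y ^ nb = 1} ≤ n := hle
            _ = d * nb := hnb
            _ ≤ Nat.card K * nb := Nat.mul_le_mul_right _ hdle
        exact Nat.le_of_mul_le_mul_left h1 hkpos
      have hdk : d = Nat.card K := by
        apply le_antisymm hdle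
        rw [hLeq, hnb] at hle
        exact Nat.le_of_mul_le_mul_right hle hnbpos
      obtain ⟨Hb, hHbn, hHb⟩ := IH _ hlt (G ⧸ K) rfl nb hnb_dvd hLeq
      refine ⟨Hb.comap (QuotientGroup.mk' K), hHbn.comap _, ?_⟩
      have hsubset : {x : G | (x : G ⧸ K) ^ nb = 1} ⊆ {x : G | x ^ n = 1} := fun x hx => hsub x hx
      have hcard1 : Set.ncard {x : G | x ^ n = 1} ≤ Set.ncard {x : G | (x : G ⧸ K) ^ nb = 1} := by
        rw [← Nat.card_coe_set_eq, ← Nat.card_coe_set_eq]
        change Nat.card {x : G // x ^ n = 1} ≤ Nat.card {x : G // (x : G ⧸ K) ^ nb = 1}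
        rw [hcount, hpre, hLeq, ← hdk, ← hnb]
      rw [← Set.eq_of_subset_of_ncard_le hsubset hcard1 (Set.toFinite _)]
      ext x
      have h1 : (x : G ⧸ K) ∈ (Hb : Set (G ⧸ K)) ↔ (x : G ⧸ K) ^ nb = 1 := by rw [hHb]; rfl
      exact h1
    · -- the prime does not divide `n`
      have hco : Nat.Coprime n (Nat.card K) := by
        rw [hi]
        exact Nat.Coprime.pow_right i ((Nat.Prime.coprime_iff_not_dvd hp).2 hpn).symm
      have hd1 : d = 1 := by rw [← hd]; exact hco
      obtain rfl : nb = n := by rw [hnb, hd1, one_mul]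
      have hn2 : 1 < nb := by omega
      have hsurj : ∀ y : G ⧸ K, y ^ nb = 1 → ∃ x : G, x ^ nb = 1 ∧ (x : G ⧸ K) = y := by
        intro y hy
        obtain ⟨g, rfl⟩ := QuotientGroup.mk_surjective y
        have h1 : g ^ nb ∈ K := by
          rw [← QuotientGroup.eq_one_iff, QuotientGroup.mk_pow]; exact hy
        obtain ⟨v, -, hv⟩ := Nat.exists_mul_mod_eq_one_of_coprime
          ((Nat.Prime.coprime_iff_not_dvd hp).2 hpn) hn2
        have hdiv : p * v = nb * (p * v / nb) + 1 := by
          have := Nat.div_add_mod (p * v) nb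
          omega
        refine ⟨g ^ (p * v), ?_, ?_⟩
        · rw [← pow_mul, mul_comm (p * v) nb, pow_mul, pow_mul, hKp _ h1, one_pow]
        · rw [QuotientGroup.mk_pow, hdiv, pow_add, pow_mul, hy, one_pow, one_mul, pow_one]
      have hLle : Nat.card {y : G ⧸ K // y ^ nb = 1} ≤ nb := by
        have h1 : Nat.card {y : G ⧸ K // y ^ nb = 1} ≤ Nat.card {x : G // x ^ nb = 1} :=
          Nat.card_le_card_of_surjective
            (fun x : {x : G // x ^ nb = 1} =>
              (⟨(x.1 : G ⧸ K), by rw [← QuotientGroup.mk_pow, x.2]; rfl⟩ :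
                {y : G ⧸ K // y ^ nb = 1}))
            (fun y => by
              obtain ⟨x, hx, hxy⟩ := hsurj y.1 y.2
              exact ⟨⟨x, hx⟩, Subtype.ext hxy⟩)
        rw [hcount] at h1
        exact h1
      have hLeq : Nat.card {y : G ⧸ K // y ^ nb = 1} = nb := le_antisymm hLle hLge
      obtain ⟨Hb, hHbn, hHb⟩ := IH _ hlt (G ⧸ K) rfl nb hnb_dvd hLeq
      have hKH : K ≤ Hb.comap (QuotientGroup.mk' K) := fun x hx => by
        change (x : G ⧸ K) ∈ Hb
        rw [(QuotientGroup.eq_one_iff x).2 hx]; exact one_mem _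
      have hHcard : Nat.card (Hb.comap (QuotientGroup.mk' K)) = Nat.card K * nb := by
        have h1 : Nat.card {x : G // (x : G ⧸ K) ∈ Hb} =
            Nat.card K * Nat.card {y : G ⧸ K // y ∈ Hb} :=
          card_preimage_quotient K (fun y => y ∈ Hb)
        have h2 : Nat.card {y : G ⧸ K // y ∈ Hb} = nb := by
          rw [← hLeq]
          exact Nat.card_congr (Equiv.subtypeEquivRight (fun y => by
            rw [← SetLike.mem_coe, hHb]; rfl))
        rw [h2] at h1; exact h1
      generalize Hb.comap (QuotientGroup.mk' K) = H at hKH hHcard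
      -- Schur--Zassenhaus inside `H`
      have hK'card : Nat.card (K.subgroupOf H) = Nat.card K :=
        Nat.card_congr (Subgroup.subgroupOfEquivOfLe hKH).toEquiv
      have hK'idx : (K.subgroupOf H).index = nb := by
        have h1 := Subgroup.card_mul_index (K.subgroupOf H)
        rw [hK'card, hHcard] at h1
        exact Nat.eq_of_mul_eq_mul_left hkpos h1
      obtain ⟨Q', hQ'⟩ := Subgroup.exists_right_complement'_of_coprime (N := K.subgroupOf H)
        (by rw [hK'card, hK'idx]; exact hco.symm)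
      have hQ'card : Nat.card Q' = nb := by
        have h1 := hQ'.card_mul_card
        rw [hK'card, hHcard] at h1
        exact Nat.eq_of_mul_eq_mul_left hkpos h1
      have hQcard : Nat.card (Q'.map H.subtype) = nb := by
        rw [Subgroup.card_map_of_injective H.subtype_injective, hQ'card]
      have hQsub : ((Q'.map H.subtype : Subgroup G) : Set G) ⊆ {x : G | x ^ nb = 1} := by
        rintro _ ⟨q, hq, rfl⟩
        have h1 : (⟨q, hq⟩ : Q') ^ Nat.card Q' = 1 := pow_card_eq_one'
        rw [hQ'card] at h1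
        have h2 := congrArg (fun z : Q' => ((z : H) : G)) h1
        simpa using h2
      have hQeq : ((Q'.map H.subtype : Subgroup G) : Set G) = {x : G | x ^ nb = 1} := by
        apply Set.eq_of_subset_of_ncard_le hQsub _ (Set.toFinite _)
        rw [← Nat.card_coe_set_eq, ← Nat.card_coe_set_eq]
        change Nat.card {x : G // x ^ nb = 1} ≤ Nat.card (Q'.map H.subtype)
        rw [hcount, hQcard]
      refine ⟨Q'.map H.subtype, ⟨fun x hx g => ?_⟩, hQeq⟩
      have hx' : x ^ nb = 1 := by
        have h1 : x ∈ ((Q'.map H.subtype : Subgroup G) : Set G) := hx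
        rw [hQeq] at h1; exact h1
      have h2 : g * x * g⁻¹ ∈ ((Q'.map H.subtype : Subgroup G) : Set G) := by
        rw [hQeq]
        change (g * x * g⁻¹) ^ nb = 1
        rw [conj_pow, hx', mul_one, mul_inv_cancel]
      exact h2

/-- P. Hall: in a finite solvable group, if `n ∣ |G|` and `x ^ n = 1` has exactly `n`
solutions, the solutions form a normal subgroup. -/
theorem solvable_pow_eq_one_normal {G : Type u} [Group G] [Finite G] [Group.IsSolvable G]
    (n : ℕ) (hn : n ∣ Nat.card G) (hcount : Nat.card {x : G // x ^ n = 1} = n) :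
    ∃ H : Subgroup G, H.Normal ∧ (H : Set G) = {x : G | x ^ n = 1} :=
  solvable_pow_eq_one_aux _ G rfl n hn hcount

end Solvable

end Cfsg.Agent.Helper29
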