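import Mathlib

/-!
# An involution count (helper lemma for S4707)

A finite group in which every element has order `2` or odd order, every involution centralizer is a
`2`-group, the `2`-part of the order is `2 ^ (k - 1)` with `k ≥ 3`, cannot have exactly `2 ^ k - 1`
involutions.
-/

namespace Cfsg.Agent.Helper29

/-- In a group where every element has order `2` or odd order, every `2`-element squares to `1`. -/
theorem involCount_sq_eq_one {H : Type*} [Group H]
    (hord : ∀ h : H, orderOf h = 2 ∨ Odd (orderOf h)) {x : H} {j : ℕ} (hx : x ^ 2 ^ j = 1) :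
    x ^ 2 = 1 := by
  rcases hord x with h | h
  · rw [← h]
    exact pow_orderOf_eq_one x
  · have hdvd : orderOf x ∣ 2 ^ j := orderOf_dvd_of_pow_eq_one hx
    have hcop : (orderOf x).Coprime (2 ^ j) := Nat.Coprime.pow_right j h.coprime_two_right
    have h1 : orderOf x = 1 := Nat.Coprime.eq_one_of_dvd hcop hdvd
    rw [orderOf_eq_one_iff] at h1
    rw [h1, one_pow]

/-- **Involution count.**  See the module docstring. -/
theorem invol_count_false {H : Type*} [Group H] [Fintype H] [DecidableEq H] {k : ℕ} (hk : 3 ≤ k)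
    (hord : ∀ h : H, orderOf h = 2 ∨ Odd (orderOf h))
    (hcent : ∀ t : H, orderOf t = 2 → IsPGroup 2 (Subgroup.centralizer ({t} : Set H)))
    (hcard : 2 ^ (k - 1) ∣ Nat.card H) (hcard' : ¬ 2 ^ k ∣ Nat.card H)
    (hinv : (Finset.univ.filter (fun h : H => orderOf h = 2)).card = 2 ^ k - 1) : False := by
  classical
  haveI : Fact (Nat.Prime 2) := ⟨Nat.prime_two⟩
  -- every element of a 2-subgroup squares to one
  have hsq : ∀ K : Subgroup H, IsPGroup 2 K → ∀ x ∈ K, x ^ 2 = 1 := by
    intro K hK x hx
    obtain ⟨j, hj⟩ := hK ⟨x, hx⟩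
    have hj' : x ^ 2 ^ j = 1 := by
      have := congrArg (fun y : K => (y : H)) hj
      simpa using this
    exact involCount_sq_eq_one hord hj'
  -- hence 2-subgroups are abelian
  have hab : ∀ K : Subgroup H, IsPGroup 2 K → ∀ x ∈ K, ∀ y ∈ K, x * y = y * x := by
    intro K hK x hx y hy
    have h1 := hsq K hK x hx
    have h2 := hsq K hK y hy
    have h3 := hsq K hK (x * y) (K.mul_mem hx hy)
    have hx' : x⁻¹ = x := by
      rw [inv_eq_iff_mul_eq_one, ← pow_two]; exact h1
    have hy' : y⁻¹ = y := by
      rw [inv_eq_iff_mul_eq_one, ← pow_two]; exact h2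
    have h4 : (x * y)⁻¹ = x * y := by
      rw [inv_eq_iff_mul_eq_one, ← pow_two]; exact h3
    rw [mul_inv_rev, hx', hy'] at h4
    exact h4.symm
  -- centralizers of involutions have order 2^(k-1)
  have hCcard : ∀ t : H, orderOf t = 2 →
      Nat.card (Subgroup.centralizer ({t} : Set H)) = 2 ^ (k - 1) := by
    intro t ht
    have hC := hcent t ht
    obtain ⟨j, hj⟩ := IsPGroup.iff_card.mp hC
    have hjle : j ≤ k - 1 := by
      by_contra hgt
      push Not at hgt
      apply hcard'
      have h1 : 2 ^ k ∣ 2 ^ j := pow_dvd_pow 2 (by omega)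
      have h2 : 2 ^ j ∣ Nat.card H := by
        rw [← hj]; exact Subgroup.card_subgroup_dvd_card _
      exact h1.trans h2
    -- a Sylow 2-subgroup containing t
    have hz : IsPGroup 2 (Subgroup.zpowers t) := by
      rw [IsPGroup.iff_card]
      refine ⟨1, ?_⟩
      rw [Nat.card_zpowers, ht, pow_one]
    obtain ⟨P, hP⟩ := hz.exists_le_sylow
    have htP : t ∈ (P : Subgroup H) := hP (Subgroup.mem_zpowers t)
    have hPC : (P : Subgroup H) ≤ Subgroup.centralizer ({t} : Set H) := by
      intro x hx
      rw [Subgroup.mem_centralizer_iff]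
      intro y hy
      rw [Set.mem_singleton_iff] at hy
      subst hy
      exact hab P P.isPGroup' y htP x hx
    have hPdvd : 2 ^ (k - 1) ∣ Nat.card (P : Subgroup H) := P.pow_dvd_card_of_pow_dvd_card hcard
    have hle : Nat.card (P : Subgroup H) ≤ Nat.card (Subgroup.centralizer ({t} : Set H)) :=
      Subgroup.card_le_of_le hPC
    have h2 : 2 ^ (k - 1) ≤ 2 ^ j := by
      rw [← hj]
      exact (Nat.le_of_dvd Nat.card_pos hPdvd).trans hle
    have h3 : k - 1 ≤ j := (Nat.pow_le_pow_iff_right (by norm_num)).mp h2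
    rw [hj]
    congr 1
    omega
  -- commuting involutions have the same centralizer
  have hCeq : ∀ t t' : H, orderOf t = 2 → orderOf t' = 2 →
      t' ∈ Subgroup.centralizer ({t} : Set H) →
      Subgroup.centralizer ({t'} : Set H) = Subgroup.centralizer ({t} : Set H) := by
    intro t t' ht ht' hmem
    symm
    apply Subgroup.eq_of_le_of_card_ge
    · intro x hx
      rw [Subgroup.mem_centralizer_iff]
      intro y hy
      rw [Set.mem_singleton_iff] at hy
      subst hy
      exact hab _ (hcent t ht) y hmem x hx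
    · rw [hCcard t ht, hCcard t' ht']
  obtain ⟨I, hI⟩ : ∃ I : Finset H, I = Finset.univ.filter (fun h : H => orderOf h = 2) := ⟨_, rfl⟩
  have hmemI : ∀ t : H, t ∈ I ↔ orderOf t = 2 := by
    intro t
    rw [hI]
    simp
  rw [← hI] at hinv
  obtain ⟨f, hf⟩ : ∃ f : H → Subgroup H, f = fun t => Subgroup.centralizer ({t} : Set H) :=
    ⟨_, rfl⟩
  have hfib : ∀ S ∈ I.image f, (I.filter fun a => f a = S).card = 2 ^ (k - 1) - 1 := by
    intro S hS
    rw [Finset.mem_image] at hS
    obtain ⟨t, htI, rfl⟩ := hS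
    have ht : orderOf t = 2 := (hmemI t).mp htI
    have heq : (I.filter fun a => f a = f t) =
        (Finset.univ.filter (fun x : H => x ∈ Subgroup.centralizer ({t} : Set H))).erase 1 := by
      ext a
      simp only [Finset.mem_filter, Finset.mem_erase, Finset.mem_univ, true_and, hf]
      constructor
      · rintro ⟨haI, hae⟩
        have ha : orderOf a = 2 := (hmemI a).mp haI
        refine ⟨?_, ?_⟩
        · rintro rfl
          rw [orderOf_one] at ha
          omega
        · rw [← hae]
          rw [Subgroup.mem_centralizer_iff]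
          intro y hy
          rw [Set.mem_singleton_iff] at hy
          rw [hy]
      · rintro ⟨ha1, haC⟩
        have ha2 : a ^ 2 = 1 := hsq _ (hcent t ht) a haC
        have ha : orderOf a = 2 := orderOf_eq_prime ha2 ha1
        exact ⟨(hmemI a).mpr ha, hCeq t a ht ha haC⟩
    rw [heq, Finset.card_erase_of_mem]
    · have h1 : (Finset.univ.filter (fun x : H => x ∈ Subgroup.centralizer ({t} : Set H))).card =
          Nat.card (Subgroup.centralizer ({t} : Set H)) := by
        rw [Nat.card_eq_fintype_card, Fintype.card_subtype]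
      rw [h1, hCcard t ht]
    · simp
  have hsum := Finset.card_eq_sum_card_image f I
  rw [Finset.sum_const_nat hfib, hinv] at hsum
  obtain ⟨j, rfl⟩ : ∃ j, k = j + 1 := ⟨k - 1, by omega⟩
  simp only [Nat.add_sub_cancel] at hsum
  have hj2 : 2 ≤ j := by omega
  have h4 : 4 ≤ 2 ^ j := by
    calc 4 = 2 ^ 2 := by norm_num
      _ ≤ 2 ^ j := Nat.pow_le_pow_right (by norm_num) hj2
  have hpow : 2 ^ (j + 1) = 2 * 2 ^ j := by rw [pow_succ]; ring
  rw [hpow] at hsum
  obtain ⟨m, hm⟩ : ∃ m, m = (I.image f).card := ⟨_, rfl⟩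
  rw [← hm] at hsum
  obtain ⟨a, ha⟩ : ∃ a, a = 2 ^ j := ⟨_, rfl⟩
  rw [← ha] at hsum h4
  rcases Nat.lt_or_ge m 3 with h | h
  · interval_cases m <;> omega
  · have h3 : 3 * (a - 1) ≤ m * (a - 1) := Nat.mul_le_mul_right _ h
    omega

end Cfsg.Agent.Helper29
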