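import Mathlib
import Cfsg.Agent.Helper57.J1oDefs

/-!
# CALL S4274, piece P14 (helper29): no simple group of order 15960 (given the Sylow data `SD`).
-/

set_option autoImplicit false

namespace Cfsg.Agent.Helper29

open Cfsg.Agent.Helper57

universe u

/-- disjointness of the sets of elements of order divisible by `p` resp. `q` when `q ∤ c_p`. -/
theorem j1o_dis {H : Type u} [Group H] [Finite H] (p q : ℕ) (hp : p.Prime) (hq : q.Prime)
    (hpq : p ≠ q) (cp : ℕ)
    (h11 : ∀ q' : ℕ, q'.Prime → q' ≠ p → (q' ∣ cp ↔ ∃ g : H, orderOf g = p * q'))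
    (hnd : ¬ q ∣ cp) (g : H) (h1 : p ∣ orderOf g) (h2 : q ∣ orderOf g) : False :=
  hnd ((h11 q hq hpq.symm).2 (j1o_exists_orderOf_mul hp hq hpq g h1 h2))

theorem j1o_one_not {H : Type u} [Group H] (p : ℕ) (hp : 1 < p) : ¬ p ∣ orderOf (1 : H) := by
  intro hd
  rw [orderOf_one, Nat.dvd_one] at hd
  omega

/-- P14. -/
theorem j1o_no_simple_15960 (SD : J1oSylData.{u}) {H : Type u} [Group H] [Finite H]
    [IsSimpleGroup H]
    (h : Nat.card H = 15960) : False := by
  have hp19 : Fact (Nat.Prime 19) := ⟨by norm_num⟩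
  have hp7 : Fact (Nat.Prime 7) := ⟨by norm_num⟩
  have hp5 : Fact (Nat.Prime 5) := ⟨by norm_num⟩
  have hp3 : Fact (Nat.Prime 3) := ⟨by norm_num⟩
  -- p = 3
  obtain ⟨n3, e3, c3, b1, -, -, -, b5, b6, -, -, b9, -, -⟩ :=
    SD H 3 (by rw [h]; norm_num) (by rw [h]; norm_num) (by rw [h]; norm_num)
  rw [h] at b1
  have he3 : e3 = 2 := by
    have h2 := Nat.le_of_dvd (by norm_num) b5
    omega
  subst he3
  have hE3 : 5320 ≤ Nat.card {g : H // 3 ∣ orderOf g} := by
    have h3 : n3 * (3 - 1) * c3 = 5320 := by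
      norm_num
      nlinarith
    rw [← h3]
    exact b9
  -- p = 5
  obtain ⟨n5, e5, c5, f1, f2, f3, f4, f5, f6, f7, -, f9, f10, f11⟩ :=
    SD H 5 (by rw [h]; norm_num) (by rw [h]; norm_num) (by rw [h]; norm_num)
  rw [h] at f1 f4
  have hm5 := j1o_mem_opts (by norm_num) f1 f2 f3 f5 f6
  rw [show j1oOpts 15960 5 = [(6, 2, 266), (6, 4, 133), (21, 2, 76), (21, 4, 38), (76, 2, 21),
    (266, 2, 6), (266, 4, 3), (1596, 2, 1)] from by decide +kernel] at hm5
  simp only [List.mem_cons, Prod.mk.injEq, List.not_mem_nil, or_false] at hm5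
  -- p = 7
  obtain ⟨n7, e7, c7, d1, d2, d3, d4, d5, d6, d7, -, d9, -, d11⟩ :=
    SD H 7 (by rw [h]; norm_num) (by rw [h]; norm_num) (by rw [h]; norm_num)
  rw [h] at d1 d4
  have hm7 := j1o_mem_opts (by norm_num) d1 d2 d3 d5 d6
  rw [show j1oOpts 15960 7 = [(8, 3, 95), (15, 2, 76), (57, 2, 20), (190, 2, 6), (190, 3, 4),
    (190, 6, 2)] from by decide +kernel] at hm7
  simp only [List.mem_cons, Prod.mk.injEq, List.not_mem_nil, or_false] at hm7
  -- p = 19
  obtain ⟨n19, e19, c19, a1, a2, a3, a4, a5, a6, a7, -, a9, -, a11⟩ :=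
    SD H 19 (by rw [h]; norm_num) (by rw [h]; norm_num) (by rw [h]; norm_num)
  rw [h] at a1 a4
  have hm := j1o_mem_opts (by norm_num) a1 a2 a3 a5 a6
  rw [show j1oOpts 15960 19 = [(20, 2, 21), (20, 3, 14), (20, 6, 7), (210, 2, 2)] from by
    decide +kernel] at hm
  simp only [List.mem_cons, Prod.mk.injEq, List.not_mem_nil, or_false] at hm
  rcases hm with ⟨rfl, rfl, rfl⟩ | ⟨rfl, rfl, rfl⟩ | ⟨rfl, rfl, rfl⟩ | ⟨rfl, rfl, rfl⟩
  · have h2 := a7 3 (by norm_num) (by norm_num); omega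
  · have h2 := a7 2 (by norm_num) (by norm_num); omega
  · have h2 := a7 7 (by norm_num) (by norm_num); omega
  norm_num at a9
  have d19_7 := j1o_dis (H := H) 19 7 (by norm_num) (by norm_num) (by norm_num) 2 a11 (by norm_num)
  have d19_3 := j1o_dis (H := H) 19 3 (by norm_num) (by norm_num) (by norm_num) 2 a11 (by norm_num)
  have d19_5 := j1o_dis (H := H) 19 5 (by norm_num) (by norm_num) (by norm_num) 2 a11 (by norm_num)
  -- the count with `E19`, `E7`, `E3`
  have fin3 : ∀ m : ℕ, m ≤ Nat.card {g : H // 7 ∣ orderOf g} → 3080 ≤ m → ¬ 3 ∣ c7 → False := by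
    intro m hm7' hm hnd
    have key := j1o_count4 (fun g : H => 19 ∣ orderOf g) (fun g : H => 7 ∣ orderOf g)
      (fun g : H => 3 ∣ orderOf g) (fun _ : H => False) 1 (j1o_one_not 19 (by norm_num))
      (j1o_one_not 7 (by norm_num)) (j1o_one_not 3 (by norm_num)) (fun hf => hf)
      d19_7 d19_3 (fun g _ hf => hf)
      (j1o_dis (H := H) 7 3 (by norm_num) (by norm_num) (by norm_num) c7 d11 hnd)
      (fun g _ hf => hf) (fun g _ hf => hf)
    rw [h] at key
    omega
  rcases hm7 with ⟨rfl, rfl, rfl⟩ | ⟨rfl, rfl, rfl⟩ | ⟨rfl, rfl, rfl⟩ | ⟨rfl, rfl, rfl⟩ |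
    ⟨rfl, rfl, rfl⟩ | ⟨rfl, rfl, rfl⟩
  · have h2 := d4 19 (by norm_num) (by norm_num); omega
  · have h2 := d4 19 (by norm_num) (by norm_num); omega
  · -- (57, 2, 20)
    norm_num at d9
    exact fin3 6840 d9 (by norm_num) (by norm_num)
  · -- (190, 2, 6): use `E5`
    norm_num at d9
    have fin5 : 3192 ≤ Nat.card {g : H // 5 ∣ orderOf g} → False := by
      intro hE5
      have key := j1o_count4 (fun g : H => 19 ∣ orderOf g) (fun g : H => 7 ∣ orderOf g)
        (fun g : H => 5 ∣ orderOf g) (fun _ : H => False) 1 (j1o_one_not 19 (by norm_num))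
        (j1o_one_not 7 (by norm_num)) (j1o_one_not 5 (by norm_num)) (fun hf => hf)
        d19_7 d19_5 (fun g _ hf => hf)
        (j1o_dis (H := H) 7 5 (by norm_num) (by norm_num) (by norm_num) 6 d11 (by norm_num))
        (fun g _ hf => hf) (fun g _ hf => hf)
      rw [h] at key
      omega
    rcases hm5 with ⟨rfl, rfl, rfl⟩ | ⟨rfl, rfl, rfl⟩ | ⟨rfl, rfl, rfl⟩ | ⟨rfl, rfl, rfl⟩ |
      ⟨rfl, rfl, rfl⟩ | ⟨rfl, rfl, rfl⟩ | ⟨rfl, rfl, rfl⟩ | ⟨rfl, rfl, rfl⟩
    · have h2 := f4 7 (by norm_num) (by norm_num); omega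
    · have h2 := f4 7 (by norm_num) (by norm_num); omega
    · have h2 := f7 19 (by norm_num) (by norm_num); omega
    · have h2 := f7 19 (by norm_num) (by norm_num); omega
    · obtain ⟨g, hg⟩ := (f11 7 (by norm_num) (by norm_num)).1 (by norm_num)
      have h2 := (d11 5 (by norm_num) (by norm_num)).2 ⟨g, by rw [hg]⟩
      omega
    · norm_num at f9
      exact fin5 (by omega)
    · norm_num at f9
      exact fin5 (by omega)
    · norm_num at f9
      exact fin5 (by omega)
  · -- (190, 3, 4)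
    norm_num at d9
    exact fin3 4560 d9 (by norm_num) (by norm_num)
  · -- (190, 6, 2): use the elements of order exactly `5`
    norm_num at d9
    have fin : 1064 ≤ Nat.card {g : H // orderOf g = 5} → False := by
      intro hO5
      have key := j1o_count4 (fun g : H => 19 ∣ orderOf g) (fun g : H => 7 ∣ orderOf g)
        (fun g : H => 3 ∣ orderOf g) (fun g : H => orderOf g = 5) 1 (j1o_one_not 19 (by norm_num))
        (j1o_one_not 7 (by norm_num)) (j1o_one_not 3 (by norm_num))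
        (by rw [orderOf_one]; norm_num)
        d19_7 d19_3 (fun g h1 h2 => by rw [h2] at h1; omega)
        (j1o_dis (H := H) 7 3 (by norm_num) (by norm_num) (by norm_num) 2 d11 (by norm_num))
        (fun g h1 h2 => by rw [h2] at h1; omega) (fun g h1 h2 => by rw [h2] at h1; omega)
      rw [h] at key
      omega
    rcases hm5 with ⟨rfl, rfl, rfl⟩ | ⟨rfl, rfl, rfl⟩ | ⟨rfl, rfl, rfl⟩ | ⟨rfl, rfl, rfl⟩ |
      ⟨rfl, rfl, rfl⟩ | ⟨rfl, rfl, rfl⟩ | ⟨rfl, rfl, rfl⟩ | ⟨rfl, rfl, rfl⟩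
    · have h2 := f4 7 (by norm_num) (by norm_num); omega
    · have h2 := f4 7 (by norm_num) (by norm_num); omega
    · have h2 := f7 19 (by norm_num) (by norm_num); omega
    · have h2 := f7 19 (by norm_num) (by norm_num); omega
    · obtain ⟨g, hg⟩ := (f11 7 (by norm_num) (by norm_num)).1 (by norm_num)
      have h2 := (d11 5 (by norm_num) (by norm_num)).2 ⟨g, by rw [hg]⟩
      omega
    · norm_num at f10
      exact fin (by omega)
    · norm_num at f10
      exact fin (by omega)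
    · norm_num at f10
      exact fin (by omega)

end Cfsg.Agent.Helper29
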