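import Mathlib
import Cfsg.Agent.Helper57.J1oDefs
import Cfsg.Agent.Helper29.J1oP14

/-!
# CALL S4274, piece P15 (helper29): no simple group of order 87780 (given the Sylow data `SD`).
-/

set_option autoImplicit false

namespace Cfsg.Agent.Helper29

open Cfsg.Agent.Helper57

universe u

/-- P15. -/
theorem j1o_no_simple_87780 (SD : J1oSylData.{u}) {H : Type u} [Group H] [Finite H]
    [IsSimpleGroup H]
    (h : Nat.card H = 87780) : False := by
  have hp19 : Fact (Nat.Prime 19) := ⟨by norm_num⟩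
  have hp11 : Fact (Nat.Prime 11) := ⟨by norm_num⟩
  have hp7 : Fact (Nat.Prime 7) := ⟨by norm_num⟩
  have hp5 : Fact (Nat.Prime 5) := ⟨by norm_num⟩
  have hp3 : Fact (Nat.Prime 3) := ⟨by norm_num⟩
  -- p = 3
  obtain ⟨n3, e3, c3, b1, -, -, -, b5, b6, -, -, b9, -, -⟩ :=
    SD H 3 (by rw [h]; norm_num) (by rw [h]; norm_num) (by rw [h]; norm_num)
  rw [h] at b1
  have he3 : e3 = 2 := by
    have h2 := Nat.le_of_dvd (by norm_num) b5
    omega
  subst he3
  have hE3 : 29260 ≤ Nat.card {g : H // 3 ∣ orderOf g} := by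
    have h3 : n3 * (3 - 1) * c3 = 29260 := by
      norm_num
      nlinarith
    rw [← h3]
    exact b9
  -- p = 5
  obtain ⟨n5, e5, c5, f1, f2, f3, f4, f5, f6, f7, -, f9, -, f11⟩ :=
    SD H 5 (by rw [h]; norm_num) (by rw [h]; norm_num) (by rw [h]; norm_num)
  rw [h] at f1 f4
  have hm5 := j1o_mem_opts (by norm_num) f1 f2 f3 f5 f6
  rw [show j1oOpts 87780 5 = [(6, 2, 1463), (11, 2, 798), (11, 4, 399), (21, 2, 418),
    (21, 4, 209), (66, 2, 133), (231, 2, 38), (231, 4, 19), (266, 2, 33), (2926, 2, 3)] from by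
    decide +kernel] at hm5
  simp only [List.mem_cons, Prod.mk.injEq, List.not_mem_nil, or_false] at hm5
  -- p = 11
  obtain ⟨n11, e11, c11, k1, k2, k3, k4, k5, k6, -, -, -, -, k11⟩ :=
    SD H 11 (by rw [h]; norm_num) (by rw [h]; norm_num) (by rw [h]; norm_num)
  rw [h] at k1 k4
  have hm11 := j1o_mem_opts (by norm_num) k1 k2 k3 k5 k6
  rw [show j1oOpts 87780 11 = [(12, 5, 133), (133, 2, 30), (133, 5, 12), (133, 10, 6),
    (210, 2, 19), (1596, 5, 1)] from by decide +kernel] at hm11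
  simp only [List.mem_cons, Prod.mk.injEq, List.not_mem_nil, or_false] at hm11
  have h7c11 : ¬ 7 ∣ c11 := by
    rcases hm11 with ⟨rfl, rfl, rfl⟩ | ⟨rfl, rfl, rfl⟩ | ⟨rfl, rfl, rfl⟩ | ⟨rfl, rfl, rfl⟩ |
      ⟨rfl, rfl, rfl⟩ | ⟨rfl, rfl, rfl⟩
    · have h2 := k4 19 (by norm_num) (by norm_num); omega
    all_goals omega
  have h7c5 : ¬ 7 ∣ c5 := by
    rcases hm5 with ⟨rfl, rfl, rfl⟩ | ⟨rfl, rfl, rfl⟩ | ⟨rfl, rfl, rfl⟩ | ⟨rfl, rfl, rfl⟩ |
      ⟨rfl, rfl, rfl⟩ | ⟨rfl, rfl, rfl⟩ | ⟨rfl, rfl, rfl⟩ | ⟨rfl, rfl, rfl⟩ | ⟨rfl, rfl, rfl⟩ |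
      ⟨rfl, rfl, rfl⟩
    · have h2 := f4 7 (by norm_num) (by norm_num); omega
    · have h2 := f4 19 (by norm_num) (by norm_num); omega
    · have h2 := f4 19 (by norm_num) (by norm_num); omega
    · have h2 := f7 11 (by norm_num) (by norm_num); omega
    · have h2 := f7 11 (by norm_num) (by norm_num); omega
    · have h2 := f7 19 (by norm_num) (by norm_num); omega
    all_goals omega
  -- p = 7
  obtain ⟨n7, e7, c7, d1, d2, d3, d4, d5, d6, d7, -, d9, -, d11⟩ :=
    SD H 7 (by rw [h]; norm_num) (by rw [h]; norm_num) (by rw [h]; norm_num)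
  rw [h] at d1 d4
  have hm7 := j1o_mem_opts (by norm_num) d1 d2 d3 d5 d6
  rw [show j1oOpts 87780 7 = [(15, 2, 418), (22, 2, 285), (22, 3, 190), (22, 6, 95),
    (57, 2, 110), (190, 2, 33), (190, 3, 22), (190, 6, 11), (330, 2, 19), (1254, 2, 5),
    (4180, 3, 1)] from by decide +kernel] at hm7
  simp only [List.mem_cons, Prod.mk.injEq, List.not_mem_nil, or_false] at hm7
  have h11c7 : ¬ 11 ∣ c7 := by
    intro hd
    obtain ⟨g, hg⟩ := (d11 11 (by norm_num) (by norm_num)).1 hd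
    exact h7c11 ((k11 7 (by norm_num) (by norm_num)).2 ⟨g, by rw [hg]⟩)
  have h5c7 : ¬ 5 ∣ c7 := by
    intro hd
    obtain ⟨g, hg⟩ := (d11 5 (by norm_num) (by norm_num)).1 hd
    exact h7c5 ((f11 7 (by norm_num) (by norm_num)).2 ⟨g, by rw [hg]⟩)
  -- p = 19
  obtain ⟨n19, e19, c19, a1, a2, a3, a4, a5, a6, a7, -, a9, -, a11⟩ :=
    SD H 19 (by rw [h]; norm_num) (by rw [h]; norm_num) (by rw [h]; norm_num)
  rw [h] at a1 a4
  have hm := j1o_mem_opts (by norm_num) a1 a2 a3 a5 a6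
  rw [show j1oOpts 87780 19 = [(20, 3, 77), (77, 2, 30), (77, 3, 20), (77, 6, 10), (210, 2, 11),
    (1540, 3, 1)] from by decide +kernel] at hm
  simp only [List.mem_cons, Prod.mk.injEq, List.not_mem_nil, or_false] at hm
  rcases hm with ⟨rfl, rfl, rfl⟩ | ⟨rfl, rfl, rfl⟩ | ⟨rfl, rfl, rfl⟩ | ⟨rfl, rfl, rfl⟩ |
    ⟨rfl, rfl, rfl⟩ | ⟨rfl, rfl, rfl⟩
  · have h2 := a7 7 (by norm_num) (by norm_num); omega
  · have h2 := a7 5 (by norm_num) (by norm_num); omega
  · have h2 := a7 5 (by norm_num) (by norm_num); omega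
  · have h2 := a7 5 (by norm_num) (by norm_num); omega
  · -- (210, 2, 11)
    norm_num at a9
    have d19_7 := j1o_dis (H := H) 19 7 (by norm_num) (by norm_num) (by norm_num) 11 a11
      (by norm_num)
    have d19_3 := j1o_dis (H := H) 19 3 (by norm_num) (by norm_num) (by norm_num) 11 a11
      (by norm_num)
    have fin3 : ∀ m : ℕ, m ≤ Nat.card {g : H // 7 ∣ orderOf g} → 25080 ≤ m → ¬ 3 ∣ c7 →
        False := by
      intro m hm7' hm hnd
      have key := j1o_count4 (fun g : H => 19 ∣ orderOf g) (fun g : H => 7 ∣ orderOf g)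
        (fun g : H => 3 ∣ orderOf g) (fun _ : H => False) 1 (j1o_one_not 19 (by norm_num))
        (j1o_one_not 7 (by norm_num)) (j1o_one_not 3 (by norm_num)) (fun hf => hf)
        d19_7 d19_3 (fun g _ hf => hf)
        (j1o_dis (H := H) 7 3 (by norm_num) (by norm_num) (by norm_num) c7 d11 hnd)
        (fun g _ hf => hf) (fun g _ hf => hf)
      rw [h] at key
      omega
    rcases hm7 with ⟨rfl, rfl, rfl⟩ | ⟨rfl, rfl, rfl⟩ | ⟨rfl, rfl, rfl⟩ | ⟨rfl, rfl, rfl⟩ |
      ⟨rfl, rfl, rfl⟩ | ⟨rfl, rfl, rfl⟩ | ⟨rfl, rfl, rfl⟩ | ⟨rfl, rfl, rfl⟩ | ⟨rfl, rfl, rfl⟩ |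
      ⟨rfl, rfl, rfl⟩ | ⟨rfl, rfl, rfl⟩
    · have h2 := d4 19 (by norm_num) (by norm_num); omega
    · have h2 := d7 5 (by norm_num) (by norm_num); omega
    · have h2 := d7 5 (by norm_num) (by norm_num); omega
    · have h2 := d7 5 (by norm_num) (by norm_num); omega
    · have h2 := d7 11 (by norm_num) (by norm_num); omega
    · exact h11c7 (by norm_num)
    · exact h11c7 (by norm_num)
    · exact h11c7 (by norm_num)
    · obtain ⟨g, hg⟩ := (d11 19 (by norm_num) (by norm_num)).1 (by norm_num)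
      have h2 := (a11 7 (by norm_num) (by norm_num)).2 ⟨g, by rw [hg]⟩
      omega
    · exact h5c7 (by norm_num)
    · norm_num at d9
      exact fin3 25080 d9 (by norm_num) (by norm_num)
  · -- (1540, 3, 1)
    norm_num at a9
    have d19_7 := j1o_dis (H := H) 19 7 (by norm_num) (by norm_num) (by norm_num) 1 a11
      (by norm_num)
    have d19_5 := j1o_dis (H := H) 19 5 (by norm_num) (by norm_num) (by norm_num) 1 a11
      (by norm_num)
    have h19c5 : ¬ 19 ∣ c5 := by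
      intro hd
      obtain ⟨g, hg⟩ := (f11 19 (by norm_num) (by norm_num)).1 hd
      have h2 := (a11 5 (by norm_num) (by norm_num)).2 ⟨g, by rw [hg]⟩
      omega
    have hE5 : 35112 ≤ Nat.card {g : H // 5 ∣ orderOf g} := by
      rcases hm5 with ⟨rfl, rfl, rfl⟩ | ⟨rfl, rfl, rfl⟩ | ⟨rfl, rfl, rfl⟩ | ⟨rfl, rfl, rfl⟩ |
        ⟨rfl, rfl, rfl⟩ | ⟨rfl, rfl, rfl⟩ | ⟨rfl, rfl, rfl⟩ | ⟨rfl, rfl, rfl⟩ | ⟨rfl, rfl, rfl⟩ |
        ⟨rfl, rfl, rfl⟩
      · have h2 := f4 7 (by norm_num) (by norm_num); omega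
      · have h2 := f4 19 (by norm_num) (by norm_num); omega
      · have h2 := f4 19 (by norm_num) (by norm_num); omega
      · have h2 := f7 11 (by norm_num) (by norm_num); omega
      · have h2 := f7 11 (by norm_num) (by norm_num); omega
      · have h2 := f7 19 (by norm_num) (by norm_num); omega
      · exact absurd (by norm_num) h19c5
      · exact absurd (by norm_num) h19c5
      · norm_num at f9
        exact f9
      · norm_num at f9
        exact f9
    rcases hm7 with ⟨rfl, rfl, rfl⟩ | ⟨rfl, rfl, rfl⟩ | ⟨rfl, rfl, rfl⟩ | ⟨rfl, rfl, rfl⟩ |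
      ⟨rfl, rfl, rfl⟩ | ⟨rfl, rfl, rfl⟩ | ⟨rfl, rfl, rfl⟩ | ⟨rfl, rfl, rfl⟩ | ⟨rfl, rfl, rfl⟩ |
      ⟨rfl, rfl, rfl⟩ | ⟨rfl, rfl, rfl⟩
    · have h2 := d4 19 (by norm_num) (by norm_num); omega
    · have h2 := d7 5 (by norm_num) (by norm_num); omega
    · have h2 := d7 5 (by norm_num) (by norm_num); omega
    · have h2 := d7 5 (by norm_num) (by norm_num); omega
    · have h2 := d7 11 (by norm_num) (by norm_num); omega
    · exact h11c7 (by norm_num)
    · exact h11c7 (by norm_num)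
    · exact h11c7 (by norm_num)
    · obtain ⟨g, hg⟩ := (d11 19 (by norm_num) (by norm_num)).1 (by norm_num)
      have h2 := (a11 7 (by norm_num) (by norm_num)).2 ⟨g, by rw [hg]⟩
      omega
    · exact h5c7 (by norm_num)
    · norm_num at d9
      have key := j1o_count4 (fun g : H => 19 ∣ orderOf g) (fun g : H => 7 ∣ orderOf g)
        (fun g : H => 5 ∣ orderOf g) (fun _ : H => False) 1 (j1o_one_not 19 (by norm_num))
        (j1o_one_not 7 (by norm_num)) (j1o_one_not 5 (by norm_num)) (fun hf => hf)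
        d19_7 d19_5 (fun g _ hf => hf)
        (j1o_dis (H := H) 7 5 (by norm_num) (by norm_num) (by norm_num) 1 d11 (by norm_num))
        (fun g _ hf => hf) (fun g _ hf => hf)
      rw [h] at key
      omega

end Cfsg.Agent.Helper29
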