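import Mathlib
import Cfsg.Agent.Helper29.DihLike
import Cfsg.Agent.Helper29.SL23
import Cfsg.Agent.Helper73.Taussky

set_option autoImplicit false

namespace Cfsg.Agent.Helper29

/-- `T` is "quaternion-like" with rotation `a` and central involution `z`: every element of `T`
outside `⟨a⟩` squares to `z` and inverts `a`, and `⟨a⟩` has index at most two in `T`. -/
def QuatLike {G : Type*} [Group G] (T : Subgroup G) (a z : G) : Prop :=
  a ∈ T ∧ orderOf z = 2 ∧ z ∈ Subgroup.zpowers a ∧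
    (∀ t ∈ T, t ∉ Subgroup.zpowers a → t * t = z ∧ t * a * t⁻¹ = a⁻¹) ∧
    ∀ t ∈ T, ∀ s ∈ T, t ∉ Subgroup.zpowers a → s ∉ Subgroup.zpowers a →
      t * s ∈ Subgroup.zpowers a

theorem quatLike_quaternion (n : ℕ) [NeZero n] :
    QuatLike (⊤ : Subgroup (QuaternionGroup n)) (QuaternionGroup.a 1) (QuaternionGroup.a n) := by
  haveI : NeZero (2 * n) := ⟨by have := NeZero.ne n; omega⟩
  have hr : ∀ i : ZMod (2 * n),
      QuaternionGroup.a i ∈ Subgroup.zpowers (QuaternionGroup.a (1 : ZMod (2 * n))) := by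
    intro i
    rw [Subgroup.mem_zpowers_iff]
    refine ⟨(i.val : ℤ), ?_⟩
    rw [zpow_natCast, QuaternionGroup.a_one_pow, ZMod.natCast_zmod_val]
  have hnn : (n : ZMod (2 * n)) + n = 0 := by
    have : ((2 * n : ℕ) : ZMod (2 * n)) = 0 := ZMod.natCast_self (2 * n)
    rw [← this]; push_cast; ring
  refine ⟨Subgroup.mem_top _, ?_, hr _, ?_, ?_⟩
  · haveI : Fact (Nat.Prime 2) := ⟨Nat.prime_two⟩
    apply orderOf_eq_prime
    · rw [sq, QuaternionGroup.a_mul_a, hnn]; rfl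
    · intro hc
      have h0 : (n : ZMod (2 * n)) = 0 := QuaternionGroup.a.inj hc
      rw [ZMod.natCast_eq_zero_iff] at h0
      have := Nat.le_of_dvd (Nat.pos_of_ne_zero (NeZero.ne n)) h0
      have := NeZero.ne n
      omega
  · intro t _ ht
    cases t with
    | a i => exact absurd (hr i) ht
    | xa i =>
      constructor
      · simp
      · rw [mul_inv_eq_iff_eq_mul, eq_inv_mul_iff_mul_eq]; simp
  · intro t _ s _ ht hs
    cases t with
    | a i => exact absurd (hr i) ht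
    | xa i =>
      cases s with
      | a j => exact absurd (hr j) hs
      | xa j =>
        rw [QuaternionGroup.xa_mul_xa]
        exact hr _

theorem QuatLike.map {G G' : Type*} [Group G] [Group G'] {T : Subgroup G} {a z : G}
    (h : QuatLike T a z) (f : G →* G') (hf : Function.Injective f) :
    QuatLike (T.map f) (f a) (f z) := by
  obtain ⟨h1, hz, hza, h2, h3⟩ := h
  refine ⟨Subgroup.mem_map_of_mem f h1, ?_, map_mem_zpowers' f hza, ?_, ?_⟩
  · rw [orderOf_injective f hf, hz]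
  · rintro _ ⟨t, ht, rfl⟩ hta
    obtain ⟨e1, e2⟩ := h2 t ht (fun hc => hta (map_mem_zpowers' f hc))
    constructor
    · rw [← map_mul, e1]
    · rw [← map_inv, ← map_mul, ← map_mul, e2, map_inv]
  · rintro _ ⟨t, ht, rfl⟩ _ ⟨s, hs, rfl⟩ hta hsa
    have := h3 t ht s hs (fun hc => hta (map_mem_zpowers' f hc))
      (fun hc => hsa (map_mem_zpowers' f hc))
    rw [← map_mul]
    exact map_mem_zpowers' f this

/-- A subgroup of a quaternion-like group is cyclic or quaternion-like. -/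
theorem QuatLike.sub {G : Type*} [Group G] {T : Subgroup G} {a z : G} (h : QuatLike T a z)
    (S : Subgroup G) (hS : S ≤ T) :
    ∃ b ∈ S, (∀ s ∈ S, s ∈ Subgroup.zpowers b) ∨ QuatLike S b z := by
  obtain ⟨h1, hz, hza, h2, h3⟩ := h
  have : IsCyclic (S ⊓ Subgroup.zpowers a : Subgroup G) :=
    Subgroup.isCyclic_of_le (inf_le_right : S ⊓ Subgroup.zpowers a ≤ Subgroup.zpowers a)
  obtain ⟨b, hb⟩ := (Subgroup.isCyclic_iff_exists_zpowers_eq_top (S ⊓ Subgroup.zpowers a)).mp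
    inferInstance
  have hbS : b ∈ S ⊓ Subgroup.zpowers a := by
    rw [← hb]; exact Subgroup.mem_zpowers b
  refine ⟨b, hbS.1, ?_⟩
  by_cases hall : ∀ s ∈ S, s ∈ Subgroup.zpowers a
  · left
    intro s hs
    rw [hb]
    exact ⟨hs, hall s hs⟩
  · right
    push Not at hall
    obtain ⟨y, hy, hya⟩ := hall
    have hout : ∀ t ∈ S, t ∉ Subgroup.zpowers b → t ∉ Subgroup.zpowers a := by
      intro t ht htb hta
      apply htb
      rw [hb]
      exact ⟨ht, hta⟩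
    refine ⟨hbS.1, hz, ?_, ?_, ?_⟩
    · rw [hb]
      refine ⟨?_, hza⟩
      rw [← (h2 y (hS hy) hya).1]
      exact S.mul_mem hy hy
    · intro t ht htb
      obtain ⟨e1, e2⟩ := h2 t (hS ht) (hout t ht htb)
      refine ⟨e1, ?_⟩
      obtain ⟨k, hk⟩ := Subgroup.mem_zpowers_iff.mp hbS.2
      rw [← hk, ← conj_zpow, e2, inv_zpow]
    · intro t ht s hs htb hsb
      have := h3 t (hS ht) s (hS hs) (hout t ht htb) (hout s hs hsb)
      rw [hb]
      exact ⟨S.mul_mem ht hs, this⟩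

/-- An element of odd order normalizing a 2-group `S` in which `⟨b⟩` has index at most two and
centralizing `b` centralizes `S`. -/
theorem comm_of_odd_index_two {G : Type*} [Group G] (S : Subgroup G) (b : G)
    (h3 : ∀ t ∈ S, ∀ s ∈ S, t ∉ Subgroup.zpowers b → s ∉ Subgroup.zpowers b →
      t * s ∈ Subgroup.zpowers b)
    (hS2 : ∀ s ∈ S, ∃ k : ℕ, s ^ (2 ^ k) = 1) (c : G) (d : ℕ) (hd : Odd d) (hc : c ^ d = 1)
    (hn : ∀ s ∈ S, c * s * c⁻¹ ∈ S) (hcb : c * b = b * c) : ∀ s ∈ S, c * s = s * c := by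
  have hcz : ∀ u ∈ Subgroup.zpowers b, c * u = u * c := by
    intro u hu
    obtain ⟨k, rfl⟩ := Subgroup.mem_zpowers_iff.mp hu
    exact ((show Commute c b from hcb).zpow_right k)
  intro y hy
  by_cases hyb : y ∈ Subgroup.zpowers b
  · exact hcz y hyb
  · have hy' : c * y * c⁻¹ ∉ Subgroup.zpowers b := by
      intro hcon
      apply hyb
      have h5 := hcz _ hcon
      have h6 : c * y * c⁻¹ = y := by
        have : c * (c * y * c⁻¹) = c * y := by rw [h5]; group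
        exact mul_left_cancel this
      rwa [h6] at hcon
    have hyinv : y⁻¹ ∉ Subgroup.zpowers b := fun hcon =>
      hyb (by simpa using Subgroup.inv_mem _ hcon)
    have hb' := h3 y⁻¹ (S.inv_mem hy) _ (hn y hy) hyinv hy'
    have hconj : c * y * c⁻¹ = y * (y⁻¹ * (c * y * c⁻¹)) := by group
    have hb'S : y⁻¹ * (c * y * c⁻¹) ∈ S := S.mul_mem (S.inv_mem hy) (hn y hy)
    generalize y⁻¹ * (c * y * c⁻¹) = b' at hb' hconj hb'S
    have hcb' : c * b' = b' * c := hcz b' hb'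
    have hind : ∀ k : ℕ, c ^ k * y * (c ^ k)⁻¹ = y * b' ^ k := by
      intro k
      induction k with
      | zero => simp
      | succ k ih =>
        have hck : c * b' ^ k = b' ^ k * c := (show Commute c b' from hcb').pow_right k
        calc c ^ (k + 1) * y * (c ^ (k + 1))⁻¹ = c * (c ^ k * y * (c ^ k)⁻¹) * c⁻¹ := by
              rw [pow_succ']; group
          _ = c * (y * b' ^ k) * c⁻¹ := by rw [ih]
          _ = (c * y * c⁻¹) * (c * b' ^ k * c⁻¹) := by group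
          _ = y * b' * b' ^ k := by rw [hconj, hck]; group
          _ = y * b' ^ (k + 1) := by rw [pow_succ']; group
    have h7 := hind d
    rw [hc] at h7
    simp only [one_mul, inv_one, mul_one] at h7
    have h8 : b' ^ d = 1 := by
      have : y * b' ^ d = y * 1 := by rw [mul_one]; exact h7.symm
      exact mul_left_cancel this
    obtain ⟨f', hf'⟩ := hS2 b' hb'S
    have h9 := eq_one_of_odd_two_pow b' d f' hd h8 hf'
    rw [h9, mul_one] at hconj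
    calc c * y = c * y * c⁻¹ * c := by group
      _ = y * c := by rw [hconj]

/-- Elements of a cyclic group of order dividing four. -/
theorem mem_zpowers_four {G : Type*} [Group G] (b w : G) (hb4 : b ^ 4 = 1)
    (hw : w ∈ Subgroup.zpowers b) : w = 1 ∨ w = b ∨ w = b ^ 2 ∨ w = b⁻¹ := by
  obtain ⟨k, rfl⟩ := Subgroup.mem_zpowers_iff.mp hw
  have h4 : b ^ (4 : ℤ) = 1 := by
    have : b ^ ((4 : ℕ) : ℤ) = 1 := by rw [zpow_natCast]; exact hb4
    simpa using this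
  rw [zpow_eq_zpow_emod k h4]
  have h0 : 0 ≤ k % 4 := Int.emod_nonneg k (by norm_num)
  have h1 : k % 4 < 4 := Int.emod_lt_of_pos k (by norm_num)
  generalize k % 4 = r at h0 h1
  interval_cases r
  · left; simp
  · right; left; simp
  · right; right; left
    have : b ^ (2 : ℤ) = b ^ ((2 : ℕ) : ℤ) := by norm_num
    rw [this, zpow_natCast]
  · right; right; right
    rw [eq_inv_iff_mul_eq_one]
    have : b ^ (3 : ℤ) * b = b ^ ((4 : ℕ) : ℤ) := by
      have h3 : ((4 : ℕ) : ℤ) = 3 + 1 := by norm_num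
      rw [h3, zpow_add, zpow_one]
    rw [this, zpow_natCast, hb4]

/-- Core computation: from `β = g b g⁻¹` inverting `b` of order four, `β² = b²` and
`g β g⁻¹ = β b⁻¹`, the `SL(2,3)` relations (except `g³ = 1`) and `[g³, b] = 1`. -/
theorem sl23_core {G : Type*} [Group G] (g b : G) (_hb4 : b ^ 4 = 1)
    (hinv : (g * b * g⁻¹) * b * (g * b * g⁻¹)⁻¹ = b⁻¹)
    (hsq : (g * b * g⁻¹) * (g * b * g⁻¹) = b ^ 2)
    (hconj : g * (g * b * g⁻¹) * g⁻¹ = (g * b * g⁻¹) * b⁻¹) :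
    g ^ 3 * b = b * g ^ 3 ∧ (g * b * g⁻¹) ^ 2 = b ^ 2 ∧
      g * (g * b * g⁻¹) * g⁻¹ = b * (g * b * g⁻¹) := by
  have h1 : (g * b * g⁻¹) * b⁻¹ = b * (g * b * g⁻¹) := by
    have h2 : (g * b * g⁻¹) * b⁻¹ * (g * b * g⁻¹)⁻¹ = b := by
      have h3 : (g * b * g⁻¹) * b⁻¹ * (g * b * g⁻¹)⁻¹ =
          ((g * b * g⁻¹) * b * (g * b * g⁻¹)⁻¹)⁻¹ := by group
      rw [h3, hinv, inv_inv]
    calc (g * b * g⁻¹) * b⁻¹ = (g * b * g⁻¹) * b⁻¹ * (g * b * g⁻¹)⁻¹ * (g * b * g⁻¹) := by group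
      _ = b * (g * b * g⁻¹) := by rw [h2]
  refine ⟨?_, by rw [sq]; exact hsq, by rw [hconj, h1]⟩
  have h4 : g ^ 3 * b * (g ^ 3)⁻¹ = b := by
    have e3 : g ^ 3 = g * g * g := by rw [pow_succ, pow_succ, pow_one]
    calc g ^ 3 * b * (g ^ 3)⁻¹ = g * (g * (g * b * g⁻¹) * g⁻¹) * g⁻¹ := by rw [e3]; group
      _ = g * ((g * b * g⁻¹) * b⁻¹) * g⁻¹ := by rw [hconj]
      _ = (g * (g * b * g⁻¹) * g⁻¹) * (g * b * g⁻¹)⁻¹ := by group
      _ = (g * b * g⁻¹) * b⁻¹ * (g * b * g⁻¹)⁻¹ := by rw [hconj]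
      _ = ((g * b * g⁻¹) * b * (g * b * g⁻¹)⁻¹)⁻¹ := by group
      _ = b := by rw [hinv, inv_inv]
  calc g ^ 3 * b = g ^ 3 * b * (g ^ 3)⁻¹ * g ^ 3 := by group
    _ = b * g ^ 3 := by rw [h4]

/-- An element `g` of odd order normalizing but not centralizing a subgroup `Q` of a
quaternion-like 2-group: `Q` contains an element `a'` of order four satisfying, with `g`, the
relations of `SL(2,3)` modulo `g³`, which centralizes `a'`. -/
theorem QuatLike.exists_sl23Rel {G : Type*} [Group G] [Finite G] {T : Subgroup G} {a z : G}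
    (h : QuatLike T a z) (hT2 : ∀ t ∈ T, ∃ k : ℕ, t ^ (2 ^ k) = 1) (Q : Subgroup G) (hQ : Q ≤ T)
    (g : G) (d : ℕ) (hd : Odd d) (hg : g ^ d = 1) (hn : ∀ q ∈ Q, g * q * g⁻¹ ∈ Q)
    (hnc : ¬ ∀ q ∈ Q, g * q = q * g) :
    ∃ a' : G, a' ^ 4 = 1 ∧ a' ^ 2 ≠ 1 ∧ g ^ 3 * a' = a' * g ^ 3 ∧
      (g * a' * g⁻¹) * a' * (g * a' * g⁻¹)⁻¹ = a'⁻¹ ∧ (g * a' * g⁻¹) ^ 2 = a' ^ 2 ∧
      g * (g * a' * g⁻¹) * g⁻¹ = a' * (g * a' * g⁻¹) := by
  have hQ2 : ∀ q ∈ Q, ∃ k : ℕ, q ^ (2 ^ k) = 1 := fun q hq => hT2 q (hQ hq)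
  obtain ⟨b, hbQ, hcase⟩ := h.sub Q hQ
  obtain ⟨f, hf⟩ := hQ2 b hbQ
  rcases hcase with hcyc | hQL
  · exfalso
    apply hnc
    have hgb : g * b = b * g := comm_of_odd_of_two_pow b g f d hf hd hg (hcyc _ (hn b hbQ))
    intro q hq
    obtain ⟨k, rfl⟩ := Subgroup.mem_zpowers_iff.mp (hcyc q hq)
    exact ((show Commute g b from hgb).zpow_right k)
  obtain ⟨-, hz2, hzb, hout, hprod⟩ := hQL
  have hA : g * b * g⁻¹ ∉ Subgroup.zpowers b := by
    intro hc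
    apply hnc
    have hgb : g * b = b * g := comm_of_odd_of_two_pow b g f d hf hd hg hc
    exact comm_of_odd_index_two Q b hprod hQ2 g d hd hg hn hgb
  have hβQ : g * b * g⁻¹ ∈ Q := hn b hbQ
  obtain ⟨hββ, hβb⟩ := hout _ hβQ hA
  have hz1 : z ≠ 1 := by
    intro hc
    rw [hc, orderOf_one] at hz2
    omega
  have hzz : z * z = 1 := by
    have h1 := pow_orderOf_eq_one z
    rw [hz2, sq] at h1
    exact h1
  have hb4 : b ^ 4 = 1 := by
    have h1 : g * b ^ 4 * g⁻¹ = 1 := by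
      have e4 : b ^ 4 = b * b * b * b := by rw [pow_succ, pow_succ, pow_succ, pow_one]
      calc g * b ^ 4 * g⁻¹ = ((g * b * g⁻¹) * (g * b * g⁻¹)) * ((g * b * g⁻¹) * (g * b * g⁻¹)) := by
            rw [e4]; group
        _ = 1 := by rw [hββ, hzz]
    have h2 : b ^ 4 = g⁻¹ * (g * b ^ 4 * g⁻¹) * g := by group
    rw [h2, h1]; group
  have hb2 : b ^ 2 ≠ 1 := by
    intro hc
    apply hz1
    have h1 : (g * b * g⁻¹) * (g * b * g⁻¹) = g * b ^ 2 * g⁻¹ := by rw [sq]; group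
    rw [← hββ, h1, hc]; group
  have hzb2 : z = b ^ 2 := by
    refine Helper73.eq_of_sq_eq_one_of_mem_zpowers b z (b ^ 2) hzb
      (Subgroup.pow_mem _ (Subgroup.mem_zpowers b) 2) (by rw [sq]; exact hzz) ?_ hz1 hb2
    rw [← pow_mul]; exact hb4
  have hsqb : (g * b * g⁻¹) * (g * b * g⁻¹) = b ^ 2 := by rw [hββ, hzb2]
  -- `g` does not normalize `⟨β⟩`
  have hB : g * (g * b * g⁻¹) * g⁻¹ ∉ Subgroup.zpowers (g * b * g⁻¹) := by
    intro hc
    obtain ⟨f', hf'⟩ := hQ2 _ hβQ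
    have h1 : g * (g * b * g⁻¹) = (g * b * g⁻¹) * g :=
      comm_of_odd_of_two_pow (g * b * g⁻¹) g f' d hf' hd hg hc
    apply hA
    have h2 : g * b * g⁻¹ = b := by
      have h3 : g * (g * b * g⁻¹) = g * b := by rw [h1]; group
      exact mul_left_cancel h3
    rw [h2]; exact Subgroup.mem_zpowers b
  -- `g β g⁻¹` lies outside `⟨b⟩`
  have hC : g * (g * b * g⁻¹) * g⁻¹ ∉ Subgroup.zpowers b := by
    intro hc
    have h1 : g ^ 2 * b * (g ^ 2)⁻¹ ∈ Subgroup.zpowers b := by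
      have : g ^ 2 * b * (g ^ 2)⁻¹ = g * (g * b * g⁻¹) * g⁻¹ := by rw [sq]; group
      rw [this]; exact hc
    have h2 : g ^ 2 * b = b * g ^ 2 :=
      comm_of_odd_of_two_pow b (g ^ 2) f d hf hd
        (by rw [← pow_mul, mul_comm, pow_mul, hg, one_pow]) h1
    have h3 : g * b = b * g := comm_of_pow_comm g b d 2 hg (Nat.coprime_two_left.mpr hd) h2
    apply hA
    have h4 : g * b * g⁻¹ = b := by rw [h3]; group
    rw [h4]; exact Subgroup.mem_zpowers b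
  have hβinv : (g * b * g⁻¹)⁻¹ ∉ Subgroup.zpowers b := fun hcon =>
    hA (by simpa using Subgroup.inv_mem _ hcon)
  have hw := hprod _ (Q.inv_mem hβQ) _ (hn _ hβQ) hβinv hC
  have hγ : g * (g * b * g⁻¹) * g⁻¹ = (g * b * g⁻¹) * ((g * b * g⁻¹)⁻¹ * (g * (g * b * g⁻¹) * g⁻¹)) := by
    group
  rcases mem_zpowers_four b _ hb4 hw with hw1 | hw1 | hw1 | hw1
  · exfalso
    apply hB
    rw [hγ, hw1, mul_one]
    exact Subgroup.mem_zpowers _
  · -- `g β g⁻¹ = β b`: use `a' = b⁻¹`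
    rw [hw1] at hγ
    have hb4' : b⁻¹ ^ 4 = 1 := by rw [inv_pow, hb4, inv_one]
    have hcj : g * b⁻¹ * g⁻¹ = (g * b * g⁻¹)⁻¹ := by group
    have hinv' : (g * b⁻¹ * g⁻¹) * b⁻¹ * (g * b⁻¹ * g⁻¹)⁻¹ = b⁻¹⁻¹ := by
      rw [hcj, inv_inv, inv_inv]
      have h1 : b = (g * b * g⁻¹)⁻¹ * b⁻¹ * (g * b * g⁻¹) := by
        rw [← hβb]; group
      exact h1.symm
    have hsq' : (g * b⁻¹ * g⁻¹) * (g * b⁻¹ * g⁻¹) = b⁻¹ ^ 2 := by
      rw [hcj, ← mul_inv_rev, hsqb, inv_pow]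
    have hconj' : g * (g * b⁻¹ * g⁻¹) * g⁻¹ = (g * b⁻¹ * g⁻¹) * b⁻¹⁻¹ := by
      rw [hcj, inv_inv]
      have h1 : g * (g * b * g⁻¹)⁻¹ * g⁻¹ = (g * (g * b * g⁻¹) * g⁻¹)⁻¹ := by
        simp only [mul_inv_rev, inv_inv, mul_assoc]
      rw [h1, hγ, mul_inv_rev]
      -- b⁻¹ β⁻¹ = β⁻¹ b
      have h2 : (g * b * g⁻¹)⁻¹ * b * (g * b * g⁻¹) = b⁻¹ := by
        have h3 : b = (g * b * g⁻¹)⁻¹ * b⁻¹ * (g * b * g⁻¹) := by
          rw [← hβb]; group
        calc (g * b * g⁻¹)⁻¹ * b * (g * b * g⁻¹)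
            = ((g * b * g⁻¹)⁻¹ * b⁻¹ * (g * b * g⁻¹))⁻¹ := by group
          _ = b⁻¹ := by rw [← h3]
      have h5 : b⁻¹ * (g * b * g⁻¹)⁻¹ =
          (g * b * g⁻¹)⁻¹ * b * (g * b * g⁻¹) * (g * b * g⁻¹)⁻¹ := by rw [h2]
      have h6 : (g * b * g⁻¹)⁻¹ * b * (g * b * g⁻¹) * (g * b * g⁻¹)⁻¹ = (g * b * g⁻¹)⁻¹ * b := by
        group
      exact h5.trans h6
    obtain ⟨c1, c2, c3⟩ := sl23_core g (b⁻¹) hb4' hinv' hsq' hconj'
    refine ⟨b⁻¹, hb4', ?_, c1, hinv', c2, c3⟩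
    rw [inv_pow]
    exact fun hc => hb2 (inv_eq_one.mp hc)
  · exfalso
    apply hB
    rw [hγ, hw1, ← hsqb]
    exact Subgroup.mul_mem _ (Subgroup.mem_zpowers _)
      (Subgroup.mul_mem _ (Subgroup.mem_zpowers _) (Subgroup.mem_zpowers _))
  · -- `g β g⁻¹ = β b⁻¹`: use `a' = b`
    rw [hw1] at hγ
    obtain ⟨c1, c2, c3⟩ := sl23_core g b hb4 hβb hsqb hγ
    exact ⟨b, hb4, hb2, c1, hβb, c2, c3⟩

end Cfsg.Agent.Helper29
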