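import Mathlib

/-!
# Reduction lemma for S4707 (primitive, not doubly transitive groups of degree `2p`)

`s4707_reduction`: a primitive, not doubly transitive permutation group `G` of degree `2p` (`p > 3`
prime) whose Sylow `p`-normalizer has order `2p` is simple, its Sylow `p`-subgroups have order `p` and
are self-centralizing, and every element of order divisible by `p` is fixed-point-free.
-/

open Equiv MulAction

namespace Cfsg.Agent.Helper29

/-- A transitive action on a finite set: the cardinality of the set divides the order of the group. -/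
theorem card_dvd_of_pretransitive {K α : Type*} [Group K] [MulAction K α] [Fintype α] [Finite K]
    [Nonempty α] (h : MulAction.IsPretransitive K α) : Fintype.card α ∣ Nat.card K := by
  obtain ⟨a⟩ := ‹Nonempty α›
  have h1 := MulAction.index_stabilizer_of_transitive K a
  rw [Nat.card_eq_fintype_card] at h1
  rw [← h1]
  exact Subgroup.index_dvd_card _

/-- A nontrivial normal subgroup of a primitive permutation group is transitive. -/
theorem normal_pretransitive_of_ne_bot {α : Type*} [Fintype α] [DecidableEq α]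
    (G : Subgroup (Equiv.Perm α)) (hprim : MulAction.IsPreprimitive G α)
    (N : Subgroup G) [N.Normal] (hN : N ≠ ⊥) : MulAction.IsPretransitive N α := by
  apply IsQuasiPreprimitive.isPretransitive_of_normal
  intro hfix
  apply hN
  rw [Subgroup.eq_bot_iff_forall]
  intro n hn
  apply Subtype.ext
  apply Equiv.Perm.ext
  intro a
  have ha : a ∈ MulAction.fixedPoints N α := by rw [hfix]; exact Set.mem_univ a
  have := ha ⟨n, hn⟩
  exact this

/-- A permutation of prime order `p` moving fewer than `2 p` points is a `p`-cycle. -/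
theorem isCycle_of_prime_order {α : Type*} [Fintype α] [DecidableEq α] {p : ℕ} [Fact p.Prime]
    (u : Equiv.Perm α) (hu : orderOf u = p) (hs : u.support.card < 2 * p) :
    u.IsCycle ∧ u.support.card = p := by
  have hp : p.Prime := Fact.out
  obtain ⟨n, hn⟩ := Equiv.Perm.cycleType_prime_order (σ := u) (by rw [hu]; exact hp)
  have hsum := Equiv.Perm.sum_cycleType u
  rw [hn, Multiset.sum_replicate, hu, smul_eq_mul] at hsum
  have hn0 : n = 0 := by
    by_contra h
    have : 2 ≤ n + 1 := by omega
    have : 2 * p ≤ (n + 1) * p := Nat.mul_le_mul_right p this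
    omega
  subst hn0
  refine ⟨?_, ?_⟩
  · rw [← Equiv.Perm.card_cycleType_eq_one, hn]
    simp
  · rw [← hsum]; simp

/-- In a primitive, not doubly transitive group of degree `2p`, every element of order divisible by `p`
is fixed-point-free (Jordan). -/
theorem fpf_of_p_dvd_order {α : Type*} [Fintype α] [DecidableEq α] {p : ℕ} [Fact p.Prime]
    (hα : Fintype.card α = 2 * p) (G : Subgroup (Equiv.Perm α))
    (hprim : MulAction.IsPreprimitive G α) (hnot2 : ¬ MulAction.IsMultiplyPretransitive G α 2)
    (g : G) (hg : p ∣ orderOf g) (a : α) : g • a ≠ a := by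
  have hp : p.Prime := Fact.out
  intro hga
  have hfin : orderOf g ≠ 0 := (orderOf_pos g).ne'
  obtain ⟨u, hu⟩ : ∃ u : G, u = g ^ (orderOf g / p) := ⟨_, rfl⟩
  have huo : orderOf u = p := by rw [hu]; exact orderOf_pow_orderOf_div hfin hg
  have hua : u • a = a := by
    rw [hu]
    exact MulAction.mem_stabilizer_iff.mp
      ((MulAction.stabilizer G a).pow_mem (MulAction.mem_stabilizer_iff.mpr hga) _)
  have huo' : orderOf (u : Equiv.Perm α) = p := by rw [Subgroup.orderOf_coe]; exact huo
  have hua' : (u : Equiv.Perm α) a = a := hua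
  have hsupp : (u : Equiv.Perm α).support.card < 2 * p := by
    have h1 : a ∉ (u : Equiv.Perm α).support := by
      rw [Equiv.Perm.notMem_support]; exact hua'
    have h2 : (u : Equiv.Perm α).support ⊂ Finset.univ := by
      rw [Finset.ssubset_univ_iff]
      intro h
      exact h1 (h ▸ Finset.mem_univ a)
    have h3 := Finset.card_lt_card h2
    rw [Finset.card_univ, hα] at h3
    exact h3
  obtain ⟨hcyc, hcard⟩ := isCycle_of_prime_order (u : Equiv.Perm α) huo' hsupp
  have htrans := Equiv.Perm.isPretransitive_of_isCycle_mem hcyc u.2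
  apply hnot2
  refine hprim.is_two_pretransitive (s := ((u : Equiv.Perm α).support : Set α)ᶜ) (n := p - 1)
    ?_ ?_ htrans
  · rw [← Finset.coe_compl, Set.ncard_coe_finset, Finset.card_compl, hα, hcard]
    have := hp.two_le
    omega
  · rw [Nat.card_eq_fintype_card, hα]
    have := hp.two_le
    omega

/-- A subgroup whose order is divisible by `p` and divides `2p` has order `p` or `2p`. -/
theorem card_eq_p_or_two_p {G : Type*} [Group G] {p : ℕ} (hpp : p.Prime) (X : Subgroup G)
    (h1 : p ∣ Nat.card X) (h2 : Nat.card X ∣ 2 * p) : Nat.card X = p ∨ Nat.card X = 2 * p := by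
  obtain ⟨m, hm⟩ := h1
  rw [hm, mul_comm 2 p] at h2
  have h3 : m ∣ 2 := (Nat.mul_dvd_mul_iff_left hpp.pos).mp h2
  have h4 : m ≤ 2 := Nat.le_of_dvd (by norm_num) h3
  interval_cases m
  · simp at h3
  · left; rw [hm, mul_one]
  · right; rw [hm, mul_comm]

/-- Sylow data: `|P| = p` and `|C(P)| = p`. -/
theorem sylow_data_2p {α : Type*} [Fintype α] [DecidableEq α] {p : ℕ} [Fact p.Prime]
    (hp : 3 < p) (hα : Fintype.card α = 2 * p) (G : Subgroup (Equiv.Perm α))
    (hprim : MulAction.IsPreprimitive G α)
    (P : Sylow p G) (hN : Nat.card (Subgroup.normalizer ((P : Subgroup G) : Set G)) = 2 * p) :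
    Nat.card (P : Subgroup G) = p ∧
      Nat.card (Subgroup.centralizer ((P : Subgroup G) : Set G)) = p := by
  classical
  have hpp : p.Prime := Fact.out
  have hne : Nonempty α := by
    rw [← Fintype.card_pos_iff, hα]
    have := hpp.pos
    omega
  have htransG : MulAction.IsPretransitive G α := hprim.toIsPretransitive
  have h2pG : 2 * p ∣ Nat.card G := by
    rw [← hα]; exact card_dvd_of_pretransitive htransG
  have hPN : (P : Subgroup G) ≤ Subgroup.normalizer ((P : Subgroup G) : Set G) :=
    Subgroup.le_normalizer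
  have hPdvd : Nat.card (P : Subgroup G) ∣ 2 * p := by
    rw [← hN]; exact Subgroup.card_dvd_of_le hPN
  have hpP : p ∣ Nat.card (P : Subgroup G) := by
    have := P.pow_dvd_card_of_pow_dvd_card (n := 1)
      (by rw [pow_one]; exact (dvd_mul_left p 2).trans h2pG)
    simpa using this
  have hPcard : Nat.card (P : Subgroup G) = p := by
    rcases card_eq_p_or_two_p hpp _ hpP hPdvd with h | h
    · exact h
    · exfalso
      obtain ⟨j, hj⟩ := IsPGroup.iff_card.mp P.isPGroup'
      have h2 : 2 ∣ p ^ j := by rw [← hj, h]; exact dvd_mul_right 2 p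
      have h3 : 2 ∣ p := Nat.Prime.dvd_of_dvd_pow Nat.prime_two h2
      have h4 := (Nat.prime_dvd_prime_iff_eq Nat.prime_two hpp).mp h3
      omega
  refine ⟨hPcard, ?_⟩
  have hcomm : ∀ a b : (P : Subgroup G), a * b = b * a := by
    intro a b
    have hcyc := isCyclic_of_prime_card (α := (P : Subgroup G)) hPcard
    exact (IsCyclic.commGroup (α := (P : Subgroup G))).mul_comm a b
  have hPC : (P : Subgroup G) ≤ Subgroup.centralizer ((P : Subgroup G) : Set G) := by
    intro x hx
    rw [Subgroup.mem_centralizer_iff]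
    intro y hy
    have := hcomm ⟨y, hy⟩ ⟨x, hx⟩
    exact congrArg Subtype.val this
  have hCN : Subgroup.centralizer ((P : Subgroup G) : Set G) ≤
      Subgroup.normalizer ((P : Subgroup G) : Set G) := Subgroup.centralizer_le_normalizer _
  have hpC : p ∣ Nat.card (Subgroup.centralizer ((P : Subgroup G) : Set G)) := by
    have := Subgroup.card_dvd_of_le hPC
    rwa [hPcard] at this
  have hCdvd : Nat.card (Subgroup.centralizer ((P : Subgroup G) : Set G)) ∣ 2 * p := by
    rw [← hN]; exact Subgroup.card_dvd_of_le hCN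
  rcases card_eq_p_or_two_p hpp _ hpC hCdvd with h | h
  · exact h
  exfalso
  have hNC : Subgroup.normalizer ((P : Subgroup G) : Set G) ≤
      Subgroup.centralizer ((P : Subgroup G) : Set G) := by
    have : Subgroup.centralizer ((P : Subgroup G) : Set G) =
        Subgroup.normalizer ((P : Subgroup G) : Set G) :=
      Subgroup.eq_of_le_of_card_ge hCN (by rw [h, hN])
    rw [this]
  have hcompl := MonoidHom.ker_transferSylow_isComplement' P hNC
  have hKcard := hcompl.card_mul_card
  have hnd := MonoidHom.not_dvd_card_ker_transferSylow P hNC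
  by_cases hK : (MonoidHom.transferSylow P hNC).ker = ⊥
  · rw [hK, Subgroup.card_bot, one_mul, hPcard] at hKcard
    rw [← hKcard] at h2pG
    have := Nat.le_of_dvd hpp.pos h2pG
    have := hpp.pos
    omega
  · have htr := normal_pretransitive_of_ne_bot G hprim _ hK
    have h1 := card_dvd_of_pretransitive htr
    rw [hα] at h1
    exact hnd ((dvd_mul_left p 2).trans h1)

/-- Simplicity. -/
theorem simple_2p {α : Type*} [Fintype α] [DecidableEq α] {p : ℕ} [Fact p.Prime]
    (hp : 3 < p) (hα : Fintype.card α = 2 * p) (G : Subgroup (Equiv.Perm α))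
    (hprim : MulAction.IsPreprimitive G α)
    (P : Sylow p G) (hN : Nat.card (Subgroup.normalizer ((P : Subgroup G) : Set G)) = 2 * p) :
    IsSimpleGroup G := by
  classical
  have hpp : p.Prime := Fact.out
  obtain ⟨hPcard, hCcard⟩ := sylow_data_2p hp hα G hprim P hN
  have hne : Nonempty α := by
    rw [← Fintype.card_pos_iff, hα]
    have := hpp.pos
    omega
  have htransG : MulAction.IsPretransitive G α := hprim.toIsPretransitive
  have h2pG : 2 * p ∣ Nat.card G := by
    rw [← hα]; exact card_dvd_of_pretransitive htransG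
  have hnt : Nontrivial G := by
    rw [← Finite.one_lt_card_iff_nontrivial]
    have := Nat.le_of_dvd Nat.card_pos h2pG
    omega
  refine { exists_pair_ne := hnt.exists_pair_ne, eq_bot_or_eq_top_of_normal := ?_ }
  intro M hM
  by_cases hbot : M = ⊥
  · left; exact hbot
  right
  by_contra htop
  have htrM := normal_pretransitive_of_ne_bot G hprim M hbot
  have h2pM : 2 * p ∣ Nat.card M := by rw [← hα]; exact card_dvd_of_pretransitive htrM
  have hpM : p ∣ Nat.card M := (dvd_mul_left p 2).trans h2pM
  -- `P ≤ M`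
  have hPM : (P : Subgroup G) ≤ M := by
    obtain ⟨x, hx⟩ := exists_prime_orderOf_dvd_card' p hpM
    have hxo : orderOf (x : G) = p := by rw [Subgroup.orderOf_coe]; exact hx
    have hz : IsPGroup p (Subgroup.zpowers (x : G)) := by
      rw [IsPGroup.iff_card]
      refine ⟨1, ?_⟩
      rw [Nat.card_zpowers, hxo, pow_one]
    obtain ⟨Q, hQ⟩ := hz.exists_le_sylow
    have hQcard : Nat.card (Q : Subgroup G) = p := by
      rw [Sylow.card_eq_multiplicity, ← Sylow.card_eq_multiplicity P, hPcard]
    have hQeq : Subgroup.zpowers (x : G) = (Q : Subgroup G) :=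
      Subgroup.eq_of_le_of_card_ge hQ (by rw [hQcard, Nat.card_zpowers, hxo])
    have hQM : (Q : Subgroup G) ≤ M := by
      rw [← hQeq, Subgroup.zpowers_le]
      exact x.2
    obtain ⟨g, hg⟩ := MulAction.exists_smul_eq G Q P
    intro y hy
    have hy' : y ∈ ((g • Q : Sylow p G) : Subgroup G) := by rw [hg]; exact hy
    rw [Sylow.coe_subgroup_smul, Subgroup.mem_smul_pointwise_iff_exists] at hy'
    obtain ⟨s, hs, rfl⟩ := hy'
    rw [MulAut.smul_def, MulAut.conj_apply]
    exact hM.conj_mem s (hQM hs) g
  have hfrat : Subgroup.normalizer ((P : Subgroup G) : Set G) ⊔ M = ⊤ :=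
    Sylow.normalizer_sup_eq_top' P hPM
  -- `N_M(P) = P`
  have hNM : Subgroup.normalizer ((P : Subgroup G) : Set G) ⊓ M = (P : Subgroup G) := by
    symm
    apply Subgroup.eq_of_le_of_card_ge (le_inf Subgroup.le_normalizer hPM)
    have h1 : p ∣ Nat.card ↥(Subgroup.normalizer ((P : Subgroup G) : Set G) ⊓ M) := by
      have := Subgroup.card_dvd_of_le (le_inf (Subgroup.le_normalizer (H := (P : Subgroup G))) hPM)
      rwa [hPcard] at this
    have h2 : Nat.card ↥(Subgroup.normalizer ((P : Subgroup G) : Set G) ⊓ M) ∣ 2 * p := by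
      rw [← hN]; exact Subgroup.card_dvd_of_le inf_le_left
    rcases card_eq_p_or_two_p hpp _ h1 h2 with h | h
    · rw [h, hPcard]
    · exfalso
      have h3 : Subgroup.normalizer ((P : Subgroup G) : Set G) ⊓ M =
          Subgroup.normalizer ((P : Subgroup G) : Set G) :=
        Subgroup.eq_of_le_of_card_ge inf_le_left (by rw [h, hN])
      have h4 : Subgroup.normalizer ((P : Subgroup G) : Set G) ≤ M := by
        rw [← h3]; exact inf_le_right
      rw [sup_of_le_right h4] at hfrat
      exact htop hfrat
  -- Burnside transfer inside `M`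
  obtain ⟨PM, hPMdef⟩ : ∃ PM : Sylow p M, PM = P.subtype hPM := ⟨_, rfl⟩
  have hPMcoe : (PM : Subgroup M) = (P : Subgroup G).subgroupOf M := by
    rw [hPMdef, Sylow.coe_subtype]
  have hPMcard : Nat.card (PM : Subgroup M) = p := by
    rw [hPMcoe, Nat.card_congr (Subgroup.subgroupOfEquivOfLe hPM).toEquiv, hPcard]
  have hcommM : ∀ a b : (PM : Subgroup M), a * b = b * a := by
    intro a b
    have hcyc := isCyclic_of_prime_card (α := (PM : Subgroup M)) hPMcard
    exact (IsCyclic.commGroup (α := (PM : Subgroup M))).mul_comm a b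
  have hNCM : Subgroup.normalizer ((PM : Subgroup M) : Set M) ≤
      Subgroup.centralizer ((PM : Subgroup M) : Set M) := by
    intro x hx
    have hxN : (x : G) ∈ Subgroup.normalizer ((P : Subgroup G) : Set G) := by
      rw [Subgroup.mem_normalizer_iff]
      rw [Subgroup.mem_normalizer_iff] at hx
      intro h
      constructor
      · intro hh
        have h1 : (⟨h, hPM hh⟩ : M) ∈ (PM : Subgroup M) := by
          rw [hPMcoe, Subgroup.mem_subgroupOf]
          exact hh
        have h2 : x * (⟨h, hPM hh⟩ : M) * x⁻¹ ∈ (PM : Subgroup M) := (hx ⟨h, hPM hh⟩).mp h1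
        rw [hPMcoe, Subgroup.mem_subgroupOf] at h2
        exact h2
      · intro hh
        have hhM : h ∈ M := by
          have h3 : h = (x : G)⁻¹ * ((x : G) * h * (x : G)⁻¹) * (x : G) := by group
          rw [h3]
          exact M.mul_mem (M.mul_mem (M.inv_mem x.2) (hPM hh)) x.2
        have h1 : x * (⟨h, hhM⟩ : M) * x⁻¹ ∈ (PM : Subgroup M) := by
          rw [hPMcoe, Subgroup.mem_subgroupOf]
          exact hh
        have h2 : (⟨h, hhM⟩ : M) ∈ (PM : Subgroup M) := (hx ⟨h, hhM⟩).mpr h1
        rw [hPMcoe, Subgroup.mem_subgroupOf] at h2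
        exact h2
    have hxP : (x : G) ∈ (P : Subgroup G) := by
      rw [← hNM]
      exact ⟨hxN, x.2⟩
    have hxPM : x ∈ (PM : Subgroup M) := by
      rw [hPMcoe, Subgroup.mem_subgroupOf]
      exact hxP
    rw [Subgroup.mem_centralizer_iff]
    intro y hy
    have := hcommM ⟨y, hy⟩ ⟨x, hxPM⟩
    exact congrArg Subtype.val this
  have hcompl := MonoidHom.ker_transferSylow_isComplement' PM hNCM
  have hKcard := hcompl.card_mul_card
  have hnd := MonoidHom.not_dvd_card_ker_transferSylow PM hNCM
  obtain ⟨KM, hKMdef⟩ : ∃ KM : Subgroup M, KM = (MonoidHom.transferSylow PM hNCM).ker := ⟨_, rfl⟩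
  rw [← hKMdef] at hKcard hnd
  -- characterization of `KM`
  have hKM : ∀ m : M, m ∈ KM ↔ ¬ p ∣ orderOf m := by
    intro m
    constructor
    · intro hm hdvd
      apply hnd
      have h1 : orderOf (⟨m, hm⟩ : KM) = orderOf m := by rw [← Subgroup.orderOf_coe]
      have h2 : orderOf (⟨m, hm⟩ : KM) ∣ Nat.card KM := orderOf_dvd_natCard _
      rw [h1] at h2
      exact hdvd.trans h2
    · intro hm
      rw [hKMdef, MonoidHom.mem_ker]
      have h1 : orderOf (MonoidHom.transferSylow PM hNCM m) ∣ orderOf m := orderOf_map_dvd _ m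
      have h2 : orderOf (MonoidHom.transferSylow PM hNCM m) ∣ p := by
        have h0 := orderOf_dvd_natCard (MonoidHom.transferSylow PM hNCM m)
        rwa [hPMcard] at h0
      rcases (Nat.dvd_prime hpp).mp h2 with h3 | h3
      · exact orderOf_eq_one_iff.mp h3
      · exfalso
        rw [h3] at h1
        exact hm h1
  -- `K = KM` as a subgroup of `G` is normal
  obtain ⟨K, hKdef⟩ : ∃ K : Subgroup G, K = KM.map M.subtype := ⟨_, rfl⟩
  have hKn : K.Normal := by
    constructor
    intro k hk g
    rw [hKdef, Subgroup.mem_map] at hk ⊢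
    obtain ⟨m, hm, rfl⟩ := hk
    refine ⟨⟨g * (m : G) * g⁻¹, hM.conj_mem _ m.2 g⟩, ?_, rfl⟩
    rw [hKM] at hm ⊢
    have h1 : orderOf (⟨g * (m : G) * g⁻¹, hM.conj_mem _ m.2 g⟩ : M) = orderOf m := by
      rw [← Subgroup.orderOf_coe, ← Subgroup.orderOf_coe m]
      exact (MulAut.conj g).orderOf_eq (m : G)
    rw [h1]
    exact hm
  have hKcard' : Nat.card K = Nat.card KM := by
    rw [hKdef]
    exact Subgroup.card_map_of_injective M.subtype_injective
  by_cases hK : K = ⊥
  · have hKM0 : Nat.card KM = 1 := by rw [← hKcard', hK, Subgroup.card_bot]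
    rw [hKM0, one_mul, hPMcard] at hKcard
    rw [← hKcard] at h2pM
    have := Nat.le_of_dvd hpp.pos h2pM
    have := hpp.pos
    omega
  · have htr := normal_pretransitive_of_ne_bot G hprim K hK
    have h1 := card_dvd_of_pretransitive htr
    rw [hα, hKcard'] at h1
    exact hnd ((dvd_mul_left p 2).trans h1)

/-- **Reduction for S4707.** -/
theorem s4707_reduction {α : Type*} [Fintype α] [DecidableEq α] {p : ℕ} [Fact p.Prime]
    (hp : 3 < p) (hα : Fintype.card α = 2 * p) (G : Subgroup (Equiv.Perm α))
    (hprim : MulAction.IsPreprimitive G α) (hnot2 : ¬ MulAction.IsMultiplyPretransitive G α 2)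
    (P : Sylow p G) (hN : Nat.card (Subgroup.normalizer ((P : Subgroup G) : Set G)) = 2 * p) :
    IsSimpleGroup G ∧ Nat.card (P : Subgroup G) = p ∧
      Nat.card (Subgroup.centralizer ((P : Subgroup G) : Set G)) = p ∧
      (∀ g : G, p ∣ orderOf g → ∀ a : α, g • a ≠ a) := by
  obtain ⟨h1, h2⟩ := sylow_data_2p hp hα G hprim P hN
  exact ⟨simple_2p hp hα G hprim P hN, h1, h2,
    fun g hg a => fpf_of_p_dvd_order hα G hprim hnot2 g hg a⟩

end Cfsg.Agent.Helper29
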