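import Mathlib
import Cfsg.Agent.Helper87.SFDefs

/-!
# S2752 piece ORB (CALL by helper87): the diagonal homomorphism `Δ k = ∏_{c ∈ T} c k c⁻¹` into the
product of the pairwise commuting `T`-conjugates of `K`.
-/

set_option autoImplicit false

namespace Cfsg.Agent.Helper29

open Cfsg.Agent.Helper87 Cfsg.Agent.Helper87.SF

theorem sforb_mcongr {β : Type*} [Monoid β] (s t : Multiset β) (h : s = t) (hs) (ht) :
    s.noncommProd hs = t.noncommProd ht := by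
  subst h
  rfl

/-- reindexing a non-commutative product over a finite type by a permutation -/
theorem sforb_reindex {α β : Type*} [Fintype α] [Monoid β] (σ : α ≃ α) (f : α → β) (comm)
    (comm') :
    Finset.univ.noncommProd (fun i => f (σ i)) comm' = Finset.univ.noncommProd f comm := by
  unfold Finset.noncommProd
  apply sforb_mcongr
  show Multiset.map (f ∘ σ) Finset.univ.val = Multiset.map f Finset.univ.val
  rw [← Multiset.map_map f σ, Multiset.map_univ_val_equiv]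

/-- ORB -/
theorem sf_orb {G : Type*} [Group G] [Finite G] (A K T : Subgroup G) (hA : EA2 A) (hT : T ≤ A)
    (hcc : CC K A) (hTK : ∀ c ∈ T, (∀ k ∈ K, c * k * c⁻¹ ∈ K) → c = 1) :
    ∃ Δ : ↥K →* G,
      (∀ k : ↥K, ∀ c ∈ T, c * Δ k = Δ k * c) ∧
      (∀ e ∈ A, ∀ k k' : ↥K, e * (k : G) * e⁻¹ = (k' : G) → e * Δ k * e⁻¹ = Δ k') ∧
      (∀ k : ↥K, ∀ k' ∈ K, (Δ k * (k : G)⁻¹) * k' = k' * (Δ k * (k : G)⁻¹)) ∧
      (∀ e ∈ A, (∀ t ∈ T, ¬ ∀ k ∈ K, (e * t) * k * (e * t)⁻¹ ∈ K) →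
        ∀ k : ↥K, (∀ k' ∈ K, (e * Δ k * e⁻¹) * k' = k' * (e * Δ k * e⁻¹)) ∧
          ∀ k'' : ↥K, (e * Δ k * e⁻¹) * Δ k'' = Δ k'' * (e * Δ k * e⁻¹)) := by
  classical
  obtain ⟨hAc, hA2⟩ := hA
  have : Fintype ↥T := Fintype.ofFinite _
  obtain ⟨φ, hφ⟩ : ∃ φ : ↥T → ↥K →* G, ∀ (c : ↥T) (k : ↥K),
      φ c k = (c : G) * (k : G) * (c : G)⁻¹ :=
    ⟨fun c => (MulAut.conj (c : G)).toMonoidHom.comp K.subtype, fun c k => rfl⟩
  have hkey : ∀ d ∈ A, (¬ ∀ k ∈ K, d * k * d⁻¹ ∈ K) →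
      ∀ k ∈ K, ∀ k' ∈ K, (d * k * d⁻¹) * k' = k' * (d * k * d⁻¹) := by
    intro d hd hn
    rcases hcc d hd with h | h
    · exact absurd h hn
    · exact h
  have hT1 : ∀ c ∈ T, c ≠ 1 → ¬ ∀ k ∈ K, c * k * c⁻¹ ∈ K := fun c hc hc1 h => hc1 (hTK c hc h)
  have hcomm2 : ∀ (c c' : G), c⁻¹ * c' ∈ A →
      (¬ ∀ k ∈ K, (c⁻¹ * c') * k * (c⁻¹ * c')⁻¹ ∈ K) →
      ∀ k ∈ K, ∀ k' ∈ K, Commute (c' * k * c'⁻¹) (c * k' * c⁻¹) := by
    intro c c' hd hn k hk k' hk'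
    have h := hkey _ hd hn k hk k' hk'
    show c' * k * c'⁻¹ * (c * k' * c⁻¹) = c * k' * c⁻¹ * (c' * k * c'⁻¹)
    have e1 : c' * k * c'⁻¹ * (c * k' * c⁻¹)
        = c * ((c⁻¹ * c') * k * (c⁻¹ * c')⁻¹ * k') * c⁻¹ := by group
    have e2 : c * k' * c⁻¹ * (c' * k * c'⁻¹)
        = c * (k' * ((c⁻¹ * c') * k * (c⁻¹ * c')⁻¹)) * c⁻¹ := by group
    rw [e1, e2, h]
  have hcomm : Pairwise fun i j : ↥T => ∀ x y : ↥K, Commute (φ i x) (φ j y) := by
    intro i j hij x y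
    rw [hφ, hφ]
    have hm : (j : G)⁻¹ * (i : G) ∈ T := T.mul_mem (T.inv_mem j.2) i.2
    refine hcomm2 j i (hT hm) (hT1 _ hm ?_) x x.2 y y.2
    intro h
    apply hij
    rw [inv_mul_eq_one] at h
    exact Subtype.ext h.symm
  have hc0 : ∀ k : ↥K, (↑(Finset.univ : Finset ↥T) : Set ↥T).Pairwise
      (Function.onFun Commute (fun c : ↥T => φ c k)) := fun k i _ j _ hij => hcomm hij k k
  obtain ⟨Δ, hΔ⟩ : ∃ Δ : ↥K →* G, ∀ k : ↥K,
      Δ k = Finset.noncommProd Finset.univ (fun c : ↥T => φ c k) (hc0 k) :=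
    ⟨(MonoidHom.noncommPiCoprod φ hcomm).comp (MonoidHom.pi fun _ => MonoidHom.id ↥K), fun k => by
      rw [MonoidHom.comp_apply, MonoidHom.noncommPiCoprod_apply]
      rfl⟩
  have hconj : ∀ (e : G) (x : G), e * x * e⁻¹ = (MulAut.conj e) x := fun e x => rfl
  have hc1 : ∀ (e : G) (k : ↥K), (↑(Finset.univ : Finset ↥T) : Set ↥T).Pairwise
      (Function.onFun Commute (fun c : ↥T => (MulAut.conj e) (φ c k))) :=
    fun e k i _ j _ hij => (hcomm hij k k).map (MulAut.conj e)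
  have hmap : ∀ (e : G) (k : ↥K), (MulAut.conj e) (Δ k)
      = Finset.univ.noncommProd (fun c : ↥T => (MulAut.conj e) (φ c k)) (hc1 e k) := by
    intro e k
    rw [hΔ]
    exact Finset.map_noncommProd Finset.univ (fun c : ↥T => φ c k) (hc0 k) (MulAut.conj e)
  refine ⟨Δ, ?_, ?_, ?_, ?_⟩
  · intro k c hc
    have h1 : c * Δ k * c⁻¹ = Δ k := by
      rw [hconj, hmap]
      have h2 : ∀ c' : ↥T, (MulAut.conj c) (φ c' k) = φ ((⟨c, hc⟩ : ↥T) * c') k := by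
        intro c'
        rw [hφ, hφ, ← hconj]
        simp only [Subgroup.coe_mul]
        group
      refine (Finset.noncommProd_congr rfl (fun c' _ => h2 c') (hc1 c k)).trans ?_
      rw [hΔ]
      exact sforb_reindex (Equiv.mulLeft (⟨c, hc⟩ : ↥T)) (fun c' => φ c' k) _ _
    calc c * Δ k = (c * Δ k * c⁻¹) * c := by group
      _ = Δ k * c := by rw [h1]
  · intro e he k k' hkk'
    rw [hconj, hmap, hΔ]
    apply Finset.noncommProd_congr rfl
    intro c _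
    rw [hφ, hφ, ← hconj, ← hkk']
    have hec : e * (c : G) = (c : G) * e := hAc e he c (hT c.2)
    calc e * ((c : G) * (k : G) * (c : G)⁻¹) * e⁻¹
        = (e * (c : G)) * (k : G) * (e * (c : G))⁻¹ := by group
      _ = ((c : G) * e) * (k : G) * ((c : G) * e)⁻¹ := by rw [hec]
      _ = (c : G) * (e * (k : G) * e⁻¹) * (c : G)⁻¹ := by group
  · intro k k' hk'
    have h3 := Finset.noncommProd_erase_mul Finset.univ (Finset.mem_univ (1 : ↥T))
      (fun c => φ c k) (hc0 k)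
    have h4 : φ 1 k = (k : G) := by
      rw [hφ]
      simp
    rw [hΔ, ← h3, h4, mul_inv_cancel_right]
    refine (Finset.noncommProd_commute _ _ _ k' (fun c hc => ?_)).symm.eq
    have hc1 : (c : G) ≠ 1 := by
      intro h
      exact (Finset.mem_erase.1 hc).1 (Subtype.ext h)
    rw [hφ]
    exact (hkey c (hT c.2) (hT1 c c.2 hc1) k k.2 k' hk').symm
  · intro e he hn k
    have hfac : ∀ c : ↥T, (MulAut.conj e) (φ c k) = (e * (c : G)) * (k : G) * (e * (c : G))⁻¹ := by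
      intro c
      rw [hφ, ← hconj]
      group
    refine ⟨fun k' hk' => ?_, fun k'' => ?_⟩
    · rw [hconj, hmap]
      refine (Finset.noncommProd_commute _ _ _ k' (fun c _ => ?_)).symm.eq
      rw [hfac]
      exact (hkey (e * c) (A.mul_mem he (hT c.2)) (hn c c.2) k k.2 k' hk').symm
    · rw [hconj, hmap, hΔ k'']
      refine (Finset.noncommProd_commute _ _ _ _ (fun c' _ => ?_)).eq
      refine (Finset.noncommProd_commute _ _ _ _ (fun c _ => ?_)).symm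
      rw [hfac, hφ]
      have hm : (c' : G)⁻¹ * (c : G) ∈ T := T.mul_mem (T.inv_mem c'.2) c.2
      have hsw : (c' : G)⁻¹ * (e * (c : G)) = e * ((c' : G)⁻¹ * (c : G)) := by
        have h3 : (c' : G)⁻¹ * e = e * (c' : G)⁻¹ :=
          hAc _ (A.inv_mem (hT c'.2)) e he
        rw [← mul_assoc, h3, mul_assoc]
      have hd : (c' : G)⁻¹ * (e * (c : G)) ∈ A := by
        rw [hsw]
        exact A.mul_mem he (hT hm)
      have hnn : ¬ ∀ k ∈ K, ((c' : G)⁻¹ * (e * (c : G))) * k * ((c' : G)⁻¹ * (e * (c : G)))⁻¹ ∈ K := by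
        rw [hsw]
        exact hn _ hm
      exact (hcomm2 (c' : G) (e * (c : G)) hd hnn k k.2 k'' k''.2).symm

end Cfsg.Agent.Helper29
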