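import Mathlib
import Cfsg.Agent.Helper87.SFDefs
import Cfsg.Agent.Helper29.SFORB
import Cfsg.Agent.Helper3.SFGINV
import Cfsg.Agent.Helper51.SFHYPER
import Cfsg.Agent.Helper51.SFCOMPL

/-!
# S2752 piece ALPHA (CALL by helper87): if every element of `A` normalizing the simple nonabelian
`K` centralizes it (and `A` does not centralize `K`), then `A` is `Good`.
-/

set_option autoImplicit false

namespace Cfsg.Agent.Helper29

open Cfsg.Agent.Helper87 Cfsg.Agent.Helper87.SF

/-- ALPHA -/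
theorem sf_alpha {G : Type*} [Group G] [Finite G] (A K : Subgroup G) (hA : EA2 A)
    (hKs : IsSimpleGroup ↥K) (hKn : NC K) (hcc : CC K A)
    (hnc : ¬ ∀ a ∈ A, ∀ x ∈ K, a * x = x * a)
    (hα : ∀ a ∈ A, (∀ k ∈ K, a * k * a⁻¹ ∈ K) → ∀ k ∈ K, a * k = k * a) : Good A := by
  classical
  have hAc := hA.1
  have hA2 := hA.2
  obtain ⟨As, hAs⟩ : ∃ As : Subgroup G, ∀ c, c ∈ As ↔ c ∈ A ∧ ∀ k ∈ K, c * k = k * c :=
    ⟨A ⊓ Subgroup.centralizer (K : Set G), fun c => by
      rw [Subgroup.mem_inf, Subgroup.mem_centralizer_iff]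
      constructor
      · rintro ⟨h1, h2⟩
        exact ⟨h1, fun k hk => (h2 k hk).symm⟩
      · rintro ⟨h1, h2⟩
        exact ⟨h1, fun k hk => (h2 k hk).symm⟩⟩
  have hnorm : ∀ c ∈ A, (∀ k ∈ K, c * k * c⁻¹ ∈ K) ↔ c ∈ As := by
    intro c hc
    rw [hAs]
    constructor
    · intro h
      exact ⟨hc, hα c hc h⟩
    · rintro ⟨-, h⟩ k hk
      rw [h k hk, mul_inv_cancel_right]
      exact hk
  have hAsA : As ≤ A := fun c hc => ((hAs c).1 hc).1
  have hlt : As < A := by
    refine lt_of_le_of_ne hAsA ?_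
    intro heq
    apply hnc
    intro a ha x hx
    have h1 : a ∈ As := by
      rw [heq]
      exact ha
    exact ((hAs a).1 h1).2 x hx
  obtain ⟨B, hAsB, hBA, hcard⟩ := Cfsg.Agent.Helper51.sf_hyper A As hA hlt
  have hBne : B ≠ A := by
    intro h
    rw [h] at hcard
    have h1 := Nat.card_pos (α := ↥A)
    omega
  obtain ⟨a, ha, haB⟩ : ∃ a ∈ A, a ∉ B := by
    by_contra hcon
    push Not at hcon
    exact hBne (le_antisymm hBA hcon)
  have hBea : EA2 B := ⟨fun x hx y hy => hAc x (hBA hx) y (hBA hy), fun x hx => hA2 x (hBA hx)⟩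
  obtain ⟨T, hTB, hdisj, hsup, -⟩ := Cfsg.Agent.Helper51.sf_compl B As hBea hAsB
  have hTA : T ≤ A := hTB.trans hBA
  have hTK : ∀ c ∈ T, (∀ k ∈ K, c * k * c⁻¹ ∈ K) → c = 1 := by
    intro c hc h
    have h1 : c ∈ As := (hnorm c (hTA hc)).1 h
    have h2 : c ∈ As ⊓ T := ⟨h1, hc⟩
    rw [hdisj] at h2
    exact Subgroup.mem_bot.1 h2
  obtain ⟨Δ, hΔ1, hΔ2, hΔ3, hΔ4⟩ := sf_orb A K T hA hTA hcc hTK
  -- the centre of `K` is trivial
  have hcen : Subgroup.center ↥K = ⊥ := by
    rcases (inferInstance : (Subgroup.center ↥K).Normal).eq_bot_or_eq_top with h | h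
    · exact h
    · exfalso
      apply hKn
      intro x hx y hy
      have h1 : (⟨y, hy⟩ : ↥K) ∈ Subgroup.center ↥K := by
        rw [h]
        trivial
      have h2 := Subgroup.mem_center_iff.1 h1 ⟨x, hx⟩
      exact congrArg Subtype.val h2
  have hZ : ∀ y : ↥K, (∀ k' ∈ K, (y : G) * k' = k' * (y : G)) → y = 1 := by
    intro y hy
    have h1 : y ∈ Subgroup.center ↥K := by
      rw [Subgroup.mem_center_iff]
      intro g
      apply Subtype.ext
      exact (hy g g.2).symm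
    rw [hcen] at h1
    exact Subgroup.mem_bot.1 h1
  -- an element of odd prime order
  obtain ⟨r, hr, hr2, y0, hy0⟩ : ∃ r : ℕ, r.Prime ∧ r ≠ 2 ∧ ∃ y0 : ↥K, orderOf y0 = r := by
    by_cases hex : ∃ r : ℕ, r.Prime ∧ r ≠ 2 ∧ r ∣ Nat.card ↥K
    · obtain ⟨r, hr, hr2, hdvd⟩ := hex
      haveI : Fact r.Prime := ⟨hr⟩
      obtain ⟨y0, hy0⟩ := exists_prime_orderOf_dvd_card' r hdvd
      exact ⟨r, hr, hr2, y0, hy0⟩
    · exfalso
      push Not at hex
      have hpow : Nat.card ↥K = 2 ^ (Nat.card ↥K).primeFactorsList.length :=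
        Nat.eq_prime_pow_of_unique_prime_dvd Nat.card_pos.ne' (fun {d} hd hdvd => by
          by_contra hne
          exact hex d hd hne hdvd)
      have hp : IsPGroup 2 ↥K := IsPGroup.of_card hpow
      haveI : Fact (Nat.Prime 2) := ⟨Nat.prime_two⟩
      haveI : Nontrivial ↥K := IsSimpleGroup.toNontrivial
      have hnt : Nontrivial ↥(Subgroup.center ↥K) := hp.center_nontrivial
      rw [Subgroup.nontrivial_iff_ne_bot] at hnt
      exact hnt hcen
  obtain ⟨z, hz⟩ : ∃ z, z = Δ y0 := ⟨_, rfl⟩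
  have hzr : z ^ r = 1 := by
    rw [hz, ← map_pow, ← hy0, pow_orderOf_eq_one, map_one]
  -- `B` centralizes `z`
  have hBz : ∀ b ∈ B, b * z = z * b := by
    have hle : As ⊔ T ≤ Subgroup.centralizer {z} := by
      rw [sup_le_iff]
      constructor
      · intro c hc
        rw [Subgroup.mem_centralizer_iff]
        intro h hh
        rw [Set.mem_singleton_iff] at hh
        subst hh
        have h1 : c * (y0 : G) * c⁻¹ = (y0 : G) := by
          rw [((hAs c).1 hc).2 y0 y0.2, mul_inv_cancel_right]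
        have h2 := hΔ2 c (hAsA hc) y0 y0 h1
        rw [← hz] at h2
        rw [mul_inv_eq_iff_eq_mul] at h2
        exact h2.symm
      · intro c hc
        rw [Subgroup.mem_centralizer_iff]
        intro h hh
        rw [Set.mem_singleton_iff] at hh
        subst hh
        have h2 := hΔ1 y0 c hc
        rw [← hz] at h2
        exact h2.symm
    intro b hb
    rw [← hsup] at hb
    have h1 := hle hb
    rw [Subgroup.mem_centralizer_iff] at h1
    exact (h1 z rfl).symm
  have hat : ∀ t ∈ T, ¬ ∀ k ∈ K, (a * t) * k * (a * t)⁻¹ ∈ K := by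
    intro t ht h
    have h1 : a * t ∈ As := (hnorm _ (A.mul_mem ha (hTA ht))).1 h
    apply haB
    have h2 : a = (a * t) * t⁻¹ := by group
    rw [h2]
    exact B.mul_mem (hAsB h1) (B.inv_mem (hTB ht))
  obtain ⟨h4a, h4b⟩ := hΔ4 a ha hat y0
  rw [← hz] at h4a h4b
  have hzc : Commute (a * z * a⁻¹) z := by
    have h1 := h4b y0
    rw [← hz] at h1
    exact h1
  obtain ⟨x, hx⟩ : ∃ x, x = z⁻¹ * (a * z * a⁻¹) := ⟨_, rfl⟩
  have haa : a * a = 1 := hA2 a ha
  have hax : a * x * a⁻¹ = x⁻¹ := by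
    rw [hx]
    have e1 : a * (z⁻¹ * (a * z * a⁻¹)) * a⁻¹
        = (a * z * a⁻¹)⁻¹ * ((a * a) * z * (a * a)⁻¹) := by group
    rw [e1, haa]
    group
  have hBx : ∀ b ∈ B, b * x = x * b := by
    intro b hb
    have c1 : Commute b z := hBz b hb
    have c2 : Commute b a := hAc b (hBA hb) a ha
    rw [hx]
    exact (c1.inv_right.mul_right ((c2.mul_right c1).mul_right c2.inv_right)).eq
  have hxr : x ^ r = 1 := by
    rw [hx]
    have c3 : Commute z⁻¹ (a * z * a⁻¹) := hzc.symm.inv_left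
    rw [c3.mul_pow, inv_pow, hzr, inv_one, one_mul, conj_pow, hzr]
    group
  have hxo : Odd (orderOf x) :=
    Odd.of_dvd_nat (hr.odd_of_ne_two hr2) (orderOf_dvd_of_pow_eq_one hxr)
  have hx1 : x ≠ 1 := by
    intro h1
    have hzz : a * z * a⁻¹ = z := by
      rw [hx] at h1
      exact (inv_mul_eq_one.1 h1).symm
    have hy : ∀ k' ∈ K, (y0 : G) * k' = k' * (y0 : G) := by
      intro k' hk'
      have c1 : Commute z k' := by
        have h2 := h4a k' hk'
        rw [hzz] at h2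
        exact h2
      have c2 : Commute (z * (y0 : G)⁻¹) k' := by
        have h3 := hΔ3 y0 k' hk'
        rw [← hz] at h3
        exact h3
      have e : (y0 : G) = (z * (y0 : G)⁻¹)⁻¹ * z := by group
      rw [e]
      exact (c2.inv_left.mul_left c1).eq
    have h2 : y0 = 1 := hZ y0 hy
    rw [h2, orderOf_one] at hy0
    exact hr.one_lt.ne' hy0.symm
  exact Cfsg.Agent.Helper3.sf_good_inv A B hBA hcard a x ha haa hx1 hxo hBx hax

end Cfsg.Agent.Helper29
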