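import Mathlib
import Cfsg.Prelude.Def_GeometricClasses
import Cfsg.Agent.Helper90.SFRDefs
import Cfsg.Agent.Helper37.Sf3
import Cfsg.Agent.Helper5.SLCard

/-!
# S5965 piece IDX2 (CALL by helper90): `n = 2`, `q = q₀²`, `r ∣ q₀ + 1` odd, `r ≠ p`:
the index of the subfield subgroup of `SL_2(q)` is prime to `r`.
-/

set_option autoImplicit false

namespace Cfsg.Agent.Helper29

open Module Polynomial Cfsg.Agent.Helper90.SFR

section top
variable {F : Type*} [Field F] [Fintype F]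

/-! ## PIECE IDX2 -/
theorem index_case_two (p : ℕ) [Fact p.Prime] [CharP F p] (F₀ : Subfield F) (q₀ : ℕ)
    (hF₀ : Nat.card ↥F₀ = q₀) (hqk : Fintype.card F = q₀ ^ 2) (r : ℕ) [Fact r.Prime]
    (hr2 : r ≠ 2) (hrp : r ≠ p) (hr1 : r ∣ q₀ + 1) : ¬ r ∣ (subH F₀ 2).index := by
  classical
  letI : Fintype ↥F₀ := Fintype.ofFinite _
  have hc0 : Fintype.card ↥F₀ = q₀ := by rw [← Nat.card_eq_fintype_card, hF₀]
  have hrpr : r.Prime := Fact.out
  have hppr : p.Prime := Fact.out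
  obtain ⟨H, hH⟩ : ∃ H, H = subH F₀ 2 := ⟨_, rfl⟩
  rw [← hH]
  obtain ⟨φ, hφ⟩ : ∃ φ : Matrix.SpecialLinearGroup (Fin 2) ↥F₀ →*
      Matrix.SpecialLinearGroup (Fin 2) F, φ = Matrix.SpecialLinearGroup.map F₀.subtype :=
    ⟨_, rfl⟩
  have hφv : ∀ (g : Matrix.SpecialLinearGroup (Fin 2) ↥F₀) (i j : Fin 2),
      (φ g).val i j = ((g.val i j : ↥F₀) : F) := by
    intro g i j
    rw [hφ]
    rfl
  have hinj : Function.Injective φ := by
    intro g h hgh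
    apply Subtype.ext
    ext i j
    have h1 := congrArg (fun y : Matrix.SpecialLinearGroup (Fin 2) F => y.val i j) hgh
    simp only [hφv] at h1
    exact h1
  have hrange : φ.range ≤ H := by
    rintro _ ⟨g, rfl⟩
    rw [hH, subH, Subgroup.mem_comap, Cfsg.Agent.Helper97.SF.mem_subfieldSubgroup_one]
    refine ⟨1, one_ne_zero, ?_⟩
    rw [one_smul]
    intro i j
    simp only [Matrix.SpecialLinearGroup.coe_GL_coe_matrix]
    rw [hφv]
    exact SetLike.coe_mem _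
  have hdvd : Nat.card (Matrix.SpecialLinearGroup (Fin 2) ↥F₀) ∣ Nat.card H := by
    have h1 := Subgroup.card_dvd_of_le hrange
    rwa [← Nat.card_congr (MonoidHom.ofInjective hinj).toEquiv] at h1
  obtain ⟨c', hc'⟩ := hdvd
  have hidx := Subgroup.card_mul_index H
  have hA := Cfsg.Agent.Helper5.card_SL2 (F := F)
  have hA₀ := Cfsg.Agent.Helper5.card_SL2 (F := ↥F₀)
  rw [hqk] at hA
  rw [hc0] at hA₀
  have hq₀1 : 1 < q₀ := by
    have h1 : 1 < Fintype.card ↥F₀ := Fintype.one_lt_card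
    omega
  rintro ⟨d, hd⟩
  -- `q₀ (q₀² - 1) c' r d = q₀² (q₀⁴ - 1)`
  rw [hA, hc', hA₀, hd] at hidx
  obtain ⟨a, ha⟩ : ∃ a, q₀ ^ 2 = a + 1 := ⟨q₀ ^ 2 - 1, by
    have : 1 ≤ q₀ ^ 2 := Nat.one_le_pow _ _ (by omega)
    omega⟩
  have ha0 : 0 < a := by
    have : 1 < q₀ ^ 2 := Nat.one_lt_pow (by norm_num) hq₀1
    omega
  have h1 : (q₀ ^ 2) ^ 2 - 1 = a * (a + 2) := by
    rw [ha]
    have : (a + 1) ^ 2 = a * (a + 2) + 1 := by ring
    omega
  have h2 : q₀ ^ 2 - 1 = a := by omega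
  rw [h1, h2] at hidx
  have h3 : q₀ * a * (r * (c' * d)) = q₀ * a * (q₀ * (a + 2)) := by
    have h4 : q₀ ^ 2 * (a * (a + 2)) = q₀ * a * (q₀ * (a + 2)) := by ring
    rw [← h4, ← hidx]
    ring
  have h5 := Nat.eq_of_mul_eq_mul_left (Nat.mul_pos (by omega) ha0) h3
  have h6 : r ∣ q₀ * (a + 2) := ⟨_, h5.symm⟩
  rcases (Nat.Prime.dvd_mul hrpr).1 h6 with h7 | h7
  · -- `r ∣ q₀`, so `r ∣ |F| = p ^ m`
    obtain ⟨m, -, hm⟩ := FiniteField.card F p
    have h8 : r ∣ p ^ (m : ℕ) := by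
      rw [← hm, hqk]
      exact dvd_pow h7 (by norm_num)
    have h9 := hrpr.dvd_of_dvd_pow h8
    exact hrp ((Nat.prime_dvd_prime_iff_eq hrpr hppr).1 h9)
  · -- `r ∣ q₀² + 1` and `r ∣ q₀ + 1`, so `r ∣ 2`
    have h8 : a + 2 + (q₀ + 1) * 1 = (q₀ + 1) * q₀ + 2 := by
      have : a + 1 = q₀ * q₀ := by rw [← ha]; ring
      nlinarith
    have h9 : r ∣ (q₀ + 1) * q₀ + 2 := by
      rw [← h8]
      exact dvd_add h7 (Dvd.dvd.mul_right hr1 _)
    have h10 : r ∣ 2 := (Nat.dvd_add_right (Dvd.dvd.mul_right hr1 _)).1 h9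
    exact hr2 ((Nat.prime_dvd_prime_iff_eq hrpr Nat.prime_two).1 h10)

end top

end Cfsg.Agent.Helper29
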