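import Mathlib
import Cfsg.Agent.Helper29.Quat

set_option autoImplicit false

namespace Cfsg.Agent.Helper29

/-- A section isomorphic to `SL(2,3)` from an element `a'` of order four and an element `g` of odd
order satisfying the `SL(2,3)` relations, where `g ^ 3` centralizes `a'`. -/
theorem exists_section_sl23 {G : Type*} [Group G] [Finite G] (a' g : G) (d : ℕ) (hd : Odd d)
    (hg : g ^ d = 1) (h4 : a' ^ 4 = 1) (h2 : a' ^ 2 ≠ 1) (h3 : g ^ 3 * a' = a' * g ^ 3)
    (hinv : (g * a' * g⁻¹) * a' * (g * a' * g⁻¹)⁻¹ = a'⁻¹)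
    (hsq : (g * a' * g⁻¹) ^ 2 = a' ^ 2)
    (hconj : g * (g * a' * g⁻¹) * g⁻¹ = a' * (g * a' * g⁻¹)) :
    ∃ (H K : Subgroup G) (_ : (K.subgroupOf H).Normal),
      Nonempty ((H ⧸ K.subgroupOf H) ≃* Matrix.SpecialLinearGroup (Fin 2) (ZMod 3)) := by
  have haH : a' ∈ Subgroup.closure ({a', g} : Set G) := Subgroup.subset_closure (by simp)
  have hgH : g ∈ Subgroup.closure ({a', g} : Set G) := Subgroup.subset_closure (by simp)
  have hcent : ∀ h ∈ Subgroup.closure ({a', g} : Set G), ∀ k ∈ Subgroup.zpowers (g ^ 3),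
      h * k = k * h := by
    intro h hh k hk
    obtain ⟨m, rfl⟩ := Subgroup.mem_zpowers_iff.mp hk
    have hle : Subgroup.closure ({a', g} : Set G) ≤ Subgroup.centralizer ({g ^ 3} : Set G) := by
      rw [Subgroup.closure_le]
      rintro x (rfl | rfl)
      · exact Subgroup.mem_centralizer_singleton_iff.mpr h3.symm
      · exact Subgroup.mem_centralizer_singleton_iff.mpr ((Commute.refl x).pow_right 3).eq
    have h1 : h * g ^ 3 = g ^ 3 * h := Subgroup.mem_centralizer_singleton_iff.mp (hle hh)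
    exact ((show Commute h (g ^ 3) from h1).zpow_right m)
  haveI hKn : ((Subgroup.zpowers (g ^ 3)).subgroupOf (Subgroup.closure ({a', g} : Set G))).Normal := by
    refine ⟨fun n hn x => ?_⟩
    rw [Subgroup.mem_subgroupOf] at hn ⊢
    have h1 := hcent x x.2 n hn
    have h2 : ((x * n * x⁻¹ : Subgroup.closure ({a', g} : Set G)) : G) = (n : G) := by
      simp only [Subgroup.coe_mul, Subgroup.coe_inv]
      rw [h1]; group
    rw [h2]; exact hn
  refine ⟨Subgroup.closure ({a', g} : Set G), Subgroup.zpowers (g ^ 3), hKn, ?_⟩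
  have hrel : SL23Rel
      (QuotientGroup.mk' ((Subgroup.zpowers (g ^ 3)).subgroupOf (Subgroup.closure ({a', g} : Set G)))
        ⟨a', haH⟩)
      (QuotientGroup.mk' ((Subgroup.zpowers (g ^ 3)).subgroupOf (Subgroup.closure ({a', g} : Set G)))
        ⟨g, hgH⟩) := by
    refine ⟨?_, ?_, ?_, ?_, ?_, ?_⟩
    · rw [← map_pow]
      have : (⟨a', haH⟩ : Subgroup.closure ({a', g} : Set G)) ^ 4 = 1 :=
        Subtype.ext (by simpa using h4)
      rw [this, map_one]
    · rw [← map_pow]
      intro hc
      rw [QuotientGroup.mk'_apply, QuotientGroup.eq_one_iff, Subgroup.mem_subgroupOf] at hc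
      have hc' : a' ^ 2 ∈ Subgroup.zpowers (g ^ 3) := by simpa using hc
      obtain ⟨m, hm⟩ := Subgroup.mem_zpowers_iff.mp hc'
      have h5 : (a' ^ 2) ^ d = 1 := by
        have h6 : (g ^ 3) ^ d = 1 := by rw [← pow_mul, mul_comm, pow_mul, hg, one_pow]
        rw [← hm, ← zpow_natCast, ← zpow_mul, mul_comm, zpow_mul, zpow_natCast, h6, one_zpow]
      exact h2 (eq_one_of_odd_two_pow (a' ^ 2) d 1 hd h5 (by rw [← pow_mul]; exact h4))
    · rw [← map_pow, QuotientGroup.mk'_apply, QuotientGroup.eq_one_iff, Subgroup.mem_subgroupOf]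
      simp
    · simp only [← map_mul, ← map_inv]
      congr 1
      exact Subtype.ext (by simpa using hinv)
    · simp only [← map_mul, ← map_inv, ← map_pow]
      congr 1
      exact Subtype.ext (by simpa using hsq)
    · simp only [← map_mul, ← map_inv]
      congr 1
      exact Subtype.ext (by simpa using hconj)
  have hgen : Subgroup.closure
      ({QuotientGroup.mk' ((Subgroup.zpowers (g ^ 3)).subgroupOf (Subgroup.closure ({a', g} : Set G)))
          ⟨a', haH⟩,
        QuotientGroup.mk' ((Subgroup.zpowers (g ^ 3)).subgroupOf (Subgroup.closure ({a', g} : Set G)))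
          ⟨g, hgH⟩} : Set (Subgroup.closure ({a', g} : Set G) ⧸
            (Subgroup.zpowers (g ^ 3)).subgroupOf (Subgroup.closure ({a', g} : Set G)))) = ⊤ := by
    have h1 : Subgroup.closure ({⟨a', haH⟩, ⟨g, hgH⟩} : Set (Subgroup.closure ({a', g} : Set G))) =
        ⊤ := by
      have h2 := Subgroup.closure_closure_coe_preimage (k := ({a', g} : Set G))
      convert h2 using 2
      ext x
      simp [Subtype.ext_iff]
    have h3 : Subgroup.map
        (QuotientGroup.mk' ((Subgroup.zpowers (g ^ 3)).subgroupOf (Subgroup.closure ({a', g} : Set G))))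
        (Subgroup.closure ({⟨a', haH⟩, ⟨g, hgH⟩} : Set (Subgroup.closure ({a', g} : Set G)))) =
          ⊤ := by
      rw [h1, ← MonoidHom.range_eq_map, MonoidHom.range_eq_top]
      exact QuotientGroup.mk'_surjective _
    rw [MonoidHom.map_closure] at h3
    rw [← h3]
    congr 1
    simp [Set.image_insert_eq]
  have hcard : Nat.card (Subgroup.closure ({a', g} : Set G) ⧸
      (Subgroup.zpowers (g ^ 3)).subgroupOf (Subgroup.closure ({a', g} : Set G))) = 24 := by
    rw [← Subgroup.card_top (G := Subgroup.closure ({a', g} : Set G) ⧸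
      (Subgroup.zpowers (g ^ 3)).subgroupOf (Subgroup.closure ({a', g} : Set G))), ← hgen]
    exact hrel.card_eq
  exact nonempty_mulEquiv_sl23 hcard _ _ hrel

/-- Frobenius + quaternion analysis: if some odd-order element normalizes but does not centralize
a subgroup of a quaternion-like Sylow 2-subgroup, `SL(2,3)` is a section. -/
theorem section_sl23_of_quatLike {G : Type*} [Group G] [Finite G] {T : Subgroup G} {a z : G}
    (h : QuatLike T a z) (hT2 : ∀ t ∈ T, ∃ k : ℕ, t ^ (2 ^ k) = 1) (Q : Subgroup G) (hQ : Q ≤ T)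
    (g : G) (hgN : g ∈ Subgroup.normalizer (Q : Set G)) (hcop : Nat.Coprime (orderOf g) 2)
    (hgC : g ∉ Subgroup.centralizer (Q : Set G)) :
    ∃ (H K : Subgroup G) (_ : (K.subgroupOf H).Normal),
      Nonempty ((H ⧸ K.subgroupOf H) ≃* Matrix.SpecialLinearGroup (Fin 2) (ZMod 3)) := by
  have hd : Odd (orderOf g) := Nat.Coprime.odd_of_right hcop
  have hn' : ∀ q ∈ Q, g * q * g⁻¹ ∈ Q := fun q hq => (Subgroup.mem_normalizer_iff.mp hgN q).mp hq
  have hnc : ¬ ∀ q ∈ Q, g * q = q * g := by
    intro hc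
    apply hgC
    rw [Subgroup.mem_centralizer_iff]
    intro q hq
    exact (hc q hq).symm
  obtain ⟨a', h4, h2, h3, hinv, hsq, hconj⟩ :=
    h.exists_sl23Rel hT2 Q hQ g (orderOf g) hd (pow_orderOf_eq_one g) hn' hnc
  exact exists_section_sl23 a' g (orderOf g) hd (pow_orderOf_eq_one g) h4 h2 h3 hinv hsq hconj

/-- A subgroup isomorphic to a generalized quaternion group is quaternion-like. -/
theorem exists_quatLike_of_mulEquiv {G : Type*} [Group G] (T : Subgroup G) (n : ℕ) [NeZero n]
    (e : T ≃* QuaternionGroup n) : ∃ a z, QuatLike T a z := by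
  have h1 := (quatLike_quaternion n).map (T.subtype.comp e.symm.toMonoidHom)
    ((Subgroup.subtype_injective _).comp e.symm.injective)
  have h2 : (⊤ : Subgroup (QuaternionGroup n)).map (T.subtype.comp e.symm.toMonoidHom) = T := by
    ext x
    constructor
    · rintro ⟨y, -, rfl⟩
      exact (e.symm y).2
    · intro hx
      exact ⟨e ⟨x, hx⟩, Subgroup.mem_top _, by simp⟩
  rw [h2] at h1
  exact ⟨_, _, h1⟩

end Cfsg.Agent.Helper29
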