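import Mathlib
import Cfsg.Agent.Helper71.SQDefs
import Cfsg.Agent.Helper4.T4CRCore

/-!
# Helper29: piece CL (`quad_image`) of CALL S5867
-/

set_option autoImplicit false

namespace Cfsg.Agent.Helper29.SQCL

open Matrix Cfsg.Agent.Helper71.T4 Cfsg.Agent.Helper71.SO Cfsg.Agent.Helper71.SQ
open scoped Kronecker

variable {F : Type*} [Field F] {m n : ℕ}

/-- The contraction `w ↦ c • (k ↦ ∑ j, (J a) j * w (j, k))`. -/
def Lc (J : Matrix (Fin m) (Fin m) F) (a : Fin m → F) (c : F) :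
    (Fin m × Fin n → F) →ₗ[F] (Fin n → F) where
  toFun w := fun k => c * ∑ j, (J *ᵥ a) j * w (j, k)
  map_add' x y := by
    ext k
    simp only [Pi.add_apply, mul_add, Finset.sum_add_distrib]
  map_smul' r x := by
    ext k
    simp only [Pi.smul_apply, smul_eq_mul, RingHom.id_apply, Finset.mul_sum]
    refine Finset.sum_congr rfl fun j _ => ?_
    ring

theorem Lc_apply (J : Matrix (Fin m) (Fin m) F) (a : Fin m → F) (c : F)
    (w : Fin m × Fin n → F) (k : Fin n) :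
    Lc J a c w k = c * ∑ j, (J *ᵥ a) j * w (j, k) := rfl

/-- `x ↦ x ⊗ b`. -/
def ptL1 (b : Fin n → F) : (Fin m → F) →ₗ[F] (Fin m × Fin n → F) where
  toFun x := pt x b
  map_add' x y := by
    ext ⟨i, k⟩
    simp [pt, add_mul]
  map_smul' r x := by
    ext ⟨i, k⟩
    simp [pt, mul_assoc]

/-- `b ↦ x ⊗ b`. -/
def ptL2 (x : Fin m → F) : (Fin n → F) →ₗ[F] (Fin m × Fin n → F) where
  toFun b := pt x b
  map_add' b b' := by
    ext ⟨i, k⟩
    simp [pt, mul_add]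
  map_smul' r b := by
    ext ⟨i, k⟩
    simp [pt, mul_left_comm]

theorem ckron_mulVec (J : Matrix (Fin m) (Fin m) F) (a : Fin m → F) (c : F)
    (w : Fin m × Fin n → F) :
    ((c • vecMulVec a (J *ᵥ a)) ⊗ₖ (1 : Matrix (Fin n) (Fin n) F)) *ᵥ w = pt a (Lc J a c w) := by
  obtain ⟨v, hv⟩ : ∃ v : Fin m → F, v = J *ᵥ a := ⟨_, rfl⟩
  have hL : ∀ k, Lc J a c w k = c * ∑ j, v j * w (j, k) := fun k => by rw [hv]; rfl
  ext ⟨i, k⟩
  show (((c • vecMulVec a (J *ᵥ a)) ⊗ₖ (1 : Matrix (Fin n) (Fin n) F)) *ᵥ w) (i, k)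
    = a i * Lc J a c w k
  rw [hL, ← hv]
  simp only [Matrix.mulVec, dotProduct, Matrix.kronecker_apply, Matrix.smul_apply,
    Matrix.vecMulVec_apply, smul_eq_mul, Fintype.sum_prod_type]
  rw [Finset.mul_sum, Finset.mul_sum]
  refine Finset.sum_congr rfl fun j _ => ?_
  rw [Finset.sum_eq_single k]
  · rw [Matrix.one_apply_eq]
    ring
  · intro l _ hl
    rw [Matrix.one_apply_ne (Ne.symm hl)]
    ring
  · intro h
    exact absurd (Finset.mem_univ _) h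

theorem pt_zero_right (x : Fin m → F) : pt x (0 : Fin n → F) = 0 := by
  ext ⟨i, k⟩
  simp [pt]

theorem pt_eq_zero {x : Fin m → F} {b : Fin n → F} (hx : x ≠ 0) (h : pt x b = 0) : b = 0 := by
  obtain ⟨i, hi⟩ : ∃ i, x i ≠ 0 := by
    by_contra hh
    push Not at hh
    exact hx (funext hh)
  ext k
  have h1 := congrFun h (i, k)
  simp only [pt, Pi.zero_apply] at h1
  exact (mul_eq_zero.mp h1).resolve_left hi

theorem pt_eq_zero' {x : Fin m → F} {b : Fin n → F} (hb : b ≠ 0) (h : pt x b = 0) : x = 0 := by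
  obtain ⟨k, hk⟩ : ∃ k, b k ≠ 0 := by
    by_contra hh
    push Not at hh
    exact hb (funext hh)
  ext i
  have h1 := congrFun h (i, k)
  simp only [pt, Pi.zero_apply] at h1
  exact (mul_eq_zero.mp h1).resolve_right hk

theorem mat_ext_mulVec {P Q : Matrix (Fin n) (Fin n) F} (h : ∀ w, P *ᵥ w = Q *ᵥ w) : P = Q := by
  classical
  ext k l
  have h1 := congrFun (h (Pi.single l 1)) k
  simpa [Matrix.mulVec_single_one] using h1

theorem exists_mulVec_ne {P : Matrix (Fin n) (Fin n) F} (h : P ≠ 0) : ∃ w, P *ᵥ w ≠ 0 := by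
  by_contra hh
  push Not at hh
  exact h (mat_ext_mulVec fun w => by rw [hh w, Matrix.zero_mulVec])

theorem alt_self (h2 : (2 : F) ≠ 0) (J : Matrix (Fin m) (Fin m) F) (hJ : Jᵀ = -J)
    (a : Fin m → F) : (J *ᵥ a) ⬝ᵥ a = 0 := by
  have h1 : (J *ᵥ a) ⬝ᵥ a = -((J *ᵥ a) ⬝ᵥ a) := by
    conv_lhs => rw [dotProduct_comm, Matrix.dotProduct_mulVec, ← Matrix.mulVec_transpose, hJ,
      Matrix.neg_mulVec, neg_dotProduct]
  have h3 : (2 : F) * ((J *ᵥ a) ⬝ᵥ a) = 0 := by linear_combination h1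
  exact (mul_eq_zero.mp h3).resolve_left h2

theorem quad_image (hnm : n < m) (h2 : (2 : F) ≠ 0) (J : Matrix (Fin m) (Fin m) F)
    (hJ : Jᵀ = -J) (hdet : J.det ≠ 0) (a : Fin m → F) (ha : a ≠ 0) (c : F) (hc : c ≠ 0)
    (γ γ' : Matrix (Fin m × Fin n) (Fin m × Fin n) F) (hγ : γ * γ' = 1) (hγ' : γ' * γ = 1)
    (hK : IsKron (γ * (Tac J a c ⊗ₖ (1 : Matrix (Fin n) (Fin n) F)) * γ')) :
    ∃ a' : Fin m → F, a' ≠ 0 ∧ ∀ b : Fin n → F, ∃ b' : Fin n → F, γ *ᵥ pt a b = pt a' b' := by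
  classical
  rcases Nat.eq_zero_or_pos n with hn | hn
  · subst hn
    refine ⟨a, ha, fun b => ⟨b, ?_⟩⟩
    ext ⟨i, k⟩
    exact k.elim0
  obtain ⟨A, B, hAB⟩ := hK
  have hm : 1 ≤ m := by omega
  have h11 : (1 : Matrix (Fin m × Fin n) (Fin m × Fin n) F)
      = (1 : Matrix (Fin m) (Fin m) F) ⊗ₖ (1 : Matrix (Fin n) (Fin n) F) :=
    (Matrix.one_kronecker_one).symm
  obtain ⟨E, hE⟩ : ∃ E : Matrix (Fin m) (Fin m) F, E = c • vecMulVec a (J *ᵥ a) := ⟨_, rfl⟩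
  have hT : Tac J a c ⊗ₖ (1 : Matrix (Fin n) (Fin n) F)
      = 1 + E ⊗ₖ (1 : Matrix (Fin n) (Fin n) F) := by
    rw [hE]
    unfold Tac
    rw [Matrix.add_kronecker, Matrix.one_kronecker_one]
  have hY : A ⊗ₖ B - 1 = γ * (E ⊗ₖ (1 : Matrix (Fin n) (Fin n) F)) * γ' := by
    rw [← hAB, hT, Matrix.mul_add, Matrix.add_mul, Matrix.mul_one, hγ]
    abel
  have hJa : J *ᵥ a ≠ 0 := by
    intro h
    exact hdet (Matrix.exists_mulVec_eq_zero_iff.mp ⟨a, ha, h⟩)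
  have hEE : E * E = 0 := by
    rw [hE, Matrix.smul_mul, Matrix.mul_smul, Matrix.vecMulVec_mul_vecMulVec,
      alt_self h2 J hJ a]
    simp
  have hE0 : E ≠ 0 := by
    obtain ⟨i, hi⟩ : ∃ i, a i ≠ 0 := by
      by_contra hh
      push Not at hh
      exact ha (funext hh)
    obtain ⟨j, hj⟩ : ∃ j, (J *ᵥ a) j ≠ 0 := by
      by_contra hh
      push Not at hh
      exact hJa (funext hh)
    intro h0
    have h1 := congrFun (congrFun h0 i) j
    rw [hE] at h1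
    simp only [Matrix.smul_apply, Matrix.vecMulVec_apply, smul_eq_mul, Matrix.zero_apply] at h1
    exact mul_ne_zero hc (mul_ne_zero hi hj) h1
  have hYY : (A ⊗ₖ B - 1) * (A ⊗ₖ B - 1) = 0 := by
    rw [hY]
    calc γ * (E ⊗ₖ (1 : Matrix (Fin n) (Fin n) F)) * γ'
          * (γ * (E ⊗ₖ (1 : Matrix (Fin n) (Fin n) F)) * γ')
        = γ * ((E ⊗ₖ (1 : Matrix (Fin n) (Fin n) F)) * (γ' * γ)
          * (E ⊗ₖ (1 : Matrix (Fin n) (Fin n) F))) * γ' := by
          simp only [Matrix.mul_assoc]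
      _ = 0 := by
          rw [hγ', Matrix.mul_one, ← Matrix.mul_kronecker_mul, hEE, Matrix.zero_kronecker,
            Matrix.mul_zero, Matrix.zero_mul]
  have hYne : A ⊗ₖ B - 1 ≠ 0 := by
    intro h0
    rw [hY] at h0
    have h' : γ' * (γ * (E ⊗ₖ (1 : Matrix (Fin n) (Fin n) F)) * γ') * γ = 0 := by
      rw [h0, Matrix.mul_zero, Matrix.zero_mul]
    have h'' : γ' * (γ * (E ⊗ₖ (1 : Matrix (Fin n) (Fin n) F)) * γ') * γ
        = (γ' * γ) * (E ⊗ₖ (1 : Matrix (Fin n) (Fin n) F)) * (γ' * γ) := by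
      simp only [Matrix.mul_assoc]
    rw [h'', hγ', Matrix.one_mul, Matrix.mul_one] at h'
    apply hE0
    ext i j
    have h1 := congrFun (congrFun h' (i, ⟨0, hn⟩)) (j, ⟨0, hn⟩)
    simpa [Matrix.kronecker_apply] using h1
  have hYv : ∀ v : Fin m × Fin n → F,
      (A ⊗ₖ B - 1) *ᵥ v = γ *ᵥ pt a (Lc J a c (γ' *ᵥ v)) := by
    intro v
    rw [hY, ← Matrix.mulVec_mulVec, ← Matrix.mulVec_mulVec, hE, ckron_mulVec]
  by_cases hA : ∃ α : F, A = α • (1 : Matrix (Fin m) (Fin m) F)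
  · exfalso
    obtain ⟨α, hα⟩ := hA
    have hN : A ⊗ₖ B - 1 = (1 : Matrix (Fin m) (Fin m) F) ⊗ₖ (α • B - 1) := by
      rw [hα]
      ext ⟨i, k⟩ ⟨j, l⟩
      simp only [Matrix.sub_apply, Matrix.kronecker_apply, Matrix.smul_apply, smul_eq_mul, h11]
      ring
    have hN0 : α • B - 1 ≠ 0 := by
      intro h0
      apply hYne
      rw [hN, h0, Matrix.kronecker_zero]
    obtain ⟨b₁, hb₁⟩ := exists_mulVec_ne hN0
    obtain ⟨g', hg'⟩ : ∃ g' : (Fin m → F) →ₗ[F] (Fin n → F),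
        ∀ x, g' x = Lc J a c (γ' *ᵥ pt x b₁) :=
      ⟨(Lc J a c).comp ((Matrix.mulVecLin γ').comp (ptL1 b₁)), fun x => rfl⟩
    have hker : LinearMap.ker g' ≠ ⊥ := by
      apply LinearMap.ker_ne_bot_of_finrank_lt
      simp only [Module.finrank_pi, Fintype.card_fin]
      exact hnm
    obtain ⟨x, hx, hx0⟩ := (Submodule.ne_bot_iff _).1 hker
    have hgx : Lc J a c (γ' *ᵥ pt x b₁) = 0 := by
      rw [← hg']
      exact LinearMap.mem_ker.1 hx
    have h1 : (A ⊗ₖ B - 1) *ᵥ pt x b₁ = pt x ((α • B - 1) *ᵥ b₁) := by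
      rw [hN, kron_mulVec_pt, Matrix.one_mulVec]
    have h3 := hYv (pt x b₁)
    rw [h1, hgx, pt_zero_right, Matrix.mulVec_zero] at h3
    exact hx0 (pt_eq_zero' hb₁ h3)
  · obtain ⟨u, α, hαu, hαAu⟩ := Cfsg.Agent.Helper4.T4CRCore.exists_of_not_scalar hm A hA
    have hexp : (A * A) ⊗ₖ (B * B) - (2 : F) • (A ⊗ₖ B)
        + (1 : Matrix (Fin m) (Fin m) F) ⊗ₖ (1 : Matrix (Fin n) (Fin n) F) = 0 := by
      rw [← hYY, Matrix.one_kronecker_one, Matrix.sub_mul, Matrix.mul_sub, Matrix.mul_sub,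
        ← Matrix.mul_kronecker_mul, Matrix.mul_one, Matrix.one_mul, Matrix.mul_one, two_smul]
      abel
    obtain ⟨s, hs⟩ : ∃ s : F, s = α ⬝ᵥ ((A * A) *ᵥ u) := ⟨_, rfl⟩
    have hvec : ∀ w : Fin n → F, s • ((B * B) *ᵥ w) = (2 : F) • (B *ᵥ w) := by
      intro w
      have h0 : ((A * A) ⊗ₖ (B * B) - (2 : F) • (A ⊗ₖ B)
          + (1 : Matrix (Fin m) (Fin m) F) ⊗ₖ (1 : Matrix (Fin n) (Fin n) F)) *ᵥ pt u w = 0 := by
        rw [hexp, Matrix.zero_mulVec]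
      rw [Matrix.add_mulVec, Matrix.sub_mulVec, Matrix.smul_mulVec, kron_mulVec_pt,
        kron_mulVec_pt, kron_mulVec_pt, Matrix.one_mulVec, Matrix.one_mulVec] at h0
      ext k
      have h1 : ∑ i, α i * ((pt ((A * A) *ᵥ u) ((B * B) *ᵥ w)
          - (2 : F) • pt (A *ᵥ u) (B *ᵥ w) + pt u w) (i, k)) = 0 := by
        rw [h0]
        simp
      simp only [Pi.add_apply, Pi.sub_apply, Pi.smul_apply, pt, smul_eq_mul] at h1
      have h2' : ∑ i, α i * (((A * A) *ᵥ u) i * ((B * B) *ᵥ w) k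
            - 2 * ((A *ᵥ u) i * (B *ᵥ w) k) + u i * w k)
          = (α ⬝ᵥ ((A * A) *ᵥ u)) * ((B * B) *ᵥ w) k
            - 2 * ((α ⬝ᵥ (A *ᵥ u)) * (B *ᵥ w) k) + (α ⬝ᵥ u) * w k := by
        simp only [dotProduct, Finset.sum_mul, Finset.mul_sum, ← Finset.sum_sub_distrib,
          ← Finset.sum_add_distrib]
        refine Finset.sum_congr rfl fun i _ => by ring
      rw [h2', hαu, hαAu, ← hs] at h1
      simp only [Pi.smul_apply, smul_eq_mul]
      linear_combination h1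
    have hBinj : ∀ w : Fin n → F, B *ᵥ w = 0 → w = 0 := by
      intro w hw
      obtain ⟨x, hx⟩ : ∃ x : Fin m → F, x ≠ 0 := by
        refine ⟨fun _ => 1, ?_⟩
        intro h
        have h1 := congrFun h ⟨0, hm⟩
        simp at h1
      have h1 : (A ⊗ₖ B) *ᵥ pt x w = 0 := by rw [kron_mulVec_pt, hw, pt_zero_right]
      have h3 : (A ⊗ₖ B - 1) *ᵥ pt x w = - pt x w := by
        rw [Matrix.sub_mulVec, h1, Matrix.one_mulVec, zero_sub]
      have h4 : ((A ⊗ₖ B - 1) * (A ⊗ₖ B - 1)) *ᵥ pt x w = pt x w := by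
        rw [← Matrix.mulVec_mulVec, h3, Matrix.mulVec_neg, h3, neg_neg]
      rw [hYY, Matrix.zero_mulVec] at h4
      exact pt_eq_zero hx h4.symm
    have hBw : ∀ w : Fin n → F, s • (B *ᵥ w) = (2 : F) • w := by
      intro w
      have h5 : B *ᵥ (s • (B *ᵥ w) - (2 : F) • w) = 0 := by
        rw [Matrix.mulVec_sub, Matrix.mulVec_smul, Matrix.mulVec_smul, Matrix.mulVec_mulVec]
        exact sub_eq_zero.mpr (hvec w)
      exact sub_eq_zero.mp (hBinj _ h5)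
    obtain ⟨β, hβ⟩ : ∃ β : F, B = β • (1 : Matrix (Fin n) (Fin n) F) := by
      by_cases hs0 : s = 0
      · refine ⟨0, mat_ext_mulVec fun w => ?_⟩
        have hw := hBw w
        rw [hs0, zero_smul] at hw
        have hw0 : w = 0 := by
          rcases smul_eq_zero.mp hw.symm with h | h
          · exact absurd h h2
          · exact h
        rw [hw0, Matrix.mulVec_zero, Matrix.mulVec_zero]
      · refine ⟨2 / s, mat_ext_mulVec fun w => ?_⟩
        rw [Matrix.smul_mulVec, Matrix.one_mulVec]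
        have hw := hBw w
        calc B *ᵥ w = s⁻¹ • (s • (B *ᵥ w)) := by
              rw [smul_smul, inv_mul_cancel₀ hs0, one_smul]
          _ = (2 / s) • w := by
              rw [hw, smul_smul]
              congr 1
              field_simp
    have hN : A ⊗ₖ B - 1 = (β • A - 1) ⊗ₖ (1 : Matrix (Fin n) (Fin n) F) := by
      rw [hβ]
      ext ⟨i, k⟩ ⟨j, l⟩
      simp only [Matrix.sub_apply, Matrix.kronecker_apply, Matrix.smul_apply, smul_eq_mul, h11]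
      ring
    have hN0 : β • A - 1 ≠ 0 := by
      intro h0
      apply hYne
      rw [hN, h0, Matrix.zero_kronecker]
    obtain ⟨x₀, hx₀⟩ : ∃ x₀ : Fin m → F, (β • A - 1) *ᵥ x₀ ≠ 0 := by
      by_contra hh
      push Not at hh
      apply hN0
      ext i j
      have h1 := congrFun (hh (Pi.single j 1)) i
      simpa [Matrix.mulVec_single_one] using h1
    obtain ⟨g, hg⟩ : ∃ g : (Fin n → F) →ₗ[F] (Fin n → F),
        ∀ b, g b = Lc J a c (γ' *ᵥ pt x₀ b) :=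
      ⟨(Lc J a c).comp ((Matrix.mulVecLin γ').comp (ptL2 x₀)), fun b => rfl⟩
    have hgb : ∀ b : Fin n → F, pt ((β • A - 1) *ᵥ x₀) b = γ *ᵥ pt a (g b) := by
      intro b
      have h1 : (A ⊗ₖ B - 1) *ᵥ pt x₀ b = pt ((β • A - 1) *ᵥ x₀) b := by
        rw [hN, kron_mulVec_pt, Matrix.one_mulVec]
      rw [← h1, hYv, hg]
    have hginj : Function.Injective g := by
      rw [← LinearMap.ker_eq_bot, LinearMap.ker_eq_bot']
      intro b hb
      have h1 := hgb b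
      rw [hb, pt_zero_right, Matrix.mulVec_zero] at h1
      exact pt_eq_zero hx₀ h1
    have hgsurj : Function.Surjective g := LinearMap.injective_iff_surjective.mp hginj
    refine ⟨(β • A - 1) *ᵥ x₀, hx₀, fun b => ?_⟩
    obtain ⟨b₀, hb₀⟩ := hgsurj b
    exact ⟨b₀, by rw [hgb b₀, hb₀]⟩

end Cfsg.Agent.Helper29.SQCL
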