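import Mathlib
import Cfsg.Agent.Helper45.StDDefs

set_option autoImplicit false
set_option linter.unusedSectionVars false

universe u

namespace Cfsg.Agent.Helper29.StSTABDD

open Cfsg Cfsg.Agent.Helper13 Cfsg.Agent.Helper95.SpBN Cfsg.Agent.Helper45 Cfsg.Agent.Helper45.St
open Cfsg.Agent.Helper45.StD

variable {ι : Type} [Fintype ι] [DecidableEq ι] {F : Type u} [Field F]
  {Q : QuadraticForm F (ι → F)} {m : ℕ} {L R : Fin m → ι}

theorem expand29 (H : HypPairs Q m L R) (hV0 : ∀ x : ι → F, InV0 L R x → x = 0) (x : ι → F) :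
    x = ∑ a : Fin m ⊕ Fin m, x (idx L R a) • ev L R F a := by
  have h0 : x - ∑ a : Fin m ⊕ Fin m, x (idx L R a) • ev L R F a = 0 := by
    apply hV0
    intro b
    rw [Pi.sub_apply, Finset.sum_apply, Finset.sum_eq_single b]
    · rw [Pi.smul_apply, ev_apply, if_pos rfl, smul_eq_mul, mul_one, sub_self]
    · intro a _ hab
      rw [Pi.smul_apply, ev_apply, if_neg (fun h => hab (idx_injective H h).symm), smul_zero]
    · intro hb
      exact absurd (Finset.mem_univ b) hb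
  exact sub_eq_zero.1 h0

theorem eq_smul_ev29 (H : HypPairs Q m L R) (hV0 : ∀ x : ι → F, InV0 L R x → x = 0)
    (y : ι → F) (a : Fin m ⊕ Fin m) (hy : ∀ b, b ≠ a → y (idx L R b) = 0) :
    y = y (idx L R a) • ev L R F a := by
  have h0 : y - y (idx L R a) • ev L R F a = 0 := by
    apply hV0
    intro b
    rw [Pi.sub_apply, Pi.smul_apply, ev_apply, smul_eq_mul]
    by_cases hb : b = a
    · rw [hb, if_pos rfl, mul_one, sub_self]
    · have hne : idx L R b ≠ idx L R a := fun h => hb (idx_injective H h)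
      rw [if_neg hne, mul_zero, sub_zero, hy b hb]
  exact sub_eq_zero.1 h0

theorem pat_supp29 (H : HypPairs Q m L R) (hV0 : ∀ x : ι → F, InV0 L R x → x = 0)
    (n : ↥(isometryGroup F ⇑Q)) (π : Equiv.Perm (Fin m ⊕ Fin m))
    (hn : PatO Q L R n π) (x : ι → F) (c : ι) (hc : mv ⇑Q n x c ≠ 0) :
    ∃ a, x (idx L R a) ≠ 0 ∧ c = idx L R (π a) := by
  have hx := expand29 H hV0 x
  have h1 : mv ⇑Q n x = ∑ a : Fin m ⊕ Fin m, x (idx L R a) • mv ⇑Q n (ev L R F a) := by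
    have h2 : mv ⇑Q n x = mv ⇑Q n (∑ a : Fin m ⊕ Fin m, x (idx L R a) • ev L R F a) :=
      congrArg (mv ⇑Q n) hx
    have h3 : mv ⇑Q n (∑ a : Fin m ⊕ Fin m, x (idx L R a) • ev L R F a) =
        ∑ a : Fin m ⊕ Fin m, mv ⇑Q n (x (idx L R a) • ev L R F a) := Matrix.mulVec_sum _ _ _
    rw [h2, h3]
    exact Finset.sum_congr rfl (fun a _ => mv_smul Q n _ _)
  rw [h1, Finset.sum_apply] at hc
  obtain ⟨a, -, ha⟩ := Finset.exists_ne_zero_of_sum_ne_zero hc
  obtain ⟨d, hd⟩ := hn a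
  rw [Pi.smul_apply, hd, Pi.smul_apply, ev_apply, smul_eq_mul, smul_eq_mul] at ha
  refine ⟨a, fun h0 => ha (by rw [h0, zero_mul]), ?_⟩
  by_contra hne
  rw [if_neg hne, mul_zero, mul_zero] at ha
  exact ha rfl

theorem coord_dual29 (H : HypPairs Q m L R) (g : ↥(isometryGroup F ⇑Q)) (a b : Fin m ⊕ Fin m) :
    mv ⇑Q g (ev L R F a) (idx L R b) =
      mv ⇑Q g⁻¹ (ev L R F (tauP m b)) (idx L R (tauP m a)) := by
  have h1 : mv ⇑Q g (ev L R F a) (idx L R b) =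
      QuadraticMap.polar ⇑Q (ev L R F (tauP m b)) (mv ⇑Q g (ev L R F a)) := by
    rw [polar_ev H, tauP_tauP]
  have h2 : mv ⇑Q g⁻¹ (ev L R F (tauP m b)) (idx L R (tauP m a)) =
      QuadraticMap.polar ⇑Q (ev L R F a) (mv ⇑Q g⁻¹ (ev L R F (tauP m b))) := by
    rw [polar_ev H]
  have h3 := mv_polar Q g⁻¹ (mv ⇑Q g (ev L R F a)) (ev L R F (tauP m b))
  rw [← mv_mul, inv_mul_cancel, mv_one] at h3
  rw [h1, h2, QuadraticMap.polar_comm]
  exact h3.symm

theorem coordR29 (H : HypPairs Q m L R) (hV0 : ∀ x : ι → F, InV0 L R x → x = 0)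
    (n₀ : ↥(isometryGroup F ⇑Q)) (π₀ : Equiv.Perm (Fin m ⊕ Fin m))
    (hπ₀ : ∀ i : Fin m, (i : ℕ) + 1 < m → π₀ (Sum.inl i) = Sum.inr i)
    (hn₀ : PatO Q L R n₀ π₀) (g : ↥(isometryGroup F ⇑Q)) (h : n₀⁻¹ * g * n₀ ∈ borelO Q L)
    (i : Fin m) (hi : (i : ℕ) + 1 < m) (c : ι) (hc : mv ⇑Q g (ev L R F (Sum.inr i)) c ≠ 0) :
    ∃ i' : Fin m, (i' : ℕ) ≤ (i : ℕ) ∧ c = R i' := by
  obtain ⟨d, hd⟩ := hn₀ (Sum.inl i)
  rw [hπ₀ i hi] at hd
  have hd0 : d ≠ 0 := by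
    rintro rfl
    rw [zero_smul] at hd
    have h2 : mv ⇑Q n₀⁻¹ (mv ⇑Q n₀ (ev L R F (Sum.inl i))) = ev L R F (Sum.inl i) := by
      rw [← mv_mul, inv_mul_cancel, mv_one]
    rw [hd] at h2
    have h3 : mv ⇑Q n₀⁻¹ (0 : ι → F) = 0 := Matrix.mulVec_zero _
    rw [h3] at h2
    have h4 := congrFun h2 (idx L R (Sum.inl i))
    rw [ev_apply, if_pos rfl, Pi.zero_apply] at h4
    exact zero_ne_one h4
  obtain ⟨z, hz⟩ : ∃ z : ι → F, z = mv ⇑Q (n₀⁻¹ * g * n₀) (ev L R F (Sum.inl i)) := ⟨_, rfl⟩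
  have hzF : FlagP L ((i : ℕ) + 1) z := by rw [hz]; exact (h _ _ (flagP_ev i)).1
  have hzy : mv ⇑Q n₀ z = d • mv ⇑Q g (ev L R F (Sum.inr i)) := by
    rw [hz, ← mv_mul, ← mv_smul, ← hd, ← mv_mul]
    congr 1
    group
  have hc' : mv ⇑Q n₀ z c ≠ 0 := by
    rw [hzy, Pi.smul_apply, smul_eq_mul]
    exact mul_ne_zero hd0 hc
  obtain ⟨a, ha, hca⟩ := pat_supp29 H hV0 n₀ π₀ hn₀ z c hc'
  obtain ⟨i', hi', hia⟩ := hzF (idx L R a) ha
  have haa : a = Sum.inl i' :=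
    idx_injective H (show idx L R a = idx L R (Sum.inl i') from hia)
  refine ⟨i', by omega, ?_⟩
  rw [hca, haa, hπ₀ i' (by omega)]
  rfl

theorem aux_inl29 (H : HypPairs Q m L R) (hV0 : ∀ x : ι → F, InV0 L R x → x = 0)
    (n₀ : ↥(isometryGroup F ⇑Q)) (π₀ : Equiv.Perm (Fin m ⊕ Fin m))
    (hπ₀ : ∀ i : Fin m, (i : ℕ) + 1 < m → π₀ (Sum.inl i) = Sum.inr i)
    (hn₀ : PatO Q L R n₀ π₀) (g : ↥(isometryGroup F ⇑Q)) (hg : g ∈ borelO Q L)
    (h : n₀⁻¹ * g * n₀ ∈ borelO Q L) (j : Fin m) (b : Fin m ⊕ Fin m) (hb : b ≠ Sum.inl j) :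
    mv ⇑Q g (ev L R F (Sum.inl j)) (idx L R b) = 0 := by
  by_contra hne
  obtain ⟨i', hi', e⟩ := (hg _ _ (flagP_ev j)).1 (idx L R b) hne
  rcases b with i | i
  · have e2 : L i = L i' := e
    have hii : i = i' := H.hL e2
    subst hii
    have hij : (i : ℕ) < (j : ℕ) := by
      have h1 : (i : ℕ) ≠ (j : ℕ) := fun e' => hb (by rw [Fin.ext e'])
      omega
    rw [coord_dual29 H g, tauP_inl, tauP_inl] at hne
    have h' : n₀⁻¹ * g⁻¹ * n₀ ∈ borelO Q L := by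
      have e1 : n₀⁻¹ * g⁻¹ * n₀ = (n₀⁻¹ * g * n₀)⁻¹ := by group
      rw [e1]
      exact Subgroup.inv_mem _ h
    have hi1 : (i : ℕ) + 1 < m := by
      have := j.2
      omega
    obtain ⟨i'', hi'', e'⟩ := coordR29 H hV0 n₀ π₀ hπ₀ hn₀ g⁻¹ h' i hi1 _ hne
    have e3 : R j = R i'' := e'
    have hji : j = i'' := H.hR e3
    subst hji
    omega
  · have e2 : R i = L i' := e
    exact H.hLR i' i e2.symm

theorem aux_inr29 (H : HypPairs Q m L R) (hV0 : ∀ x : ι → F, InV0 L R x → x = 0)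
    (n₀ : ↥(isometryGroup F ⇑Q)) (π₀ : Equiv.Perm (Fin m ⊕ Fin m))
    (hπ₀ : ∀ i : Fin m, (i : ℕ) + 1 < m → π₀ (Sum.inl i) = Sum.inr i)
    (hn₀ : PatO Q L R n₀ π₀) (g : ↥(isometryGroup F ⇑Q)) (hg : g ∈ borelO Q L)
    (h : n₀⁻¹ * g * n₀ ∈ borelO Q L) (j : Fin m) (hj : (j : ℕ) + 1 < m)
    (b : Fin m ⊕ Fin m) (hb : b ≠ Sum.inr j) :
    mv ⇑Q g (ev L R F (Sum.inr j)) (idx L R b) = 0 := by
  by_contra hne
  obtain ⟨i', hi', e⟩ := coordR29 H hV0 n₀ π₀ hπ₀ hn₀ g h j hj _ hne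
  rcases b with i | i
  · have e2 : L i = R i' := e
    exact H.hLR i i' e2
  · have e2 : R i = R i' := e
    have hii : i = i' := H.hR e2
    subst hii
    have hij : (i : ℕ) < (j : ℕ) := by
      have h1 : (i : ℕ) ≠ (j : ℕ) := fun e' => hb (by rw [Fin.ext e'])
      omega
    rw [coord_dual29 H g, tauP_inr, tauP_inr] at hne
    obtain ⟨i'', hi'', e'⟩ := (hg _ _ (flagP_ev i)).2 (idx L R (Sum.inl j)) hne
    have e3 : L j = L i'' := e'
    have hji : j = i'' := H.hL e3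
    subst hji
    omega

-- === PIECE STABDD ===
theorem p_STABDD (H : HypPairs Q m L R) (hV0 : ∀ x : ι → F, InV0 L R x → x = 0)
    (g n₀ : ↥(isometryGroup F ⇑Q)) (π₀ : Equiv.Perm (Fin m ⊕ Fin m))
    (hπ₀ : ∀ i : Fin m, (i : ℕ) + 1 < m → π₀ (Sum.inl i) = Sum.inr i)
    (hg : g ∈ borelO Q L) (hn₀ : PatO Q L R n₀ π₀) (hn₀' : PatO Q L R n₀⁻¹ π₀⁻¹)
    (h : n₀⁻¹ * g * n₀ ∈ borelO Q L) : PatO Q L R g 1 := by
  have hg' : g⁻¹ ∈ borelO Q L := Subgroup.inv_mem _ hg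
  have h' : n₀⁻¹ * g⁻¹ * n₀ ∈ borelO Q L := by
    have e1 : n₀⁻¹ * g⁻¹ * n₀ = (n₀⁻¹ * g * n₀)⁻¹ := by group
    rw [e1]
    exact Subgroup.inv_mem _ h
  have hinl : ∀ j : Fin m, ∃ c : F, mv ⇑Q g (ev L R F (Sum.inl j)) = c • ev L R F (Sum.inl j) :=
    fun j => ⟨_, eq_smul_ev29 H hV0 _ _
      (fun b hb => aux_inl29 H hV0 n₀ π₀ hπ₀ hn₀ g hg h j b hb)⟩
  have hne1 : ∀ i i' : Fin m, idx L R (Sum.inl i) ≠ idx L R (Sum.inr i') :=
    fun i i' e => Sum.inl_ne_inr (idx_injective H e)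
  have hne2 : ∀ i i' : Fin m, idx L R (Sum.inr i) ≠ idx L R (Sum.inl i') :=
    fun i i' e => Sum.inr_ne_inl (idx_injective H e)
  intro a
  rw [Equiv.Perm.one_apply]
  rcases a with j | j
  · exact hinl j
  · by_cases hj : (j : ℕ) + 1 < m
    · exact ⟨_, eq_smul_ev29 H hV0 _ _
        (fun b hb => aux_inr29 H hV0 n₀ π₀ hπ₀ hn₀ g hg h j hj b hb)⟩
    · obtain ⟨y, hy⟩ : ∃ y : ι → F, y = mv ⇑Q g (ev L R F (Sum.inr j)) := ⟨_, rfl⟩
      rw [← hy]
      have hlt : ∀ i : Fin m, i ≠ j → (i : ℕ) + 1 < m := by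
        intro i hij
        have h1 : (i : ℕ) ≠ (j : ℕ) := fun e => hij (Fin.ext e)
        have := i.2
        have := j.2
        omega
      have hy1 : ∀ i : Fin m, i ≠ j → y (idx L R (Sum.inr i)) = 0 := by
        intro i hij
        rw [hy, coord_dual29 H g, tauP_inr, tauP_inr]
        exact aux_inl29 H hV0 n₀ π₀ hπ₀ hn₀ g⁻¹ hg' h' i (Sum.inl j)
          (fun e => hij (Sum.inl.inj e).symm)
      have hy2 : ∀ i : Fin m, i ≠ j → y (idx L R (Sum.inl i)) = 0 := by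
        intro i hij
        rw [hy, coord_dual29 H g, tauP_inl, tauP_inr]
        exact aux_inr29 H hV0 n₀ π₀ hπ₀ hn₀ g⁻¹ hg' h' i (hlt i hij) (Sum.inl j)
          (fun e => Sum.inl_ne_inr e)
      obtain ⟨α, hα⟩ : ∃ α : F, α = y (idx L R (Sum.inl j)) := ⟨_, rfl⟩
      obtain ⟨β, hβ⟩ : ∃ β : F, β = y (idx L R (Sum.inr j)) := ⟨_, rfl⟩
      have hyeq : y = α • ev L R F (Sum.inl j) + β • ev L R F (Sum.inr j) := by
        have h0 : y - (α • ev L R F (Sum.inl j) + β • ev L R F (Sum.inr j)) = 0 := by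
          apply hV0
          intro b
          rw [Pi.sub_apply, Pi.add_apply, Pi.smul_apply, Pi.smul_apply, ev_apply, ev_apply,
            smul_eq_mul, smul_eq_mul]
          rcases b with i | i
          · by_cases hij : i = j
            · rw [hij, if_pos rfl, if_neg (hne1 _ _), ← hα]
              ring
            · have hne3 : idx L R (Sum.inl i) ≠ idx L R (Sum.inl j) :=
                fun e => hij (Sum.inl.inj (idx_injective H e))
              rw [if_neg hne3, if_neg (hne1 _ _), hy2 i hij]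
              ring
          · by_cases hij : i = j
            · rw [hij, if_neg (hne2 _ _), if_pos rfl, ← hβ]
              ring
            · have hne3 : idx L R (Sum.inr i) ≠ idx L R (Sum.inr j) :=
                fun e => hij (Sum.inr.inj (idx_injective H e))
              rw [if_neg (hne2 _ _), if_neg hne3, hy1 i hij]
              ring
        exact sub_eq_zero.1 h0
      have hQy : Q y = 0 := by
        rw [hy]
        exact (mv_quad (⇑Q) g (ev L R F (Sum.inr j))).trans (ev_quad H _)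
      have hαβ : α * β = 0 := by
        have hQ2 : Q (α • ev L R F (Sum.inl j) + β • ev L R F (Sum.inr j)) =
            Q (α • ev L R F (Sum.inl j)) + Q (β • ev L R F (Sum.inr j)) +
              QuadraticMap.polar ⇑Q (α • ev L R F (Sum.inl j)) (β • ev L R F (Sum.inr j)) :=
          QuadraticMap.map_add ⇑Q _ _
        rw [hyeq, hQ2, QuadraticMap.map_smul, QuadraticMap.map_smul, ev_quad H,
          ev_quad H, QuadraticMap.polar_smul_left, QuadraticMap.polar_smul_right, polar_ev_ev H,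
          tauP_inl, if_pos rfl] at hQy
        simpa using hQy
      obtain ⟨aj, haj⟩ := hinl j
      have hpol : QuadraticMap.polar ⇑Q (mv ⇑Q g (ev L R F (Sum.inl j))) y = 1 := by
        rw [hy, mv_polar, polar_ev_ev H, tauP_inl, if_pos rfl]
      rw [haj, QuadraticMap.polar_smul_left, polar_ev H, tauP_inl, ← hβ, smul_eq_mul] at hpol
      have hβ0 : β ≠ 0 := by
        rintro rfl
        rw [mul_zero] at hpol
        exact zero_ne_one hpol
      have hα0 : α = 0 := by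
        rcases mul_eq_zero.1 hαβ with h1 | h1
        · exact h1
        · exact absurd h1 hβ0
      refine ⟨β, ?_⟩
      rw [hyeq, hα0, zero_smul, zero_add]

end Cfsg.Agent.Helper29.StSTABDD
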