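import Mathlib
import Cfsg.Agent.Helper45.StDDefs

set_option autoImplicit false

universe u

namespace Cfsg.Agent.Helper29.StTORC

open Cfsg Cfsg.Agent.Helper13 Cfsg.Agent.Helper95.SpBN Cfsg.Agent.Helper45 Cfsg.Agent.Helper45.St
open Cfsg.Agent.Helper45.StD

variable {ι : Type} [Fintype ι] [DecidableEq ι] {F : Type u} [Field F]
  {Q : QuadraticForm F (ι → F)} {m : ℕ} {L R : Fin m → ι}

theorem p_TORC (H : HypPairs Q m L R) (hV0 : ∀ x : ι → F, InV0 L R x → x = 0)
    (g : ↥(isometryGroup F ⇑Q)) (hfix : ∀ a, mv ⇑Q g (ev L R F a) = ev L R F a) : g = 1 := by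
  apply ext_mv
  intro x
  rw [mv_one]
  have hx : x = ∑ a : Fin m ⊕ Fin m, x (idx L R a) • ev L R F a := by
    have h0 : x - ∑ a : Fin m ⊕ Fin m, x (idx L R a) • ev L R F a = 0 := by
      apply hV0
      intro b
      rw [Pi.sub_apply, Finset.sum_apply, Finset.sum_eq_single b]
      · rw [Pi.smul_apply, ev_apply, if_pos rfl, smul_eq_mul, mul_one, sub_self]
      · intro a _ hab
        rw [Pi.smul_apply, ev_apply, if_neg (fun h => hab (idx_injective H h).symm), smul_zero]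
      · intro hb
        exact absurd (Finset.mem_univ b) hb
    exact sub_eq_zero.1 h0
  have hsum : mv ⇑Q g (∑ a : Fin m ⊕ Fin m, x (idx L R a) • ev L R F a) =
      ∑ a : Fin m ⊕ Fin m, mv ⇑Q g (x (idx L R a) • ev L R F a) := Matrix.mulVec_sum _ _ _
  calc mv ⇑Q g x = mv ⇑Q g (∑ a : Fin m ⊕ Fin m, x (idx L R a) • ev L R F a) := by rw [← hx]
    _ = ∑ a : Fin m ⊕ Fin m, mv ⇑Q g (x (idx L R a) • ev L R F a) := hsum
    _ = ∑ a : Fin m ⊕ Fin m, x (idx L R a) • ev L R F a := by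
        apply Finset.sum_congr rfl
        intro a _
        rw [mv_smul, hfix a]
    _ = x := hx.symm

end Cfsg.Agent.Helper29.StTORC
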