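import Mathlib
import Cfsg.Agent.Helper45.StDDefs
import Cfsg.Agent.Helper11.SpBNSGSQ
import Cfsg.Agent.Helper11.SpBNSGINJ
import Cfsg.Agent.Helper8.SpWGen

set_option autoImplicit false

universe u

namespace Cfsg.Agent.Helper29.StWD

open Cfsg Cfsg.Agent.Helper13 Cfsg.Agent.Helper95.SpBN Cfsg.Agent.Helper45 Cfsg.Agent.Helper45.St
open Cfsg.Agent.Helper45.StD

variable {m : ℕ}

theorem sigPD_of_lt (j : Fin m) (hj : (j : ℕ) + 1 < m) : sigPD j = sigP j := by
  unfold sigPD; rw [if_pos hj]

theorem sigPD_last (j : Fin m) (hj : ¬ (j : ℕ) + 1 < m) :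
    sigPD j = Equiv.swap (Sum.inl (jp j)) (Sum.inr j) * Equiv.swap (Sum.inl j) (Sum.inr (jp j)) := by
  unfold sigPD; rw [if_neg hj]

theorem jp_ne (hm : 2 ≤ m) (j : Fin m) (hj : ¬ (j : ℕ) + 1 < m) : jp j ≠ j := by
  intro h
  have h1 := congrArg Fin.val h
  rw [jp_val] at h1
  have := j.2
  omega

theorem sigPD_lt_eq (j : Fin m) (hj : (j : ℕ) + 1 < m) :
    sigPD j = Equiv.swap (Sum.inl j) (Sum.inl ⟨(j : ℕ) + 1, hj⟩) *
      Equiv.swap (Sum.inr j) (Sum.inr ⟨(j : ℕ) + 1, hj⟩) := by
  have hrb : rb j = Sum.inl ⟨(j : ℕ) + 1, hj⟩ := by unfold rb; rw [dif_pos hj]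
  rw [sigPD_of_lt j hj]
  unfold sigP
  rw [if_pos hj, hrb]
  rfl

theorem p_SGSQD (hm : 2 ≤ m) (j : Fin m) : sigPD j * sigPD j = 1 := by
  by_cases hj : (j : ℕ) + 1 < m
  · rw [sigPD_of_lt j hj]; exact Cfsg.Agent.Helper11.SpBN.p_SGSQ j
  · rw [sigPD_last j hj]
    have hne := jp_ne hm j hj
    have hdis : Equiv.Perm.Disjoint (Equiv.swap (Sum.inl (jp j) : Fin m ⊕ Fin m) (Sum.inr j))
        (Equiv.swap (Sum.inl j) (Sum.inr (jp j))) := by
      apply Equiv.Perm.disjoint_swap_swap
      simp [hne, Ne.symm hne]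
    have h2 := hdis.commute.mul_pow 2
    simp only [pow_two, Equiv.swap_mul_self, one_mul] at h2
    exact h2

theorem sigP_inl_isLeft (i x : Fin m) (hi : (i : ℕ) + 1 < m) :
    ∃ y : Fin m, sigP i (Sum.inl x) = Sum.inl y := by
  by_cases hx : x = i
  · subst hx
    rw [Cfsg.Agent.Helper11.SpBN.sigP_inl_self]
    refine ⟨⟨(x : ℕ) + 1, hi⟩, ?_⟩
    unfold rb; rw [dif_pos hi]
  · rcases Cfsg.Agent.Helper11.SpBN.sigP_inl_of_ne x i hx with h | h
    · exact ⟨x, h⟩
    · exact ⟨i, h⟩

theorem sigPD_last_apply (hm : 2 ≤ m) (j : Fin m) (hj : ¬ (j : ℕ) + 1 < m) :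
    sigPD j (Sum.inl (jp j)) = Sum.inr j := by
  rw [sigPD_last j hj, Equiv.Perm.mul_apply]
  have hne := jp_ne hm j hj
  have h1 : Equiv.swap (Sum.inl j : Fin m ⊕ Fin m) (Sum.inr (jp j)) (Sum.inl (jp j)) =
      Sum.inl (jp j) :=
    Equiv.swap_apply_of_ne_of_ne (by simp [hne]) (by simp)
  rw [h1, Equiv.swap_apply_left]

theorem p_SGINJD (hm : 2 ≤ m) (i j : Fin m) (h : sigPD i = sigPD j) : i = j := by
  by_cases hi : (i : ℕ) + 1 < m <;> by_cases hj : (j : ℕ) + 1 < m
  · rw [sigPD_of_lt i hi, sigPD_of_lt j hj] at h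
    exact Cfsg.Agent.Helper11.SpBN.p_SGINJ i j h
  · exfalso
    have h1 := DFunLike.congr_fun h (Sum.inl (jp j))
    rw [sigPD_last_apply hm j hj, sigPD_of_lt i hi] at h1
    obtain ⟨y, hy⟩ := sigP_inl_isLeft i (jp j) hi
    rw [hy] at h1
    exact Sum.inl_ne_inr h1
  · exfalso
    have h1 := DFunLike.congr_fun h (Sum.inl (jp i))
    rw [sigPD_last_apply hm i hi, sigPD_of_lt j hj] at h1
    obtain ⟨y, hy⟩ := sigP_inl_isLeft j (jp i) hj
    rw [hy] at h1
    exact Sum.inl_ne_inr h1.symm
  · apply Fin.ext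
    have := i.2
    have := j.2
    omega

theorem p_LONGD (hm : 2 ≤ m) :
    ∃ π₀ ∈ Subgroup.closure (Set.range (sigPD (m := m))),
      ∀ i : Fin m, (i : ℕ) + 1 < m → π₀ (Sum.inl i) = Sum.inr i := by
  obtain ⟨l, hl⟩ : ∃ l : Fin m, (l : ℕ) = m - 1 := ⟨⟨m - 1, by omega⟩, rfl⟩
  have hlast : ¬ (l : ℕ) + 1 < m := by omega
  obtain ⟨c, hc⟩ : ∃ c : Equiv.Perm (Fin m ⊕ Fin m), c = Equiv.swap (Sum.inl l) (Sum.inr l) :=
    ⟨_, rfl⟩
  have hcc : c * c = 1 := by rw [hc]; exact Equiv.swap_mul_self _ _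
  have hcinv : c⁻¹ = c := inv_eq_of_mul_eq_one_left hcc
  have hsigPl : sigP l = c := by
    unfold sigP
    rw [if_neg hlast, hc]
    unfold ra rb
    rw [dif_neg hlast]
  have hc_inl : ∀ i : Fin m, i ≠ l → c (Sum.inl i) = Sum.inl i := by
    intro i hi
    rw [hc]
    exact Equiv.swap_apply_of_ne_of_ne (by simp [hi]) (by simp)
  have hc_inr : ∀ i : Fin m, i ≠ l → c (Sum.inr i) = Sum.inr i := by
    intro i hi
    rw [hc]
    exact Equiv.swap_apply_of_ne_of_ne (by simp) (by simp [hi])
  have hc_l : c (Sum.inl l) = Sum.inr l := by rw [hc]; exact Equiv.swap_apply_left _ _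
  have hc_r : c (Sum.inr l) = Sum.inl l := by rw [hc]; exact Equiv.swap_apply_right _ _
  have hconj : ∀ x y : Fin m ⊕ Fin m, c * Equiv.swap x y * c = Equiv.swap (c x) (c y) := by
    intro x y
    rw [Equiv.swap_apply_apply, hcinv]
  have hconj2 : ∀ x y z w : Fin m ⊕ Fin m, c * (Equiv.swap x y * Equiv.swap z w) * c =
      Equiv.swap (c x) (c y) * Equiv.swap (c z) (c w) := by
    intro x y z w
    rw [← hconj, ← hconj]
    have h1 : c * Equiv.swap x y * c * (c * Equiv.swap z w * c) =
        c * Equiv.swap x y * (c * c) * Equiv.swap z w * c := by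
      simp only [mul_assoc]
    rw [h1, hcc, mul_one]
    simp only [mul_assoc]
  -- conjugation by c preserves the generators' closure
  have hA : ∀ j : Fin m, c * sigPD j * c ∈ Subgroup.closure (Set.range (sigPD (m := m))) := by
    intro j
    by_cases hj : (j : ℕ) + 1 < m
    · have hjl : j ≠ l := by
        intro h
        rw [h] at hj
        exact hlast hj
      rw [sigPD_lt_eq j hj, hconj2, hc_inl j hjl, hc_inr j hjl]
      by_cases hj1 : (⟨(j : ℕ) + 1, hj⟩ : Fin m) = l
      · rw [hj1, hc_l, hc_r]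
        have hjp : jp l = j := by
          apply Fin.ext
          rw [jp_val, ← hj1]
          simp
        have : sigPD l = Equiv.swap (Sum.inl j) (Sum.inr l) * Equiv.swap (Sum.inr j) (Sum.inl l) := by
          rw [sigPD_last l hlast, hjp, Equiv.swap_comm (Sum.inl l) (Sum.inr j)]
        rw [← this]
        exact Subgroup.subset_closure ⟨l, rfl⟩
      · rw [hc_inl _ hj1, hc_inr _ hj1, ← sigPD_lt_eq j hj]
        exact Subgroup.subset_closure ⟨j, rfl⟩
    · have hjl : j = l := Fin.ext (by have := j.2; omega)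
      subst hjl
      have hne := jp_ne hm j hj
      have hj' : ((jp j : Fin m) : ℕ) + 1 < m := by
        rw [jp_val]; have := j.2; omega
      have hsucc : (⟨((jp j : Fin m) : ℕ) + 1, hj'⟩ : Fin m) = j := by
        apply Fin.ext
        show ((jp j : Fin m) : ℕ) + 1 = (j : ℕ)
        rw [jp_val]; omega
      rw [sigPD_last j hj, hconj2, hc_inl _ hne, hc_r, hc_l, hc_inr _ hne]
      have : sigPD (jp j) = Equiv.swap (Sum.inl (jp j)) (Sum.inl j) *
          Equiv.swap (Sum.inr j) (Sum.inr (jp j)) := by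
        rw [sigPD_lt_eq (jp j) hj', hsucc, Equiv.swap_comm (Sum.inr (jp j)) (Sum.inr j)]
      rw [← this]
      exact Subgroup.subset_closure ⟨jp j, rfl⟩
  have hN : ∀ ρ ∈ Subgroup.closure (Set.range (sigPD (m := m))),
      c * ρ * c ∈ Subgroup.closure (Set.range (sigPD (m := m))) := by
    intro ρ hρ
    induction hρ using Subgroup.closure_induction with
    | mem x hx =>
      obtain ⟨j, rfl⟩ := hx
      exact hA j
    | one =>
      rw [mul_one, hcc]
      exact Subgroup.one_mem _
    | mul a b ha hb iha ihb =>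
      have h1 : c * (a * b) * c = (c * a * c) * (c * b * c) := by
        calc c * (a * b) * c = c * a * 1 * b * c := by simp only [mul_assoc, one_mul]
          _ = c * a * (c * c) * b * c := by rw [hcc]
          _ = (c * a * c) * (c * b * c) := by simp only [mul_assoc]
      rw [h1]
      exact Subgroup.mul_mem _ iha ihb
    | inv a ha iha =>
      have h1 : c * a⁻¹ * c = (c * a * c)⁻¹ := by
        rw [mul_inv_rev, mul_inv_rev, hcinv, mul_assoc]
      rw [h1]
      exact Subgroup.inv_mem _ iha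
  have hP : ∀ π ∈ Subgroup.closure (Set.range (sigP (m := m))),
      π ∈ Subgroup.closure (Set.range (sigPD (m := m))) ∨
        π * c ∈ Subgroup.closure (Set.range (sigPD (m := m))) := by
    intro π hπ
    induction hπ using Subgroup.closure_induction with
    | mem x hx =>
      obtain ⟨j, rfl⟩ := hx
      by_cases hj : (j : ℕ) + 1 < m
      · left
        rw [← sigPD_of_lt j hj]
        exact Subgroup.subset_closure ⟨j, rfl⟩
      · right
        have hjl : j = l := Fin.ext (by have := j.2; omega)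
        rw [hjl, hsigPl, hcc]
        exact Subgroup.one_mem _
    | one =>
      left
      exact Subgroup.one_mem _
    | mul a b ha hb iha ihb =>
      rcases iha with h1 | h1 <;> rcases ihb with h2 | h2
      · left
        exact Subgroup.mul_mem _ h1 h2
      · right
        rw [mul_assoc]
        exact Subgroup.mul_mem _ h1 h2
      · right
        have h3 : a * b * c = (a * c) * (c * b * c) := by
          calc a * b * c = a * 1 * b * c := by rw [mul_one]
            _ = a * (c * c) * b * c := by rw [hcc]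
            _ = (a * c) * (c * b * c) := by simp only [mul_assoc]
        rw [h3]
        exact Subgroup.mul_mem _ h1 (hN b h2)
      · left
        have h3 : a * b = (a * c) * (c * (b * c) * c) := by
          calc a * b = a * 1 * b * 1 := by rw [mul_one, mul_one]
            _ = a * (c * c) * b * (c * c) := by rw [hcc]
            _ = (a * c) * (c * (b * c) * c) := by simp only [mul_assoc]
        rw [h3]
        exact Subgroup.mul_mem _ h1 (hN _ h2)
    | inv a ha iha =>
      rcases iha with h1 | h1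
      · left
        exact Subgroup.inv_mem _ h1
      · right
        have h3 : a⁻¹ * c = c * (a * c)⁻¹ * c := by
          rw [mul_inv_rev, hcinv]
          calc a⁻¹ * c = 1 * a⁻¹ * c := by rw [one_mul]
            _ = (c * c) * a⁻¹ * c := by rw [hcc]
            _ = c * (c * a⁻¹) * c := by simp only [mul_assoc]
        rw [h3]
        exact hN _ (Subgroup.inv_mem _ h1)
  have hτ : tauP m ∈ Subgroup.closure (Set.range (sigP (m := m))) :=
    Cfsg.Agent.Helper8.SpBN.p_WGEN (tauP m) (fun b => rfl)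
  rcases hP _ hτ with h | h
  · exact ⟨tauP m, h, fun i _ => tauP_inl i⟩
  · refine ⟨tauP m * c, h, fun i hi => ?_⟩
    have hil : i ≠ l := by
      intro h'
      rw [h'] at hi
      exact hlast hi
    rw [Equiv.Perm.mul_apply, hc_inl i hil, tauP_inl]

end Cfsg.Agent.Helper29.StWD
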