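import Cfsg.Agent.Helper29.Fitting

set_option autoImplicit false

/-!
Sylow 2-subgroups of an involution centraliser (helper29).

`not_two_dvd_index_sylow_centralizer`: if `z` is an involution of the finite group `G`, `T` a Sylow
2-subgroup of `C_G(z)` and `z` is the only involution in the centre of `T`, then `T` is a Sylow
2-subgroup of `G` (its index in `G` is odd).
-/

namespace Cfsg.Agent.Helper29

/-- A central element of order two lies in every Sylow 2-subgroup. -/
theorem mem_sylow_two_of_mem_center {C : Type*} [Group C] {z : C} (hz : orderOf z = 2)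
    (hzc : z ∈ Subgroup.center C) (T : Sylow 2 C) : z ∈ T := by
  have hle : Subgroup.zpowers z ≤ Subgroup.center C := by
    rw [Subgroup.zpowers_le]
    exact hzc
  have hn : (Subgroup.zpowers z).Normal := by
    constructor
    intro n hn g
    have : g * n * g⁻¹ = n := by
      have := Subgroup.mem_center_iff.mp (hle hn) g
      rw [this, mul_inv_cancel_right]
    rw [this]
    exact hn
  have hp : IsPGroup 2 (Subgroup.zpowers z) := by
    apply IsPGroup.of_card (n := 1)
    rw [Nat.card_zpowers, hz, pow_one]
  exact hp.le_sylow_of_normal T (Subgroup.mem_zpowers z)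

/-- If `z` is an involution of the finite group `G`, `T` is a Sylow 2-subgroup of `C_G(z)` and
`z` is the only involution in the centre of `T`, then `T` has odd index in `G`. -/
theorem not_two_dvd_index_sylow_centralizer {G : Type*} [Group G] [Finite G] (z : G)
    (hz : orderOf z = 2) (T : Sylow 2 (Subgroup.centralizer ({z} : Set G)))
    (hT : ∀ x : Subgroup.centralizer ({z} : Set G), x ∈ T → (∀ t ∈ T, x * t = t * x) →
      orderOf x = 2 → (x : G) = z) :
    ¬ 2 ∣ ((T : Subgroup (Subgroup.centralizer ({z} : Set G))).map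
      (Subgroup.subtype (Subgroup.centralizer ({z} : Set G)))).index := by
  classical
  have : Fact (Nat.Prime 2) := ⟨Nat.prime_two⟩
  intro hdvd
  obtain ⟨n, hn⟩ := IsPGroup.iff_card.mp T.isPGroup'
  have hcardT₀ : Nat.card ((T : Subgroup (Subgroup.centralizer ({z} : Set G))).map
      (Subgroup.subtype (Subgroup.centralizer ({z} : Set G)))) = 2 ^ n := by
    rw [← hn]
    exact Nat.card_congr ((T : Subgroup (Subgroup.centralizer ({z} : Set G))).equivMapOfInjective
      _ (Subgroup.subtype_injective _)).symm.toEquiv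
  have hdvd' : 2 ^ (n + 1) ∣ Nat.card G := by
    rw [← Subgroup.card_mul_index ((T : Subgroup (Subgroup.centralizer ({z} : Set G))).map
      (Subgroup.subtype (Subgroup.centralizer ({z} : Set G)))), hcardT₀, pow_succ]
    exact Nat.mul_dvd_mul_left _ hdvd
  obtain ⟨K, hK, hTK⟩ := Sylow.exists_subgroup_card_pow_succ hdvd' hcardT₀
  -- `T₀` has index two in `K`, hence is normal in `K`
  have hidx : (((T : Subgroup (Subgroup.centralizer ({z} : Set G))).map
      (Subgroup.subtype (Subgroup.centralizer ({z} : Set G)))).subgroupOf K).index = 2 := by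
    have h1 := Subgroup.card_mul_index (((T : Subgroup (Subgroup.centralizer ({z} : Set G))).map
      (Subgroup.subtype (Subgroup.centralizer ({z} : Set G)))).subgroupOf K)
    have h2 : Nat.card (((T : Subgroup (Subgroup.centralizer ({z} : Set G))).map
        (Subgroup.subtype (Subgroup.centralizer ({z} : Set G)))).subgroupOf K) = 2 ^ n := by
      rw [← hcardT₀]
      exact Nat.card_congr (Subgroup.subgroupOfEquivOfLe hTK).toEquiv
    rw [h2, hK, pow_succ] at h1
    exact Nat.eq_of_mul_eq_mul_left (by positivity) h1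
  have hnorm := Subgroup.normal_of_index_eq_two hidx
  have hconj : ∀ y ∈ K, ∀ t ∈ (T : Subgroup (Subgroup.centralizer ({z} : Set G))).map
      (Subgroup.subtype (Subgroup.centralizer ({z} : Set G))),
      y * t * y⁻¹ ∈ (T : Subgroup (Subgroup.centralizer ({z} : Set G))).map
      (Subgroup.subtype (Subgroup.centralizer ({z} : Set G))) := by
    intro y hy t ht
    have h := hnorm.conj_mem ⟨t, hTK ht⟩ (Subgroup.mem_subgroupOf.mpr ht) ⟨y, hy⟩
    exact Subgroup.mem_subgroupOf.mp h
  -- `z` lies in `T`
  have hzC : z ∈ Subgroup.centralizer ({z} : Set G) :=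
    Subgroup.mem_centralizer_singleton_iff.mpr rfl
  have hzcenter : (⟨z, hzC⟩ : ↥(Subgroup.centralizer ({z} : Set G))) ∈
      Subgroup.center ↥(Subgroup.centralizer ({z} : Set G)) := by
    rw [Subgroup.mem_center_iff]
    intro c
    exact Subtype.ext (Subgroup.mem_centralizer_singleton_iff.mp c.2)
  have hzT : (⟨z, hzC⟩ : ↥(Subgroup.centralizer ({z} : Set G))) ∈ T :=
    mem_sylow_two_of_mem_center (by rw [Subgroup.orderOf_mk]; exact hz) hzcenter T
  have hzT₀ : z ∈ (T : Subgroup (Subgroup.centralizer ({z} : Set G))).map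
      (Subgroup.subtype (Subgroup.centralizer ({z} : Set G))) := ⟨⟨z, hzC⟩, hzT, rfl⟩
  -- `K` centralises `z`
  have hKC : K ≤ Subgroup.centralizer ({z} : Set G) := by
    intro y hy
    rw [Subgroup.mem_centralizer_singleton_iff]
    obtain ⟨x, hxT, hx⟩ := hconj y hy z hzT₀
    have hx' : (x : G) = y * z * y⁻¹ := hx
    have h2 : (x : G) = z := by
      apply hT x hxT
      · intro t ht
        apply Subtype.ext
        obtain ⟨t', ht', ht'e⟩ := hconj y⁻¹ (K.inv_mem hy) t ⟨t, ht, rfl⟩
        have ht'e' : (t' : G) = y⁻¹ * t * y := by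
          have : (t' : G) = y⁻¹ * t * y⁻¹⁻¹ := ht'e
          rw [this, inv_inv]
        have hcomm : (t' : G) * z = z * (t' : G) :=
          Subgroup.mem_centralizer_singleton_iff.mp t'.2
        rw [ht'e'] at hcomm
        change (x : G) * (t : G) = (t : G) * (x : G)
        rw [hx']
        calc y * z * y⁻¹ * (t : G) = y * (z * (y⁻¹ * t * y)) * y⁻¹ := by group
          _ = y * (y⁻¹ * t * y * z) * y⁻¹ := by rw [hcomm]
          _ = (t : G) * (y * z * y⁻¹) := by group
      · rw [← Subgroup.orderOf_coe, hx', ← hz]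
        exact (MulAut.conj y).orderOf_eq z
    rw [hx'] at h2
    calc y * z = y * z * y⁻¹ * y := by group
      _ = z * y := by rw [h2]
  -- so `K`, viewed in the centraliser, is a 2-group containing `T`
  have hcardK' : Nat.card (K.subgroupOf (Subgroup.centralizer ({z} : Set G))) = 2 ^ (n + 1) := by
    rw [← hK]
    exact Nat.card_congr (Subgroup.subgroupOfEquivOfLe hKC).toEquiv
  have hK2 : IsPGroup 2 (K.subgroupOf (Subgroup.centralizer ({z} : Set G))) :=
    IsPGroup.of_card hcardK'
  have hTle : (T : Subgroup (Subgroup.centralizer ({z} : Set G))) ≤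
      K.subgroupOf (Subgroup.centralizer ({z} : Set G)) :=
    fun t ht => Subgroup.mem_subgroupOf.mpr (hTK ⟨t, ht, rfl⟩)
  have heq := T.is_maximal' hK2 hTle
  rw [heq, hn] at hcardK'
  have : (2 : ℕ) ^ n < 2 ^ (n + 1) := Nat.pow_lt_pow_right (by norm_num) (by omega)
  omega

end Cfsg.Agent.Helper29
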