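import Mathlib
import Cfsg.Prelude.Def_Transfer
import Cfsg.Agent.Helper11.Counting
import Cfsg.Agent.Helper29.ExtraOdd
import Cfsg.Agent.Helper47.Coprime
import Cfsg.Agent.Helper2.PGroup

set_option autoImplicit false

namespace Cfsg.Agent.Helper29

open Subgroup
open scoped commutatorElement

section SympUtil

variable {P : Type*} [Group P]

/-- If `c` is a non-identity power of an element `z` with `z ^ p = 1`, `p` prime, then `z` is a
power of `c`. -/
theorem symp_mem_zpowers_of_ne_one {p : ℕ} (hp : p.Prime) (z c : P) (hzp : z ^ p = 1)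
    (hc : c ∈ zpowers z) (hc1 : c ≠ 1) : z ∈ zpowers c := by
  obtain ⟨i, rfl⟩ := Subgroup.mem_zpowers_iff.mp hc
  have hnd : ¬ (p : ℤ) ∣ i := by
    rintro ⟨k, rfl⟩
    apply hc1
    rw [zpow_mul, zpow_natCast, hzp, one_zpow]
  have hcop : IsCoprime (p : ℤ) i :=
    (Nat.prime_iff_prime_int.mp hp).coprime_iff_not_dvd.mpr hnd
  obtain ⟨a, b, hab⟩ := hcop
  refine Subgroup.mem_zpowers_iff.mpr ⟨b, ?_⟩
  have h1 : (z ^ i) ^ b = z ^ (1 - a * (p : ℤ)) := by
    rw [← zpow_mul]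
    congr 1
    linarith
  rw [h1, zpow_sub, zpow_one, zpow_mul', zpow_natCast, hzp, one_zpow, inv_one, mul_one]

/-- In a group, an element of `zpowers z` with `z ^ 2 = 1` is `1` or `z`. -/
theorem symp_eq_one_or_of_sq (z c : P) (hz2 : z ^ 2 = 1) (hc : c ∈ zpowers z) : c = 1 ∨ c = z := by
  obtain ⟨i, rfl⟩ := Subgroup.mem_zpowers_iff.mp hc
  rcases Int.even_or_odd' i with ⟨k, rfl | rfl⟩
  · left
    rw [zpow_mul, zpow_ofNat, hz2, one_zpow]
  · right
    rw [zpow_add, zpow_mul, zpow_ofNat, hz2, one_zpow, one_mul, zpow_one]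

/-- Two independent elements of order dividing `p` obstruct cyclicity. -/
theorem symp_not_isCyclic [Finite P] {p : ℕ} [hp : Fact p.Prime] (A : Subgroup P) (z t : P)
    (hz : z ∈ A) (ht : t ∈ A) (hz1 : z ≠ 1) (hzp : z ^ p = 1) (htp : t ^ p = 1)
    (htz : t ∉ zpowers z) : ¬ IsCyclic ↥A := by
  intro hcyc
  classical
  haveI := Fintype.ofFinite ↥A
  have h := IsCyclic.card_pow_eq_one_le (α := ↥A) (n := p) hp.out.pos
  have hord : orderOf z = p := orderOf_eq_prime hzp hz1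
  let f : Option (Fin p) → ↥A := fun o =>
    match o with
    | none => ⟨t, ht⟩
    | some i => ⟨z ^ (i : ℕ), A.pow_mem hz _⟩
  have hf : Function.Injective f := by
    intro a b hab
    match a, b with
    | none, none => rfl
    | none, some j =>
      exfalso
      have h1 : t = z ^ (j : ℕ) := congrArg Subtype.val hab
      apply htz
      rw [h1]
      exact Subgroup.pow_mem _ (Subgroup.mem_zpowers z) _
    | some i, none =>
      exfalso
      have h1 : z ^ (i : ℕ) = t := congrArg Subtype.val hab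
      apply htz
      rw [← h1]
      exact Subgroup.pow_mem _ (Subgroup.mem_zpowers z) _
    | some i, some j =>
      have h1 : z ^ (i : ℕ) = z ^ (j : ℕ) := congrArg Subtype.val hab
      have h2 : (i : ℕ) = (j : ℕ) := by
        apply pow_injOn_Iio_orderOf (x := z)
        · rw [Set.mem_Iio, hord]; exact i.2
        · rw [Set.mem_Iio, hord]; exact j.2
        · exact h1
      rw [Fin.ext h2]
  have hsub : Finset.univ.image f ⊆ Finset.univ.filter (fun a : ↥A => a ^ p = 1) := by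
    intro a ha
    rw [Finset.mem_image] at ha
    obtain ⟨o, -, rfl⟩ := ha
    simp only [Finset.mem_filter, Finset.mem_univ, true_and]
    match o with
    | none => exact Subtype.ext htp
    | some i =>
      apply Subtype.ext
      change (z ^ (i : ℕ)) ^ p = 1
      rw [← pow_mul, mul_comm, pow_mul, hzp, one_pow]
  have hcard : (Finset.univ.image f).card = p + 1 := by
    rw [Finset.card_image_of_injective _ hf]
    simp
  have := Finset.card_le_card hsub
  omega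

/-- General elementwise criterion for a finite `p`-group to be extraspecial. -/
theorem isExtraspecial_of_elementwise {p : ℕ} [hp : Fact p.Prime] {E : Type*} [Group E] [Finite E]
    (hE : IsPGroup p E) (z : E) (hz1 : z ≠ 1) (hzp : z ^ p = 1)
    (ha : ∀ x y : E, x * y * x⁻¹ * y⁻¹ ∈ zpowers z)
    (hb : ∀ x : E, x ^ p ∈ zpowers z)
    (hc : ∀ c : E, (∀ y, c * y = y * c) → c ∈ zpowers z)
    (hd : ∀ y : E, z * y = y * z)
    (he : ∃ x y : E, x * y ≠ y * x) : Cfsg.IsExtraspecial p E := by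
  have hzc : z ∈ Subgroup.center E := by
    rw [Subgroup.mem_center_iff]; intro g; exact (hd g).symm
  have hcz : Subgroup.center E = Subgroup.zpowers z := by
    apply le_antisymm
    · intro c hc'
      rw [Subgroup.mem_center_iff] at hc'
      exact hc c (fun y => (hc' y).symm)
    · rw [Subgroup.zpowers_le]; exact hzc
  have hcomm_eq : commutator E = Subgroup.center E := by
    apply le_antisymm
    · rw [commutator_def, Subgroup.commutator_le]
      intro x _ y _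
      rw [commutatorElement_def, hcz]
      exact ha x y
    · rw [hcz, Subgroup.zpowers_le]
      obtain ⟨x, y, hxy⟩ := he
      have h1 : x * y * x⁻¹ * y⁻¹ ≠ 1 := by
        intro h
        apply hxy
        calc x * y = (x * y * x⁻¹ * y⁻¹) * (y * x) := by group
          _ = y * x := by rw [h, one_mul]
      have h2 := symp_mem_zpowers_of_ne_one hp.out z _ hzp (ha x y) h1
      have h3 : x * y * x⁻¹ * y⁻¹ ∈ commutator E := by
        rw [commutator_def, ← commutatorElement_def]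
        exact Subgroup.commutator_mem_commutator (Subgroup.mem_top _) (Subgroup.mem_top _)
      exact (Subgroup.zpowers_le.mpr h3) h2
  have hfr : frattini E = Subgroup.center E := by
    apply le_antisymm
    · rw [← hcomm_eq]
      have h1 := Cfsg.Agent.Helper47.frattini_le_ker (P := E) p (Abelianization.of) (by
        intro x
        rw [← map_pow]
        have hx2 : x ^ p ∈ commutator E := by
          rw [hcomm_eq, hcz]
          exact hb x
        exact MonoidHom.mem_ker.mp (by rw [Abelianization.ker_of]; exact hx2))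
      rw [Abelianization.ker_of] at h1
      exact h1
    · rw [← hcomm_eq]
      exact Cfsg.Agent.Helper2.commutator_le_frattini_of_isPGroup hE
  refine ⟨⟨hE, hfr, hcomm_eq⟩, ?_⟩
  rw [hcz, Nat.card_zpowers]
  exact orderOf_eq_prime hzp hz1

/-- In a cyclic group `⟨u⟩` of order `p ^ n`, the elements killed by `p` are the powers of
`u ^ (p ^ (n - 1))`. -/
theorem symp_omega {p : ℕ} (hp : p.Prime) {u : P} {n : ℕ} (hord : orderOf u = p ^ n) (hn : 1 ≤ n)
    {ζ : P} (hζ : ζ ∈ zpowers u) (hζp : ζ ^ p = 1) : ζ ∈ zpowers (u ^ (p ^ (n - 1))) := by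
  have hfin : IsOfFinOrder u := by
    rw [← orderOf_pos_iff, hord]
    exact pow_pos hp.pos _
  rw [← hfin.mem_powers_iff_mem_zpowers] at hζ
  obtain ⟨k, rfl⟩ := hζ
  rw [← pow_mul] at hζp
  have h2 := orderOf_dvd_of_pow_eq_one hζp
  rw [hord] at h2
  have hn' : n = (n - 1) + 1 := (Nat.sub_add_cancel hn).symm
  have h3 : p ^ (n - 1) ∣ k := by
    rw [hn', pow_succ] at h2
    exact Nat.dvd_of_mul_dvd_mul_right hp.pos h2
  obtain ⟨j, rfl⟩ := h3
  change u ^ (p ^ (n - 1) * j) ∈ zpowers (u ^ p ^ (n - 1))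
  rw [pow_mul]
  exact Subgroup.pow_mem _ (Subgroup.mem_zpowers _) _

/-- Membership in `zpowers` of a subtype element from membership of the value. -/
theorem symp_mem_zpowers_subtype (H : Subgroup P) (z : P) (hz : z ∈ H) (x : ↥H)
    (hx : (x : P) ∈ zpowers z) : x ∈ zpowers (⟨z, hz⟩ : ↥H) := by
  obtain ⟨i, hi⟩ := Subgroup.mem_zpowers_iff.mp hx
  exact Subgroup.mem_zpowers_iff.mpr ⟨i, Subtype.ext (by simpa using hi)⟩

end SympUtil

/-- The setting of a critical subgroup `C` with cyclic centre `Z = C_P(C) = ⟨u⟩` of order `p ^ n`,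
`z₀` the element of order `p` in `Z`. -/
structure SympCore (p : ℕ) {P : Type*} [Group P] (C Z : Subgroup P) (u z₀ : P) (n : ℕ) : Prop where
  ZC : Z ≤ C
  cent : ∀ g : P, (∀ x ∈ C, g * x = x * g) → g ∈ Z
  Zcent : ∀ ζ ∈ Z, ∀ x ∈ C, ζ * x = x * ζ
  Zu : Z = Subgroup.zpowers u
  ord : orderOf u = p ^ n
  npos : 1 ≤ n
  z₀def : z₀ = u ^ (p ^ (n - 1))
  z₀cent : ∀ g : P, g * z₀ = z₀ * g
  pw : ∀ x ∈ C, x ^ p ∈ Z
  comm : ∀ x ∈ C, ∀ g : P, g * x * g⁻¹ * x⁻¹ ∈ Z

namespace SympCore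

variable {p : ℕ} [hp : Fact p.Prime] {P : Type*} [Group P] {C Z : Subgroup P} {u z₀ : P} {n : ℕ}

theorem z₀Z (h : SympCore p C Z u z₀ n) : z₀ ∈ Z := by
  rw [h.Zu, h.z₀def]
  exact Subgroup.pow_mem _ (Subgroup.mem_zpowers u) _

theorem z₀p (h : SympCore p C Z u z₀ n) : z₀ ^ p = 1 := by
  rw [h.z₀def, ← pow_mul, ← pow_succ]
  have : n - 1 + 1 = n := Nat.sub_add_cancel h.npos
  rw [this, ← h.ord, pow_orderOf_eq_one]

theorem z₀ne (h : SympCore p C Z u z₀ n) : z₀ ≠ 1 := by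
  rw [h.z₀def]
  intro h1
  have h2 := orderOf_dvd_of_pow_eq_one h1
  rw [h.ord] at h2
  have h3 : p ^ n ≤ p ^ (n - 1) := Nat.le_of_dvd (pow_pos hp.out.pos _) h2
  have h4 : n ≤ n - 1 := (Nat.pow_le_pow_iff_right hp.out.one_lt).mp h3
  have := h.npos
  omega

theorem orderOf_z₀ (h : SympCore p C Z u z₀ n) : orderOf z₀ = p :=
  orderOf_eq_prime h.z₀p h.z₀ne

/-- Elements of `Z` are natural powers of `u`. -/
theorem exists_pow (h : SympCore p C Z u z₀ n) {ζ : P} (hζ : ζ ∈ Z) : ∃ k : ℕ, ζ = u ^ k := by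
  rw [h.Zu] at hζ
  have hfin : IsOfFinOrder u := by
    rw [← orderOf_pos_iff, h.ord]
    exact pow_pos hp.out.pos _
  rw [← hfin.mem_powers_iff_mem_zpowers] at hζ
  obtain ⟨k, hk⟩ := hζ
  exact ⟨k, hk.symm⟩

theorem pow_mem (h : SympCore p C Z u z₀ n) (k : ℕ) : u ^ k ∈ Z := by
  rw [h.Zu]
  exact Subgroup.pow_mem _ (Subgroup.mem_zpowers u) _

/-- `Ω₁(Z) = ⟨z₀⟩`. -/
theorem omega (h : SympCore p C Z u z₀ n) {ζ : P} (hζ : ζ ∈ Z) (hζp : ζ ^ p = 1) :
    ζ ∈ Subgroup.zpowers z₀ := by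
  obtain ⟨k, rfl⟩ := h.exists_pow hζ
  rw [← pow_mul] at hζp
  have h2 := orderOf_dvd_of_pow_eq_one hζp
  rw [h.ord] at h2
  have hn : n = (n - 1) + 1 := (Nat.sub_add_cancel h.npos).symm
  have h3 : p ^ (n - 1) ∣ k := by
    rw [hn, pow_succ] at h2
    exact Nat.dvd_of_mul_dvd_mul_right hp.out.pos h2
  obtain ⟨j, rfl⟩ := h3
  rw [pow_mul, ← h.z₀def]
  exact Subgroup.pow_mem _ (Subgroup.mem_zpowers z₀) _

/-- Elements of `⟨z₀⟩` are central. -/
theorem cent_of_mem (h : SympCore p C Z u z₀ n) {w : P} (hw : w ∈ Subgroup.zpowers z₀) (g : P) :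
    g * w = w * g := by
  obtain ⟨i, rfl⟩ := Subgroup.mem_zpowers_iff.mp hw
  exact ((show Commute g z₀ from h.z₀cent g).zpow_right i).eq

theorem zpowers_le (h : SympCore p C Z u z₀ n) : Subgroup.zpowers z₀ ≤ Z := by
  rw [Subgroup.zpowers_le]; exact h.z₀Z

theorem pow_p_of_mem (h : SympCore p C Z u z₀ n) {w : P} (hw : w ∈ Subgroup.zpowers z₀) :
    w ^ p = 1 := by
  obtain ⟨i, rfl⟩ := Subgroup.mem_zpowers_iff.mp hw
  rw [← zpow_natCast, ← zpow_mul, mul_comm, zpow_mul, zpow_natCast, h.z₀p, one_zpow]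

/-- Commutators of elements of `C` lie in `⟨z₀⟩`. -/
theorem comm_mem (h : SympCore p C Z u z₀ n) {x y : P} (hx : x ∈ C) (hy : y ∈ C) :
    x * y * x⁻¹ * y⁻¹ ∈ Subgroup.zpowers z₀ := by
  have hc : x * y * x⁻¹ * y⁻¹ ∈ Z := h.comm y hy x
  apply h.omega hc
  have hcy : Commute (x * y * x⁻¹ * y⁻¹) y := h.Zcent _ hc y hy
  have h1 : x * y * x⁻¹ = (x * y * x⁻¹ * y⁻¹) * y := by group
  have h2 : (x * y * x⁻¹) ^ p = x * y ^ p * x⁻¹ := (conj_pow (a := x) (b := y) (i := p))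
  have h3 : x * y ^ p * x⁻¹ = y ^ p := by
    have := h.Zcent _ (h.pw y hy) x hx
    rw [← this, mul_inv_cancel_right]
  rw [h1, hcy.mul_pow, h3] at h2
  exact mul_eq_right.mp h2

/-- Commutators `[g, e]` for `e ∈ C` with `e ^ p ∈ ⟨z₀⟩` lie in `⟨z₀⟩`, for all `g`. -/
theorem comm_mem_of_pow (h : SympCore p C Z u z₀ n) {e : P} (he : e ∈ C)
    (hep : e ^ p ∈ Subgroup.zpowers z₀) (g : P) : g * e * g⁻¹ * e⁻¹ ∈ Subgroup.zpowers z₀ := by
  have hc : g * e * g⁻¹ * e⁻¹ ∈ Z := h.comm e he g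
  apply h.omega hc
  have hce : Commute (g * e * g⁻¹ * e⁻¹) e := h.Zcent _ hc e he
  have h1 : g * e * g⁻¹ = (g * e * g⁻¹ * e⁻¹) * e := by group
  have h2 : (g * e * g⁻¹) ^ p = g * e ^ p * g⁻¹ := (conj_pow (a := g) (b := e) (i := p))
  have h3 : g * e ^ p * g⁻¹ = e ^ p := by
    rw [h.cent_of_mem hep g]; group
  rw [h1, hce.mul_pow, h3] at h2
  exact mul_eq_right.mp h2

/-- The power formula in `C`. -/
theorem mul_pow_p (h : SympCore p C Z u z₀ n) {x y : P} (hx : x ∈ C) (hy : y ∈ C) :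
    ∃ w ∈ Subgroup.zpowers z₀, (x * y) ^ p = x ^ p * y ^ p * w ∧ (p ≠ 2 → w = 1) := by
  have hc : ⁅y, x⁆ ∈ Subgroup.zpowers z₀ := by
    rw [commutatorElement_def]; exact h.comm_mem hy hx
  refine ⟨⁅y, x⁆ ^ (p.choose 2), Subgroup.pow_mem _ hc _, ?_, ?_⟩
  · exact Cfsg.Agent.Helper11.mul_pow_of_commute_commutator x y
      (h.cent_of_mem hc x).symm (h.cent_of_mem hc y).symm p
  · intro hp2
    have h2 : p ∣ p.choose 2 := by
      apply hp.out.dvd_choose_self (by norm_num)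
      have := hp.out.two_le
      omega
    obtain ⟨k, hk⟩ := h2
    rw [hk, pow_mul, h.pow_p_of_mem hc, one_pow]

/-- Adjusting an element to commute with a non-commuting pair of `C`. -/
theorem adjust (h : SympCore p C Z u z₀ n) {x y : P} (hx : x ∈ C) (hy : y ∈ C)
    (hxy : x * y ≠ y * x) (g : P) (hgx : g * x * g⁻¹ * x⁻¹ ∈ Subgroup.zpowers z₀)
    (hgy : g * y * g⁻¹ * y⁻¹ ∈ Subgroup.zpowers z₀) :
    ∃ l m : ℕ, (x ^ l * y ^ m * g) * x = x * (x ^ l * y ^ m * g) ∧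
      (x ^ l * y ^ m * g) * y = y * (x ^ l * y ^ m * g) := by
  have hwm : y * x * y⁻¹ * x⁻¹ ∈ Subgroup.zpowers z₀ := h.comm_mem hy hx
  have hw1 : y * x * y⁻¹ * x⁻¹ ≠ 1 := by
    intro h1
    apply hxy
    calc x * y = (y * x * y⁻¹ * x⁻¹)⁻¹ * (y * x) := by group
      _ = y * x := by rw [h1, inv_one, one_mul]
  have hz₀w : z₀ ∈ Subgroup.zpowers (y * x * y⁻¹ * x⁻¹) :=
    symp_mem_zpowers_of_ne_one hp.out z₀ _ h.z₀p hwm hw1
  obtain ⟨i, hi⟩ : ∃ i : ℤ, g * x * g⁻¹ * x⁻¹ = (y * x * y⁻¹ * x⁻¹) ^ i := by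
    have : g * x * g⁻¹ * x⁻¹ ∈ Subgroup.zpowers (y * x * y⁻¹ * x⁻¹) :=
      (Subgroup.zpowers_le.mpr hz₀w) hgx
    obtain ⟨i, hi⟩ := Subgroup.mem_zpowers_iff.mp this
    exact ⟨i, hi.symm⟩
  obtain ⟨m, hm⟩ := exists_pow_mul_comm hp.out.pos y x (y * x * y⁻¹ * x⁻¹) g rfl
    (fun t => h.cent_of_mem hwm t) (h.pow_p_of_mem hwm) i hi
  have hw'm : x * y * x⁻¹ * y⁻¹ ∈ Subgroup.zpowers z₀ := h.comm_mem hx hy
  have hw'1 : x * y * x⁻¹ * y⁻¹ ≠ 1 := by
    intro h1
    apply hxy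
    calc x * y = (x * y * x⁻¹ * y⁻¹) * (y * x) := by group
      _ = y * x := by rw [h1, one_mul]
  have hz₀w' : z₀ ∈ Subgroup.zpowers (x * y * x⁻¹ * y⁻¹) :=
    symp_mem_zpowers_of_ne_one hp.out z₀ _ h.z₀p hw'm hw'1
  have hg'y : (y ^ m * g) * y * (y ^ m * g)⁻¹ * y⁻¹ = g * y * g⁻¹ * y⁻¹ := by
    have hc := h.cent_of_mem hgy
    calc (y ^ m * g) * y * (y ^ m * g)⁻¹ * y⁻¹
        = y ^ m * (g * y * g⁻¹ * y⁻¹) * y * (y ^ m)⁻¹ * y⁻¹ := by group
      _ = (g * y * g⁻¹ * y⁻¹) * y ^ m * y * (y ^ m)⁻¹ * y⁻¹ := by rw [hc (y ^ m)]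
      _ = g * y * g⁻¹ * y⁻¹ := by group
  obtain ⟨j, hj⟩ : ∃ j : ℤ, (y ^ m * g) * y * (y ^ m * g)⁻¹ * y⁻¹ = (x * y * x⁻¹ * y⁻¹) ^ j := by
    have : g * y * g⁻¹ * y⁻¹ ∈ Subgroup.zpowers (x * y * x⁻¹ * y⁻¹) :=
      (Subgroup.zpowers_le.mpr hz₀w') hgy
    obtain ⟨j, hj⟩ := Subgroup.mem_zpowers_iff.mp this
    exact ⟨j, by rw [hg'y]; exact hj.symm⟩
  obtain ⟨l, hl⟩ := exists_pow_mul_comm hp.out.pos x y (x * y * x⁻¹ * y⁻¹) (y ^ m * g) rfl
    (fun t => h.cent_of_mem hw'm t) (h.pow_p_of_mem hw'm) j hj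
  refine ⟨l, m, ?_, ?_⟩
  · calc x ^ l * y ^ m * g * x = x ^ l * ((y ^ m * g) * x) := by group
      _ = x ^ l * (x * (y ^ m * g)) := by rw [hm]
      _ = x * (x ^ l * y ^ m * g) := by group
  · calc x ^ l * y ^ m * g * y = (x ^ l * (y ^ m * g)) * y := by group
      _ = y * (x ^ l * (y ^ m * g)) := hl
      _ = y * (x ^ l * y ^ m * g) := by group

/-- A subgroup in which some element does not commute with `t` has a centralizer of `t` of
index `p`, when all commutators with `t` lie in `⟨z₀⟩`. -/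
theorem card_centralizer (h : SympCore p C Z u z₀ n) (H : Subgroup P) (t : P)
    (hH : ∀ g ∈ H, g * t * g⁻¹ * t⁻¹ ∈ Subgroup.zpowers z₀) (g₀ : P) (hg₀ : g₀ ∈ H)
    (hg₀t : g₀ * t ≠ t * g₀) :
    Nat.card H = p * Nat.card (H ⊓ Subgroup.centralizer {t} : Subgroup P) := by
  let φ : ↥H →* ↥(Subgroup.zpowers z₀) :=
    { toFun := fun g => ⟨(g : P) * t * (g : P)⁻¹ * t⁻¹, hH g g.2⟩
      map_one' := by apply Subtype.ext; simp
      map_mul' := by
        intro a b
        apply Subtype.ext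
        change ((a : P) * (b : P)) * t * ((a : P) * (b : P))⁻¹ * t⁻¹ =
          ((a : P) * t * (a : P)⁻¹ * t⁻¹) * ((b : P) * t * (b : P)⁻¹ * t⁻¹)
        have hc := h.cent_of_mem (hH b b.2)
        calc ((a : P) * (b : P)) * t * ((a : P) * (b : P))⁻¹ * t⁻¹
            = (a : P) * ((b : P) * t * (b : P)⁻¹ * t⁻¹) * t * (a : P)⁻¹ * t⁻¹ := by group
          _ = ((b : P) * t * (b : P)⁻¹ * t⁻¹) * ((a : P) * t * (a : P)⁻¹ * t⁻¹) := by
            rw [hc (a : P)]; group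
          _ = ((a : P) * t * (a : P)⁻¹ * t⁻¹) * ((b : P) * t * (b : P)⁻¹ * t⁻¹) :=
            (hc _).symm }
  have hφ : ∀ g : ↥H, ((φ g : ↥(Subgroup.zpowers z₀)) : P) = (g : P) * t * (g : P)⁻¹ * t⁻¹ :=
    fun g => rfl
  have hker : φ.ker = (H ⊓ Subgroup.centralizer {t}).subgroupOf H := by
    ext g
    rw [MonoidHom.mem_ker, Subgroup.mem_subgroupOf, Subgroup.mem_inf,
      Subgroup.mem_centralizer_singleton_iff]
    constructor
    · intro hg
      have h1 : (g : P) * t * (g : P)⁻¹ * t⁻¹ = 1 := by rw [← hφ, hg]; rfl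
      refine ⟨g.2, ?_⟩
      calc (g : P) * t = ((g : P) * t * (g : P)⁻¹ * t⁻¹) * (t * g) := by group
        _ = t * g := by rw [h1, one_mul]
    · rintro ⟨-, hg⟩
      apply Subtype.ext
      rw [hφ, hg]
      simp
  have hrange : φ.range = ⊤ := by
    haveI : Fact (Nat.card ↥(Subgroup.zpowers z₀)).Prime :=
      ⟨by rw [Nat.card_zpowers, h.orderOf_z₀]; exact hp.out⟩
    rcases Subgroup.eq_bot_or_eq_top_of_prime_card φ.range with hb | ht
    · exfalso
      have hmem : φ ⟨g₀, hg₀⟩ ∈ φ.range := ⟨_, rfl⟩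
      rw [hb, Subgroup.mem_bot] at hmem
      have h1 : g₀ * t * g₀⁻¹ * t⁻¹ = 1 := by
        have := hφ ⟨g₀, hg₀⟩
        rw [hmem] at this
        exact this.symm
      apply hg₀t
      calc g₀ * t = (g₀ * t * g₀⁻¹ * t⁻¹) * (t * g₀) := by group
        _ = t * g₀ := by rw [h1, one_mul]
    · exact ht
  have h1 : Nat.card ↥H = Nat.card φ.ker * φ.ker.index := (Subgroup.card_mul_index φ.ker).symm
  rw [Subgroup.index_ker, hrange, Subgroup.card_top, Nat.card_zpowers, h.orderOf_z₀, hker] at h1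
  rw [h1, mul_comm]
  congr 1
  exact Nat.card_congr (Subgroup.subgroupOfEquivOfLe inf_le_left).toEquiv

/-- One step of the recursion: the common centralizer of a non-commuting pair has index
`p ^ 2`. -/
theorem card_step (h : SympCore p C Z u z₀ n) (K : Subgroup P) (hKC : K ≤ C) {x y : P}
    (hx : x ∈ K) (hy : y ∈ K) (hxy : x * y ≠ y * x) :
    Nat.card K = p ^ 2 *
      Nat.card (K ⊓ Subgroup.centralizer {x} ⊓ Subgroup.centralizer {y} : Subgroup P) := by
  have h1 := h.card_centralizer K x (fun g hg => h.comm_mem (hKC hg) (hKC hx)) y hy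
    (fun e => hxy e.symm)
  have h2 := h.card_centralizer (K ⊓ Subgroup.centralizer {x}) y
    (fun g hg => h.comm_mem (hKC hg.1) (hKC hy)) x
    ⟨hx, Subgroup.mem_centralizer_singleton_iff.mpr rfl⟩ hxy
  rw [h1, h2]; ring

/-- One step of the recursion: the centre condition is inherited. -/
theorem center_step (h : SympCore p C Z u z₀ n) (K : Subgroup P) (hKC : K ≤ C) {x y : P}
    (hx : x ∈ K) (hy : y ∈ K) (hxy : x * y ≠ y * x)
    (hK : ∀ k ∈ K, (∀ k' ∈ K, k * k' = k' * k) → k ∈ Z) :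
    ∀ k ∈ (K ⊓ Subgroup.centralizer {x} ⊓ Subgroup.centralizer {y} : Subgroup P),
      (∀ k' ∈ (K ⊓ Subgroup.centralizer {x} ⊓ Subgroup.centralizer {y} : Subgroup P),
        k * k' = k' * k) → k ∈ Z := by
  intro k hk hkc
  apply hK k hk.1.1
  intro k' hk'
  obtain ⟨l, m, h1, h2⟩ := h.adjust (hKC hx) (hKC hy) hxy k'
    (h.comm_mem (hKC hk') (hKC hx)) (h.comm_mem (hKC hk') (hKC hy))
  have hmem : x ^ l * y ^ m * k' ∈
      (K ⊓ Subgroup.centralizer {x} ⊓ Subgroup.centralizer {y} : Subgroup P) :=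
    ⟨⟨K.mul_mem (K.mul_mem (K.pow_mem hx l) (K.pow_mem hy m)) hk',
      Subgroup.mem_centralizer_singleton_iff.mpr h1⟩,
      Subgroup.mem_centralizer_singleton_iff.mpr h2⟩
  have h3 := hkc _ hmem
  have hkx : k * x = x * k := Subgroup.mem_centralizer_singleton_iff.mp hk.1.2
  have hky : k * y = y * k := Subgroup.mem_centralizer_singleton_iff.mp hk.2
  have hs : k * (x ^ l * y ^ m) = (x ^ l * y ^ m) * k :=
    ((Commute.pow_right hkx l).mul_right (Commute.pow_right hky m)).eq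
  have h4 : (x ^ l * y ^ m) * (k * k') = (x ^ l * y ^ m) * (k' * k) := by
    calc (x ^ l * y ^ m) * (k * k') = (k * (x ^ l * y ^ m)) * k' := by rw [hs]; group
      _ = k * (x ^ l * y ^ m * k') := by group
      _ = (x ^ l * y ^ m * k') * k := h3
      _ = (x ^ l * y ^ m) * (k' * k) := by group
  exact mul_left_cancel h4

/-- Parity: a subgroup `K` between `Z` and `C` with centre `Z` has `|K : Z|` a square. -/
theorem card_eq_sq (h : SympCore p C Z u z₀ n) [Finite P] : ∀ m : ℕ, ∀ K : Subgroup P,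
    Nat.card K ≤ m → Z ≤ K → K ≤ C → (∀ k ∈ K, (∀ k' ∈ K, k * k' = k' * k) → k ∈ Z) →
    ∃ r : ℕ, Nat.card K = p ^ (2 * r) * Nat.card Z := by
  intro m
  induction m with
  | zero =>
    intro K hm
    exfalso
    have := Nat.card_pos (α := ↥K)
    omega
  | succ m ih =>
    intro K hm hZK hKC hK
    by_cases hKZ : K ≤ Z
    · refine ⟨0, ?_⟩
      rw [le_antisymm hKZ hZK]; simp
    · obtain ⟨x, hxK, hxZ⟩ := SetLike.not_le_iff_exists.mp hKZ
      have hex : ∃ y ∈ K, x * y ≠ y * x := by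
        by_contra hcon
        push Not at hcon
        exact hxZ (hK x hxK hcon)
      obtain ⟨y, hyK, hxy⟩ := hex
      have hcard := h.card_step K hKC hxK hyK hxy
      have hZK₁ : Z ≤ (K ⊓ Subgroup.centralizer {x} ⊓ Subgroup.centralizer {y} : Subgroup P) := by
        intro ζ hζ
        exact ⟨⟨hZK hζ, Subgroup.mem_centralizer_singleton_iff.mpr (h.Zcent ζ hζ x (hKC hxK))⟩,
          Subgroup.mem_centralizer_singleton_iff.mpr (h.Zcent ζ hζ y (hKC hyK))⟩
      have hlt : Nat.card (K ⊓ Subgroup.centralizer {x} ⊓ Subgroup.centralizer {y} : Subgroup P)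
          ≤ m := by
        have hpos : 0 < Nat.card
            (K ⊓ Subgroup.centralizer {x} ⊓ Subgroup.centralizer {y} : Subgroup P) := Nat.card_pos
        have h2 : 2 ≤ p := hp.out.two_le
        have h4 : 4 ≤ p ^ 2 := by nlinarith
        have h5 := Nat.mul_le_mul_right (Nat.card
            (K ⊓ Subgroup.centralizer {x} ⊓ Subgroup.centralizer {y} : Subgroup P)) h4
        rw [← hcard] at h5
        omega
      obtain ⟨r, hr⟩ := ih _ hlt hZK₁ (inf_le_left.trans (inf_le_left.trans hKC))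
        (h.center_step K hKC hxK hyK hxy hK)
      refine ⟨r + 1, ?_⟩
      rw [hcard, hr]; ring

/-- In the symplectic-type situation with `|Z| ≥ p ^ 2`, the `p`-th power of every element of
`C` is the `p`-th power of an element of `Z`. -/
theorem exists_pow_eq (h : SympCore p C Z u z₀ n) [Finite P] (hCchar : C.Characteristic)
    (hZchar : Z.Characteristic)
    (hsymp : ∀ A : Subgroup P, A.Characteristic → IsMulCommutative A → IsCyclic A) (hn : 2 ≤ n) :
    ∀ x ∈ C, ∃ ζ ∈ Z, x ^ p = ζ ^ p := by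
  have hz₀ : ∃ ξ ∈ Z, ξ ^ p = z₀ := by
    refine ⟨u ^ (p ^ (n - 2)), h.pow_mem _, ?_⟩
    rw [h.z₀def, ← pow_mul, ← pow_succ]
    congr 2
    omega
  have hzp : ∀ w ∈ Subgroup.zpowers z₀, ∃ ξ ∈ Z, ξ ^ p = w := by
    intro w hw
    obtain ⟨ξ, hξ, hξp⟩ := hz₀
    obtain ⟨i, rfl⟩ := Subgroup.mem_zpowers_iff.mp hw
    refine ⟨ξ ^ i, Z.zpow_mem hξ i, ?_⟩
    rw [← hξp, ← zpow_natCast, ← zpow_natCast, ← zpow_mul, ← zpow_mul, mul_comm]
  let D : Subgroup P :=
    { carrier := {x | x ∈ C ∧ ∃ ζ ∈ Z, x ^ p = ζ ^ p}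
      mul_mem' := by
        rintro a b ⟨ha, ζa, hζa, hap⟩ ⟨hb, ζb, hζb, hbp⟩
        refine ⟨C.mul_mem ha hb, ?_⟩
        obtain ⟨w, hw, hmul, -⟩ := h.mul_pow_p ha hb
        obtain ⟨ξ, hξ, hξp⟩ := hzp w hw
        refine ⟨ζa * ζb * ξ, Z.mul_mem (Z.mul_mem hζa hζb) hξ, ?_⟩
        have c1 : Commute ζa ζb := h.Zcent ζa hζa ζb (h.ZC hζb)
        have c2 : Commute (ζa * ζb) ξ := h.Zcent _ (Z.mul_mem hζa hζb) ξ (h.ZC hξ)
        rw [hmul, hap, hbp, c2.mul_pow, c1.mul_pow, hξp]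
      one_mem' := ⟨C.one_mem, 1, Z.one_mem, by simp⟩
      inv_mem' := by
        rintro a ⟨ha, ζ, hζ, hap⟩
        exact ⟨C.inv_mem ha, ζ⁻¹, Z.inv_mem hζ, by rw [inv_pow, inv_pow, hap]⟩ }
  by_contra hcon
  push Not at hcon
  obtain ⟨x₀, hx₀C, hx₀⟩ := hcon
  have hx₀D : x₀ ∉ D := fun hx => by
    obtain ⟨ζ, hζ, he⟩ := hx.2
    exact hx₀ ζ hζ he
  have hDC : D ≤ C := fun x hx => hx.1
  have hZD : Z ≤ D := fun ζ hζ => ⟨h.ZC hζ, ζ, hζ, rfl⟩
  have hDchar : D.Characteristic := by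
    rw [Subgroup.characteristic_iff_map_le]
    intro φ x hx
    obtain ⟨a, ⟨haC, ζ, hζ, hap⟩, rfl⟩ := hx
    refine ⟨Subgroup.characteristic_iff_map_le.mp hCchar φ ⟨a, haC, rfl⟩, φ ζ,
      Subgroup.characteristic_iff_map_le.mp hZchar φ ⟨ζ, hζ, rfl⟩, ?_⟩
    change (φ a) ^ p = (φ ζ) ^ p
    rw [← map_pow, ← map_pow, hap]
  have hZDchar : (D ⊓ Subgroup.centralizer (D : Set P)).Characteristic := by
    haveI := hDchar
    infer_instance
  have hZDab : IsMulCommutative ↥(D ⊓ Subgroup.centralizer (D : Set P)) :=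
    ⟨⟨fun a b => Subtype.ext (Subgroup.mem_centralizer_iff.mp b.2.2 a.1 a.2.1)⟩⟩
  have hcyc := hsymp _ hZDchar hZDab
  have hA : ∀ k ∈ D, (∀ k' ∈ D, k * k' = k' * k) → k ∈ Z := by
    intro t htD htc
    by_contra htZ
    obtain ⟨ζ, hζ, htp⟩ := htD.2
    have ht' : t * ζ⁻¹ ∈ D ⊓ Subgroup.centralizer (D : Set P) := by
      refine Subgroup.mem_inf.mpr ⟨D.mul_mem htD (D.inv_mem (hZD hζ)), ?_⟩
      rw [Subgroup.mem_centralizer_iff]
      intro d hd
      have h1 : t * d = d * t := htc d hd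
      have h2 : ζ⁻¹ * d = d * ζ⁻¹ := h.Zcent _ (Z.inv_mem hζ) d (hDC hd)
      calc d * (t * ζ⁻¹) = (d * t) * ζ⁻¹ := by group
        _ = t * (d * ζ⁻¹) := by rw [← h1]; group
        _ = t * ζ⁻¹ * d := by rw [← h2]; group
    have hz₀' : z₀ ∈ D ⊓ Subgroup.centralizer (D : Set P) :=
      Subgroup.mem_inf.mpr ⟨hZD h.z₀Z, by
        rw [Subgroup.mem_centralizer_iff]; intro d _; exact h.z₀cent d⟩
    have ht'p : (t * ζ⁻¹) ^ p = 1 := by
      have c : Commute t ζ⁻¹ := (h.Zcent _ (Z.inv_mem hζ) t htD.1).symm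
      rw [c.mul_pow, htp, inv_pow, mul_inv_cancel]
    have ht'z : t * ζ⁻¹ ∉ Subgroup.zpowers z₀ := by
      intro hm
      apply htZ
      have := Z.mul_mem (h.zpowers_le hm) hζ
      simpa using this
    exact symp_not_isCyclic _ z₀ (t * ζ⁻¹) hz₀' ht' h.z₀ne h.z₀p ht'p ht'z hcyc
  obtain ⟨r', hr'⟩ := h.card_eq_sq _ D le_rfl hZD hDC hA
  obtain ⟨r, hr⟩ := h.card_eq_sq _ C le_rfl h.ZC le_rfl
    (fun k _ hkc => h.cent k (fun x hx => hkc x hx))
  have key : ∀ x ∈ C, ∃ i : Fin p, x₀ ^ (i : ℕ) * x ∈ D := by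
    intro x hx
    obtain ⟨j, hj⟩ := h.exists_pow (h.pw x₀ hx₀C)
    obtain ⟨k, hk⟩ := h.exists_pow (h.pw x hx)
    have hpj : ¬ p ∣ j := by
      rintro ⟨j', rfl⟩
      exact hx₀ (u ^ j') (h.pow_mem j') (by rw [hj, mul_comm, pow_mul])
    haveI : NeZero p := ⟨hp.out.ne_zero⟩
    have hj0 : (j : ZMod p) ≠ 0 := by
      rwa [Ne, ZMod.natCast_eq_zero_iff]
    have hi : (((-(k : ZMod p) * (j : ZMod p)⁻¹).val * j + k : ℕ) : ZMod p) = 0 := by
      push_cast
      rw [ZMod.natCast_zmod_val]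
      field_simp
      ring
    obtain ⟨q, hq⟩ := (ZMod.natCast_eq_zero_iff _ _).mp hi
    refine ⟨⟨(-(k : ZMod p) * (j : ZMod p)⁻¹).val, ZMod.val_lt _⟩, ?_⟩
    refine ⟨C.mul_mem (C.pow_mem hx₀C _) hx, ?_⟩
    obtain ⟨w, hw, hmul, -⟩ := h.mul_pow_p (C.pow_mem hx₀C (-(k : ZMod p) * (j : ZMod p)⁻¹).val) hx
    obtain ⟨ξ, hξ, hξp⟩ := hzp w hw
    refine ⟨u ^ q * ξ, Z.mul_mem (h.pow_mem q) hξ, ?_⟩
    have c : Commute (u ^ q) ξ := h.Zcent _ (h.pow_mem q) ξ (h.ZC hξ)
    calc (x₀ ^ (-(k : ZMod p) * (j : ZMod p)⁻¹).val * x) ^ p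
        = (x₀ ^ (-(k : ZMod p) * (j : ZMod p)⁻¹).val) ^ p * x ^ p * w := hmul
      _ = u ^ ((-(k : ZMod p) * (j : ZMod p)⁻¹).val * j + k) * w := by
        rw [← pow_mul, mul_comm _ p, pow_mul, hj, hk, ← pow_mul, ← pow_add, mul_comm j]
      _ = (u ^ q) ^ p * ξ ^ p := by rw [hq, hξp, mul_comm p q, pow_mul]
      _ = (u ^ q * ξ) ^ p := (c.mul_pow p).symm
  have hle : Nat.card C ≤ p * Nat.card D := by
    classical
    choose f hf using key
    have hinj : Function.Injective (fun x : ↥C =>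
        ((f x.1 x.2, (⟨x₀ ^ (f x.1 x.2 : ℕ) * x.1, hf x.1 x.2⟩ : ↥D)) : Fin p × ↥D)) := by
      intro a b hab
      simp only [Prod.mk.injEq, Subtype.mk.injEq] at hab
      obtain ⟨e1, e2⟩ := hab
      rw [e1] at e2
      exact Subtype.ext (mul_left_cancel e2)
    have := Nat.card_le_card_of_injective _ hinj
    simpa [Nat.card_prod] using this
  have hlt : Nat.card D < Nat.card C := by
    by_contra hge
    push Not at hge
    have := Subgroup.eq_of_le_of_card_ge hDC hge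
    exact hx₀D (this ▸ hx₀C)
  have hZpos : 0 < Nat.card Z := Nat.card_pos
  have h1 : p ^ (2 * r') < p ^ (2 * r) := by
    rw [hr', hr] at hlt
    exact lt_of_mul_lt_mul_right hlt (Nat.zero_le _)
  have h2 : 2 * r' < 2 * r := (Nat.pow_lt_pow_iff_right hp.out.one_lt).mp h1
  have h3 : p ^ (2 * r) ≤ p ^ (2 * r' + 1) := by
    rw [hr', hr] at hle
    rw [pow_succ']
    have h5 : p ^ (2 * r) * Nat.card Z ≤ (p * p ^ (2 * r')) * Nat.card Z := by
      rw [mul_assoc]; exact hle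
    exact Nat.le_of_mul_le_mul_right h5 hZpos
  have h4 : 2 * r ≤ 2 * r' + 1 := (Nat.pow_le_pow_iff_right hp.out.one_lt).mp h3
  omega

/-- The pool of generators for the extraspecial part. -/
def pool (h : SympCore p C Z u z₀ n) : Subgroup P where
  carrier := {x | x ∈ C ∧ x ^ p ∈ Subgroup.zpowers z₀ ∧ (p ≠ 2 → 2 ≤ n → x ^ p = 1)}
  mul_mem' := by
    rintro a b ⟨ha, hap, hao⟩ ⟨hb, hbp, hbo⟩
    obtain ⟨w, hw, hmul, hw1⟩ := h.mul_pow_p ha hb
    refine ⟨C.mul_mem ha hb, ?_, ?_⟩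
    · rw [hmul]; exact mul_mem (mul_mem hap hbp) hw
    · intro hp2 hn
      rw [hmul, hao hp2 hn, hbo hp2 hn, hw1 hp2]; simp
  one_mem' := ⟨C.one_mem, by rw [one_pow]; exact one_mem _, fun _ _ => one_pow _⟩
  inv_mem' := by
    rintro a ⟨ha, hap, hao⟩
    exact ⟨C.inv_mem ha, by rw [inv_pow]; exact inv_mem hap,
      fun hp2 hn => by rw [inv_pow, hao hp2 hn, inv_one]⟩

theorem mem_pool (h : SympCore p C Z u z₀ n) (x : P) :
    x ∈ h.pool ↔ x ∈ C ∧ x ^ p ∈ Subgroup.zpowers z₀ ∧ (p ≠ 2 → 2 ≤ n → x ^ p = 1) := Iff.rfl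

theorem z₀_mem_pool (h : SympCore p C Z u z₀ n) : z₀ ∈ h.pool :=
  ⟨h.ZC h.z₀Z, by rw [h.z₀p]; exact one_mem _, fun _ _ => h.z₀p⟩

theorem exists_mul_mem_pool (h : SympCore p C Z u z₀ n) [Finite P] (hCchar : C.Characteristic)
    (hZchar : Z.Characteristic)
    (hsymp : ∀ A : Subgroup P, A.Characteristic → IsMulCommutative A → IsCyclic A) :
    ∀ x ∈ C, ∃ ζ ∈ Z, x * ζ ∈ h.pool := by
  intro x hx
  by_cases hn : 2 ≤ n
  · obtain ⟨ζ, hζ, hxp⟩ := h.exists_pow_eq hCchar hZchar hsymp hn x hx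
    have c : Commute x ζ⁻¹ := (h.Zcent _ (Z.inv_mem hζ) x hx).symm
    have e : (x * ζ⁻¹) ^ p = 1 := by rw [c.mul_pow, hxp, inv_pow, mul_inv_cancel]
    refine ⟨ζ⁻¹, Z.inv_mem hζ, C.mul_mem hx (h.ZC (Z.inv_mem hζ)), ?_, ?_⟩
    · rw [e]; exact one_mem _
    · intro _ _; exact e
  · have hn1 : n = 1 := by have := h.npos; omega
    refine ⟨1, Z.one_mem, by simpa using hx, ?_, ?_⟩
    · have hz : z₀ = u := by rw [h.z₀def, hn1]; simp
      rw [mul_one, hz, ← h.Zu]; exact h.pw x hx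
    · intro _ h2; omega

/-- The recursive construction of the extraspecial part. -/
theorem exists_core (h : SympCore p C Z u z₀ n) [Finite P] (F₀ : Subgroup P)
    (hF2 : ∀ f ∈ F₀, f ^ p ∈ Subgroup.zpowers z₀) (hF3 : ∀ x ∈ C, ∃ ζ ∈ Z, x * ζ ∈ F₀)
    (hF4 : z₀ ∈ F₀) :
    ∀ m : ℕ, ∀ K : Subgroup P, Nat.card K ≤ m → Z ≤ K → K ≤ C →
      (∀ k ∈ K, (∀ k' ∈ K, k * k' = k' * k) → k ∈ Z) →
      ∃ E : Subgroup P, E ≤ K ∧ E ≤ F₀ ∧ z₀ ∈ E ∧
        (∀ k ∈ K, ∃ e ∈ E, ∃ ζ ∈ Z, k = e * ζ) ∧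
        (∀ e ∈ E, e ∈ Z → e ∈ Subgroup.zpowers z₀) ∧
        (∀ g : P, (∀ e ∈ E, g * e * g⁻¹ * e⁻¹ ∈ Subgroup.zpowers z₀) →
          ∃ e ∈ E, ∀ e' ∈ E, (e * g) * e' = e' * (e * g)) := by
  intro m
  induction m with
  | zero =>
    intro K hm
    exfalso
    have := Nat.card_pos (α := ↥K)
    omega
  | succ m ih =>
    intro K hm hZK hKC hK
    by_cases hKZ : K ≤ Z
    · refine ⟨Subgroup.zpowers z₀, h.zpowers_le.trans hZK, ?_, Subgroup.mem_zpowers z₀, ?_, ?_, ?_⟩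
      · rw [Subgroup.zpowers_le]; exact hF4
      · intro k hk
        exact ⟨1, one_mem _, k, hKZ hk, (one_mul k).symm⟩
      · intro e he _
        exact he
      · intro g _
        exact ⟨1, one_mem _, fun e' he' => by rw [one_mul]; exact h.cent_of_mem he' g⟩
    · obtain ⟨x', hx'K, hx'Z⟩ := SetLike.not_le_iff_exists.mp hKZ
      obtain ⟨y', hy'K, hxy'⟩ : ∃ y ∈ K, x' * y ≠ y * x' := by
        by_contra hcon
        push Not at hcon
        exact hx'Z (hK x' hx'K hcon)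
      obtain ⟨ζ₁, hζ₁, hxF⟩ := hF3 x' (hKC hx'K)
      obtain ⟨ζ₂, hζ₂, hyF⟩ := hF3 y' (hKC hy'K)
      have hxK : x' * ζ₁ ∈ K := K.mul_mem hx'K (hZK hζ₁)
      have hyK : y' * ζ₂ ∈ K := K.mul_mem hy'K (hZK hζ₂)
      have hxy : (x' * ζ₁) * (y' * ζ₂) ≠ (y' * ζ₂) * (x' * ζ₁) := by
        intro e
        apply hxy'
        have c1 : ζ₁ * y' = y' * ζ₁ := h.Zcent ζ₁ hζ₁ y' (hKC hy'K)
        have c2 : ζ₂ * x' = x' * ζ₂ := h.Zcent ζ₂ hζ₂ x' (hKC hx'K)
        have c3 : ζ₁ * ζ₂ = ζ₂ * ζ₁ := h.Zcent ζ₁ hζ₁ ζ₂ (h.ZC hζ₂)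
        have e1 : (x' * ζ₁) * (y' * ζ₂) = (x' * y') * (ζ₁ * ζ₂) := by
          calc (x' * ζ₁) * (y' * ζ₂) = x' * (ζ₁ * y') * ζ₂ := by group
            _ = x' * (y' * ζ₁) * ζ₂ := by rw [c1]
            _ = (x' * y') * (ζ₁ * ζ₂) := by group
        have e2 : (y' * ζ₂) * (x' * ζ₁) = (y' * x') * (ζ₁ * ζ₂) := by
          calc (y' * ζ₂) * (x' * ζ₁) = y' * (ζ₂ * x') * ζ₁ := by group
            _ = y' * (x' * ζ₂) * ζ₁ := by rw [c2]
            _ = (y' * x') * (ζ₂ * ζ₁) := by group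
            _ = (y' * x') * (ζ₁ * ζ₂) := by rw [c3]
        rw [e1, e2] at e
        exact mul_right_cancel e
      generalize x' * ζ₁ = x at hxF hxK hxy
      generalize y' * ζ₂ = y at hyF hyK hxy
      have hxC := hKC hxK
      have hyC := hKC hyK
      have hcard := h.card_step K hKC hxK hyK hxy
      have hZK₁ : Z ≤ (K ⊓ Subgroup.centralizer {x} ⊓ Subgroup.centralizer {y} : Subgroup P) := by
        intro ζ hζ
        exact ⟨⟨hZK hζ, Subgroup.mem_centralizer_singleton_iff.mpr (h.Zcent ζ hζ x hxC)⟩,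
          Subgroup.mem_centralizer_singleton_iff.mpr (h.Zcent ζ hζ y hyC)⟩
      have hlt : Nat.card (K ⊓ Subgroup.centralizer {x} ⊓ Subgroup.centralizer {y} : Subgroup P)
          ≤ m := by
        have hpos : 0 < Nat.card
            (K ⊓ Subgroup.centralizer {x} ⊓ Subgroup.centralizer {y} : Subgroup P) := Nat.card_pos
        have h2 : 2 ≤ p := hp.out.two_le
        have h4 : 4 ≤ p ^ 2 := by nlinarith
        have h5 := Nat.mul_le_mul_right (Nat.card
            (K ⊓ Subgroup.centralizer {x} ⊓ Subgroup.centralizer {y} : Subgroup P)) h4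
        rw [← hcard] at h5
        omega
      obtain ⟨E₁, hE₁K, hE₁F, hz₀E₁, ha₁, hd₁, hc₁⟩ := ih _ hlt hZK₁
        (inf_le_left.trans (inf_le_left.trans hKC)) (h.center_step K hKC hxK hyK hxy hK)
      have hE₁x : ∀ e ∈ E₁, e * x = x * e := fun e he =>
        Subgroup.mem_centralizer_singleton_iff.mp (hE₁K he).1.2
      have hE₁y : ∀ e ∈ E₁, e * y = y * e := fun e he =>
        Subgroup.mem_centralizer_singleton_iff.mp (hE₁K he).2
      have hw'm : x * y * x⁻¹ * y⁻¹ ∈ Subgroup.zpowers z₀ := h.comm_mem hxC hyC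
      have hw'1 : x * y * x⁻¹ * y⁻¹ ≠ 1 := by
        intro h1
        apply hxy
        calc x * y = (x * y * x⁻¹ * y⁻¹) * (y * x) := by group
          _ = y * x := by rw [h1, one_mul]
      have hwm : y * x * y⁻¹ * x⁻¹ ∈ Subgroup.zpowers z₀ := h.comm_mem hyC hxC
      have hw1 : y * x * y⁻¹ * x⁻¹ ≠ 1 := by
        intro h1
        apply hxy
        calc x * y = (y * x * y⁻¹ * x⁻¹)⁻¹ * (y * x) := by group
          _ = y * x := by rw [h1, inv_one, one_mul]
      have zE₁ : Subgroup.zpowers z₀ ≤ E₁ := Subgroup.zpowers_le.mpr hz₀E₁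
      have hxE : x ∈ Subgroup.closure (({x, y} : Set P) ∪ (E₁ : Set P)) :=
        Subgroup.subset_closure (Or.inl (by simp))
      have hyE : y ∈ Subgroup.closure (({x, y} : Set P) ∪ (E₁ : Set P)) :=
        Subgroup.subset_closure (Or.inl (by simp))
      have hE₁E : E₁ ≤ Subgroup.closure (({x, y} : Set P) ∪ (E₁ : Set P)) :=
        fun e he => Subgroup.subset_closure (Or.inr he)
      have hnf : ∀ e ∈ Subgroup.closure (({x, y} : Set P) ∪ (E₁ : Set P)),
          ∃ a b : ℕ, ∃ e₁ ∈ E₁, e = x ^ a * y ^ b * e₁ := by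
        apply closure_subset_of_left_mul _ {e | ∃ a b : ℕ, ∃ e₁ ∈ E₁, e = x ^ a * y ^ b * e₁}
        · exact ⟨0, 0, 1, E₁.one_mem, by simp⟩
        · intro s hs
          refine ⟨⟨orderOf s, orderOf_pos s, pow_orderOf_eq_one s⟩, ?_⟩
          rintro _ ⟨a, b, e₁, he₁, rfl⟩
          rcases hs with hs | hs
          · rcases Set.mem_insert_iff.mp hs with hs | hs
            · rw [hs]
              exact ⟨a + 1, b, e₁, he₁, by rw [pow_succ']; group⟩
            · rw [Set.mem_singleton_iff] at hs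
              rw [hs]
              have hw := pow_mul_of_comm_central x y (x * y * x⁻¹ * y⁻¹) rfl
                (fun t => h.cent_of_mem hw'm t) a
              have hwaE : ((x * y * x⁻¹ * y⁻¹) ^ a)⁻¹ ∈ Subgroup.zpowers z₀ :=
                inv_mem (Subgroup.pow_mem _ hw'm a)
              refine ⟨a, b + 1, ((x * y * x⁻¹ * y⁻¹) ^ a)⁻¹ * e₁,
                E₁.mul_mem (zE₁ hwaE) he₁, ?_⟩
              have hyx : y * x ^ a = ((x * y * x⁻¹ * y⁻¹) ^ a)⁻¹ * (x ^ a * y) := by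
                rw [hw]; group
              calc y * (x ^ a * y ^ b * e₁) = (y * x ^ a) * y ^ b * e₁ := by group
                _ = (((x * y * x⁻¹ * y⁻¹) ^ a)⁻¹ * (x ^ a * y)) * y ^ b * e₁ := by rw [hyx]
                _ = ((x ^ a * y ^ (b + 1)) * ((x * y * x⁻¹ * y⁻¹) ^ a)⁻¹) * e₁ := by
                  rw [h.cent_of_mem hwaE (x ^ a * y ^ (b + 1)), pow_succ']; group
                _ = x ^ a * y ^ (b + 1) * (((x * y * x⁻¹ * y⁻¹) ^ a)⁻¹ * e₁) := by group
          · refine ⟨a, b, s * e₁, E₁.mul_mem hs he₁, ?_⟩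
            have c : s * (x ^ a * y ^ b) = (x ^ a * y ^ b) * s :=
              ((Commute.pow_right (hE₁x s hs) a).mul_right (Commute.pow_right (hE₁y s hs) b)).eq
            calc s * (x ^ a * y ^ b * e₁) = (s * (x ^ a * y ^ b)) * e₁ := by group
              _ = x ^ a * y ^ b * (s * e₁) := by rw [c]; group
      refine ⟨Subgroup.closure (({x, y} : Set P) ∪ (E₁ : Set P)), ?_, ?_, hE₁E hz₀E₁, ?_, ?_, ?_⟩
      · rw [Subgroup.closure_le]
        rintro e (he | he)
        · rcases Set.mem_insert_iff.mp he with he | he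
          · rw [he]; exact hxK
          · rw [Set.mem_singleton_iff] at he; rw [he]; exact hyK
        · exact (hE₁K he).1.1
      · rw [Subgroup.closure_le]
        rintro e (he | he)
        · rcases Set.mem_insert_iff.mp he with he | he
          · rw [he]; exact hxF
          · rw [Set.mem_singleton_iff] at he; rw [he]; exact hyF
        · exact hE₁F he
      · intro k hk
        obtain ⟨l, m', h1, h2⟩ := h.adjust hxC hyC hxy k (h.comm_mem (hKC hk) hxC)
          (h.comm_mem (hKC hk) hyC)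
        have hmem : x ^ l * y ^ m' * k ∈
            (K ⊓ Subgroup.centralizer {x} ⊓ Subgroup.centralizer {y} : Subgroup P) :=
          ⟨⟨K.mul_mem (K.mul_mem (K.pow_mem hxK l) (K.pow_mem hyK m')) hk,
            Subgroup.mem_centralizer_singleton_iff.mpr h1⟩,
            Subgroup.mem_centralizer_singleton_iff.mpr h2⟩
        obtain ⟨e₁, he₁, ζ, hζ, hk₁⟩ := ha₁ _ hmem
        refine ⟨(x ^ l * y ^ m')⁻¹ * e₁, Subgroup.mul_mem _ (Subgroup.inv_mem _
          (Subgroup.mul_mem _ (Subgroup.pow_mem _ hxE l) (Subgroup.pow_mem _ hyE m')))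
          (hE₁E he₁), ζ, hζ, ?_⟩
        rw [mul_assoc, ← hk₁]; group
      · intro e heE heZ
        obtain ⟨a, b, e₁, he₁, rfl⟩ := hnf e heE
        have hey : (x ^ a * y ^ b * e₁) * y = y * (x ^ a * y ^ b * e₁) := h.Zcent _ heZ y hyC
        have hex : (x ^ a * y ^ b * e₁) * x = x * (x ^ a * y ^ b * e₁) := h.Zcent _ heZ x hxC
        have h1 : x ^ a * y = y * x ^ a := by
          have c : (y ^ b * e₁) * y = y * (y ^ b * e₁) := by
            rw [mul_assoc, hE₁y e₁ he₁]; group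
          have h3 : (x ^ a * y) * (y ^ b * e₁) = (y * x ^ a) * (y ^ b * e₁) := by
            calc (x ^ a * y) * (y ^ b * e₁) = x ^ a * (y * (y ^ b * e₁)) := by group
              _ = x ^ a * ((y ^ b * e₁) * y) := by rw [c]
              _ = (x ^ a * y ^ b * e₁) * y := by group
              _ = y * (x ^ a * y ^ b * e₁) := hey
              _ = (y * x ^ a) * (y ^ b * e₁) := by group
          exact mul_right_cancel h3
        have hw := pow_mul_of_comm_central x y (x * y * x⁻¹ * y⁻¹) rfl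
          (fun t => h.cent_of_mem hw'm t) a
        have hwa : (x * y * x⁻¹ * y⁻¹) ^ a = 1 := by
          rw [h1] at hw
          have h3 : 1 * (y * x ^ a) = (x * y * x⁻¹ * y⁻¹) ^ a * (y * x ^ a) := by
            rw [one_mul, ← mul_assoc]; exact hw
          exact (mul_right_cancel h3).symm
        have hpa : p ∣ a := by
          have := orderOf_dvd_of_pow_eq_one hwa
          rwa [orderOf_eq_prime (h.pow_p_of_mem hw'm) hw'1] at this
        have hxa : x ^ a ∈ Subgroup.zpowers z₀ := by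
          obtain ⟨a', rfl⟩ := hpa
          rw [pow_mul]; exact Subgroup.pow_mem _ (hF2 x hxF) _
        have h2 : y ^ b * x = x * y ^ b := by
          have h3 : x ^ a * (y ^ b * x) * e₁ = x ^ a * (x * y ^ b) * e₁ := by
            calc x ^ a * (y ^ b * x) * e₁ = x ^ a * y ^ b * (x * e₁) := by group
              _ = x ^ a * y ^ b * (e₁ * x) := by rw [hE₁x e₁ he₁]
              _ = (x ^ a * y ^ b * e₁) * x := by group
              _ = x * (x ^ a * y ^ b * e₁) := hex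
              _ = x ^ a * (x * y ^ b) * e₁ := by group
          exact mul_left_cancel (mul_right_cancel h3)
        have hw2 := pow_mul_of_comm_central y x (y * x * y⁻¹ * x⁻¹) rfl
          (fun t => h.cent_of_mem hwm t) b
        have hwb : (y * x * y⁻¹ * x⁻¹) ^ b = 1 := by
          rw [h2] at hw2
          have h3 : 1 * (x * y ^ b) = (y * x * y⁻¹ * x⁻¹) ^ b * (x * y ^ b) := by
            rw [one_mul, ← mul_assoc]; exact hw2
          exact (mul_right_cancel h3).symm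
        have hpb : p ∣ b := by
          have := orderOf_dvd_of_pow_eq_one hwb
          rwa [orderOf_eq_prime (h.pow_p_of_mem hwm) hw1] at this
        have hyb : y ^ b ∈ Subgroup.zpowers z₀ := by
          obtain ⟨b', rfl⟩ := hpb
          rw [pow_mul]; exact Subgroup.pow_mem _ (hF2 y hyF) _
        exact hd₁ _ (E₁.mul_mem (E₁.mul_mem (zE₁ hxa) (zE₁ hyb)) he₁) heZ
      · intro g hg
        obtain ⟨l, m', h1, h2⟩ := h.adjust hxC hyC hxy g (hg x hxE) (hg y hyE)
        have hg₁ : ∀ e ∈ E₁, (x ^ l * y ^ m' * g) * e * (x ^ l * y ^ m' * g)⁻¹ * e⁻¹ ∈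
            Subgroup.zpowers z₀ := by
          intro e he
          have hs : (x ^ l * y ^ m') * e = e * (x ^ l * y ^ m') :=
            ((Commute.pow_right (hE₁x e he) l).mul_right (Commute.pow_right (hE₁y e he) m')).eq.symm
          have hc := h.cent_of_mem (hg e (hE₁E he))
          have h3 : (x ^ l * y ^ m' * g) * e * (x ^ l * y ^ m' * g)⁻¹ * e⁻¹ =
              g * e * g⁻¹ * e⁻¹ := by
            calc (x ^ l * y ^ m' * g) * e * (x ^ l * y ^ m' * g)⁻¹ * e⁻¹
                = (x ^ l * y ^ m') * (g * e * g⁻¹ * e⁻¹) * e * (x ^ l * y ^ m')⁻¹ * e⁻¹ := by group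
              _ = (g * e * g⁻¹ * e⁻¹) * ((x ^ l * y ^ m') * e) * (x ^ l * y ^ m')⁻¹ * e⁻¹ := by
                rw [hc (x ^ l * y ^ m')]; group
              _ = g * e * g⁻¹ * e⁻¹ := by rw [hs]; group
          rw [h3]; exact hg e (hE₁E he)
        obtain ⟨e₁, he₁, hcomm⟩ := hc₁ _ hg₁
        refine ⟨e₁ * (x ^ l * y ^ m'), Subgroup.mul_mem _ (hE₁E he₁)
          (Subgroup.mul_mem _ (Subgroup.pow_mem _ hxE l) (Subgroup.pow_mem _ hyE m')), ?_⟩
        have ht : e₁ * (x ^ l * y ^ m') * g = e₁ * (x ^ l * y ^ m' * g) := by group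
        rw [ht]
        have hcl : Subgroup.closure (({x, y} : Set P) ∪ (E₁ : Set P)) ≤
            Subgroup.centralizer {e₁ * (x ^ l * y ^ m' * g)} := by
          rw [Subgroup.closure_le]
          rintro e (he | he)
          · rcases Set.mem_insert_iff.mp he with he | he
            · rw [he, SetLike.mem_coe, Subgroup.mem_centralizer_singleton_iff]
              calc x * (e₁ * (x ^ l * y ^ m' * g)) = (e₁ * x) * (x ^ l * y ^ m' * g) := by
                    rw [hE₁x e₁ he₁]; group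
                _ = e₁ * ((x ^ l * y ^ m' * g) * x) := by rw [h1]; group
                _ = e₁ * (x ^ l * y ^ m' * g) * x := by group
            · rw [Set.mem_singleton_iff] at he
              rw [he, SetLike.mem_coe, Subgroup.mem_centralizer_singleton_iff]
              calc y * (e₁ * (x ^ l * y ^ m' * g)) = (e₁ * y) * (x ^ l * y ^ m' * g) := by
                    rw [hE₁y e₁ he₁]; group
                _ = e₁ * ((x ^ l * y ^ m' * g) * y) := by rw [h2]; group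
                _ = e₁ * (x ^ l * y ^ m' * g) * y := by group
          · rw [SetLike.mem_coe, Subgroup.mem_centralizer_singleton_iff]
            exact (hcomm e he).symm
        intro e' he'
        exact (Subgroup.mem_centralizer_singleton_iff.mp (hcl he')).symm

end SympCore

end Cfsg.Agent.Helper29
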