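import Mathlib
import Cfsg.Agent.Helper29.SympType
import Cfsg.Agent.S3761
import Cfsg.Agent.Helper51.PCube
import Cfsg.Agent.Helper48.Extraspecial2

set_option autoImplicit false
set_option maxHeartbeats 1000000

namespace Cfsg.Agent.Helper29

open Subgroup

universe u

/-- The set generating the characteristic subgroup used in the final contradiction. -/
def sympSet {P : Type*} [Group P] (p : ℕ) (Z : Subgroup P) : Set P :=
  {t | (∀ ξ ∈ Z, t * ξ ^ p = ξ ^ p * t) ∧ t ^ p = 1}

theorem sympSet_char {P : Type*} [Group P] (p : ℕ) (Z : Subgroup P) (hZchar : Z.Characteristic) :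
    (closure (sympSet p Z)).Characteristic := by
  rw [characteristic_iff_map_le]
  intro φ
  rw [MonoidHom.map_closure, closure_le]
  rintro _ ⟨t, ⟨hMt, htp⟩, rfl⟩
  apply Subgroup.subset_closure
  refine ⟨?_, ?_⟩
  · intro ξ hξ
    have hξ' : φ.symm ξ ∈ Z := characteristic_iff_map_le.mp hZchar φ.symm ⟨ξ, hξ, rfl⟩
    have h2 := congrArg φ (hMt _ hξ')
    simpa using h2
  · change (φ t) ^ p = 1
    rw [← map_pow, htp, map_one]

/-- Extraction of elementwise information from the second alternative of S3761 inside a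
subgroup `R`. -/
theorem symp_extract {P : Type*} [Group P] [Finite P] {p : ℕ} (R Z : Subgroup P) (hZR : Z ≤ R)
    (z₀ : P)
    (hWea : Cfsg.IsElementaryAbelian p (Cfsg.omegaOne p
      (centralizer ((Cfsg.powerClosure p 1 (Z.subgroupOf R) : Subgroup ↥R) : Set ↥R)))) :
    (∀ r ∈ R, (∀ ξ ∈ Z, r * ξ ^ p = ξ ^ p * r) → r ^ p = 1 →
      ∀ r' ∈ R, (∀ ξ ∈ Z, r' * ξ ^ p = ξ ^ p * r') → r' ^ p = 1 → r * r' = r' * r) ∧
    ((∀ w ∈ R, (∀ ξ ∈ Z, w * ξ ^ p = ξ ^ p * w) → w ^ p = 1 → w ∈ zpowers z₀) →
      Nat.card ↥(Cfsg.omegaOne p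
        (centralizer ((Cfsg.powerClosure p 1 (Z.subgroupOf R) : Subgroup ↥R) : Set ↥R))) ≤
        Nat.card ↥(zpowers z₀)) := by
  have hMr : ∀ r (hr : r ∈ R), (∀ ξ ∈ Z, r * ξ ^ p = ξ ^ p * r) →
      (⟨r, hr⟩ : ↥R) ∈
        centralizer ((Cfsg.powerClosure p 1 (Z.subgroupOf R) : Subgroup ↥R) : Set ↥R) := by
    intro r hr hM
    have hle : Cfsg.powerClosure p 1 (Z.subgroupOf R) ≤ centralizer {(⟨r, hr⟩ : ↥R)} := by
      unfold Cfsg.powerClosure
      rw [closure_le]
      rintro y ⟨x, hx, rfl⟩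
      rw [SetLike.mem_coe, mem_centralizer_singleton_iff]
      apply Subtype.ext
      have hxZ : (x : P) ∈ Z := mem_subgroupOf.mp hx
      have := hM x.1 hxZ
      simpa [pow_one] using this.symm
    rw [mem_centralizer_iff]
    intro y hy
    exact mem_centralizer_singleton_iff.mp (hle hy)
  have hMP : ∀ a : ↥R, a ∈
      centralizer ((Cfsg.powerClosure p 1 (Z.subgroupOf R) : Subgroup ↥R) : Set ↥R) →
      ∀ ξ ∈ Z, (a : P) * ξ ^ p = ξ ^ p * a := by
    intro a ha ξ hξ
    have hmem : (⟨ξ, hZR hξ⟩ : ↥R) ^ (p ^ 1) ∈ Cfsg.powerClosure p 1 (Z.subgroupOf R) :=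
      Subgroup.subset_closure ⟨⟨ξ, hZR hξ⟩, mem_subgroupOf.mpr hξ, rfl⟩
    have := mem_centralizer_iff.mp ha _ hmem
    have h2 := congrArg Subtype.val this
    simpa [pow_one] using h2.symm
  have hW : ∀ r (hr : r ∈ R), (∀ ξ ∈ Z, r * ξ ^ p = ξ ^ p * r) → r ^ p = 1 →
      (⟨r, hr⟩ : ↥R) ∈ Cfsg.omegaOne p
        (centralizer ((Cfsg.powerClosure p 1 (Z.subgroupOf R) : Subgroup ↥R) : Set ↥R)) :=
    fun r hr hM hrp => Subgroup.subset_closure ⟨hMr r hr hM, Subtype.ext (by simpa using hrp)⟩
  have hWMr : Cfsg.omegaOne p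
      (centralizer ((Cfsg.powerClosure p 1 (Z.subgroupOf R) : Subgroup ↥R) : Set ↥R)) ≤
      centralizer ((Cfsg.powerClosure p 1 (Z.subgroupOf R) : Subgroup ↥R) : Set ↥R) := by
    unfold Cfsg.omegaOne
    rw [closure_le]
    rintro x ⟨hx, -⟩
    exact hx
  refine ⟨?_, ?_⟩
  · intro r hr hM hrp r' hr' hM' hr'p
    have := hWea.1.is_comm.comm ⟨⟨r, hr⟩, hW r hr hM hrp⟩ ⟨⟨r', hr'⟩, hW r' hr' hM' hr'p⟩
    exact congrArg Subtype.val (congrArg Subtype.val this)
  · intro hall
    have hval : ∀ a : ↥(Cfsg.omegaOne p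
        (centralizer ((Cfsg.powerClosure p 1 (Z.subgroupOf R) : Subgroup ↥R) : Set ↥R))),
        ((a : ↥R) : P) ∈ zpowers z₀ := by
      intro a
      have h1 := hMP a.1 (hWMr a.2)
      have h2 : ((a : ↥R) : P) ^ p = 1 := by
        have := hWea.2 a.1 a.2
        have h3 := congrArg Subtype.val this
        simpa using h3
      exact hall _ a.1.2 h1 h2
    have hinj : Function.Injective (fun a : ↥(Cfsg.omegaOne p
        (centralizer ((Cfsg.powerClosure p 1 (Z.subgroupOf R) : Subgroup ↥R) : Set ↥R))) =>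
        (⟨((a : ↥R) : P), hval a⟩ : ↥(zpowers z₀))) := by
      intro a b hab
      have h0 : (⟨((a : ↥R) : P), hval a⟩ : ↥(zpowers z₀)) = ⟨((b : ↥R) : P), hval b⟩ := hab
      have h := congrArg (fun q : ↥(zpowers z₀) => (q : P)) h0
      exact Subtype.ext (Subtype.ext h)
    exact Nat.card_le_card_of_injective _ hinj

/-- **P. Hall's theorem on `p`-groups of symplectic type**, from a critical subgroup `C`. -/
theorem symp_main {P : Type u} [Group P] [Finite P] {p : ℕ} [hp : Fact p.Prime] (hP : IsPGroup p P)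
    (hsymp : ∀ A : Subgroup P, A.Characteristic → IsMulCommutative A → IsCyclic A)
    (C : Subgroup P) (hCchar : C.Characteristic)
    (hpw : ∀ x ∈ C, x ^ p ∈ centralizer (C : Set P))
    (hcomm : ∀ x ∈ C, ∀ g : P, g * x * g⁻¹ * x⁻¹ ∈ centralizer (C : Set P))
    (hcent : centralizer (C : Set P) ≤ C) :
    ∃ E R : Subgroup P, (∀ e ∈ E, ∀ r ∈ R, e * r = r * e) ∧ E ⊔ R = ⊤ ∧
      (E = ⊥ ∨ Cfsg.IsExtraspecial p ↥E) ∧
      (IsCyclic R ∨ (p = 2 ∧ 16 ≤ Nat.card R ∧ ((∃ m : ℕ, Nonempty (↥R ≃* DihedralGroup m)) ∨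
        (∃ m : ℕ, Nonempty (↥R ≃* QuaternionGroup m)) ∨ Cfsg.IsQuasiDihedral ↥R))) := by
  classical
  by_cases htriv : Subsingleton P
  · refine ⟨⊥, ⊥, ?_, ?_, Or.inl rfl, Or.inl ?_⟩
    · intro e _ r _
      exact Subsingleton.elim _ _
    · rw [eq_top_iff]
      intro x _
      rw [Subsingleton.elim x 1]
      exact one_mem _
    · exact isCyclic_of_subsingleton
  rw [not_subsingleton_iff_nontrivial] at htriv
  have hZchar : (centralizer (C : Set P)).Characteristic := by
    haveI := hCchar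
    infer_instance
  have hZab : IsMulCommutative ↥(centralizer (C : Set P)) :=
    ⟨⟨fun a b => Subtype.ext (mem_centralizer_iff.mp b.2 a.1 (hcent a.2))⟩⟩
  have hZcyc := hsymp _ hZchar hZab
  obtain ⟨u, hu⟩ : ∃ u : P, centralizer (C : Set P) = zpowers u := by
    obtain ⟨g, hg⟩ := hZcyc.exists_generator
    refine ⟨g.1, ?_⟩
    ext x
    constructor
    · intro hx
      obtain ⟨k, hk⟩ := mem_zpowers_iff.mp (hg ⟨x, hx⟩)
      rw [mem_zpowers_iff]
      exact ⟨k, by have := congrArg Subtype.val hk; simpa using this⟩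
    · intro hx
      obtain ⟨k, rfl⟩ := mem_zpowers_iff.mp hx
      exact zpow_mem g.2 k
  obtain ⟨n, hn⟩ : ∃ n, orderOf u = p ^ n := by
    obtain ⟨n, hn⟩ := (hP.to_subgroup (centralizer (C : Set P))).exists_card_eq
    exact ⟨n, by rw [← hn, hu, Nat.card_zpowers]⟩
  have hcenZ : center P ≤ centralizer (C : Set P) := fun c hc =>
    mem_centralizer_iff.mpr (fun x _ => (mem_center_iff.mp hc x))
  obtain ⟨c, hcc, hcord⟩ : ∃ c ∈ center P, orderOf c = p := by
    haveI := hP.center_nontrivial
    have hdvd : p ∣ Nat.card (center P) := by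
      obtain ⟨k, hk⟩ := (hP.to_subgroup (center P)).exists_card_eq
      have hk0 : k ≠ 0 := by
        rintro rfl
        rw [pow_zero] at hk
        exact (Finite.one_lt_card (α := ↥(center P))).ne' hk
      rw [hk]; exact dvd_pow_self p hk0
    obtain ⟨c, hc⟩ := exists_prime_orderOf_dvd_card' p hdvd
    exact ⟨c.1, c.2, by rw [← hc]; exact Subgroup.orderOf_coe c⟩
  have hc1 : c ≠ 1 := by
    rintro rfl
    rw [orderOf_one] at hcord
    exact hp.out.one_lt.ne hcord
  have hcp : c ^ p = 1 := by rw [← hcord]; exact pow_orderOf_eq_one c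
  have hcZ : c ∈ zpowers u := hu ▸ hcenZ hcc
  have hnpos : 1 ≤ n := by
    by_contra h0
    have h0' : n = 0 := by omega
    subst h0'
    rw [pow_zero, orderOf_eq_one_iff] at hn
    rw [hn, zpowers_one_eq_bot, mem_bot] at hcZ
    exact hc1 hcZ
  have hz₀p : (u ^ (p ^ (n - 1))) ^ p = 1 := by
    rw [← pow_mul, ← pow_succ]
    have : n - 1 + 1 = n := Nat.sub_add_cancel hnpos
    rw [this, ← hn, pow_orderOf_eq_one]
  have hz₀c : u ^ (p ^ (n - 1)) ∈ zpowers c :=
    symp_mem_zpowers_of_ne_one hp.out _ c hz₀p (symp_omega hp.out hn hnpos hcZ hcp) hc1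
  have hcore : SympCore p C (centralizer (C : Set P)) u (u ^ (p ^ (n - 1))) n := by
    refine { ZC := hcent, cent := ?_, Zcent := ?_, Zu := hu, ord := hn, npos := hnpos,
             z₀def := rfl, z₀cent := ?_, pw := hpw, comm := hcomm }
    · intro g hg
      exact mem_centralizer_iff.mpr (fun x hx => (hg x hx).symm)
    · intro ζ hζ x hx
      exact (mem_centralizer_iff.mp hζ x hx).symm
    · intro g
      obtain ⟨i, hi⟩ := mem_zpowers_iff.mp hz₀c
      rw [← hi]
      exact ((show Commute g c from mem_center_iff.mp hcc g).zpow_right i).eq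
  generalize hz₀def : u ^ (p ^ (n - 1)) = z₀ at hcore
  generalize hZdef : centralizer (C : Set P) = Z at hcore hZchar hZcyc hu
  have hF3 := hcore.exists_mul_mem_pool hCchar hZchar hsymp
  obtain ⟨E, hEC, hEF, hz₀E, ha, hd, hc⟩ := hcore.exists_core hcore.pool
    (fun f hf => hf.2.1) hF3 hcore.z₀_mem_pool _ C le_rfl hcore.ZC le_rfl
    (fun k _ hkc => hcore.cent k (fun x hx => hkc x hx))
  have hER : ∀ e ∈ E, ∀ r ∈ centralizer (E : Set P), e * r = r * e :=
    fun e he r hr => mem_centralizer_iff.mp hr e he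
  have hPER : ∀ g : P, ∃ e ∈ E, e * g ∈ centralizer (E : Set P) := by
    intro g
    obtain ⟨e, he, hcomm'⟩ := hc g (fun e he => hcore.comm_mem_of_pow (hEC he) (hEF he).2.1 g)
    exact ⟨e, he, mem_centralizer_iff.mpr (fun e' he' => (hcomm' e' he').symm)⟩
  have htop : E ⊔ centralizer (E : Set P) = ⊤ := by
    rw [eq_top_iff]
    intro g _
    obtain ⟨e, he, her⟩ := hPER g
    have hg : g = e⁻¹ * (e * g) := by group
    rw [hg]
    exact mul_mem (mem_sup_left (E.inv_mem he)) (mem_sup_right her)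
  have hZR : Z ≤ centralizer (E : Set P) := fun ζ hζ =>
    mem_centralizer_iff.mpr (fun e he => (hcore.Zcent ζ hζ e (hEC he)).symm)
  have hRZ : ∀ r ∈ centralizer (E : Set P), (∀ ζ ∈ Z, r * ζ = ζ * r) → r ∈ Z := by
    intro r hr hrZ
    apply hcore.cent
    intro x hx
    obtain ⟨e, he, ζ, hζ, rfl⟩ := ha x hx
    have h1 : e * r = r * e := hER e he r hr
    calc r * (e * ζ) = (r * e) * ζ := by group
      _ = e * (r * ζ) := by rw [← h1]; group
      _ = (e * ζ) * r := by rw [hrZ ζ hζ]; group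
  -- decomposition `g = e * r`
  have hdec : ∀ g : P, ∃ e ∈ E, ∃ r ∈ centralizer (E : Set P), g = e * r := by
    intro g
    obtain ⟨e, he, her⟩ := hPER g
    exact ⟨e⁻¹, E.inv_mem he, e * g, her, by group⟩
  -- the extraspecial part
  have hEout : ∃ E' : Subgroup P, (E' = ⊥ ∨ Cfsg.IsExtraspecial p ↥E') ∧
      (∀ e ∈ E', ∀ r ∈ centralizer (E : Set P), e * r = r * e) ∧
      E' ⊔ centralizer (E : Set P) = ⊤ := by
    by_cases hCZ : C ≤ Z
    · refine ⟨⊥, Or.inl rfl, ?_, ?_⟩
      · intro e he r _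
        rw [mem_bot.mp he]; simp
      · have hRtop : centralizer (E : Set P) = ⊤ := by
          rw [eq_top_iff]
          intro g _
          exact mem_centralizer_iff.mpr (fun e he =>
            (hcore.cent_of_mem (hd e he (hCZ (hEC he))) g).symm)
        rw [hRtop]; simp
    · refine ⟨E, Or.inr ?_, hER, htop⟩
      obtain ⟨x, hxC, hxZ⟩ := SetLike.not_le_iff_exists.mp hCZ
      have hex : ∃ y ∈ C, x * y ≠ y * x := by
        by_contra hcon
        push Not at hcon
        exact hxZ (hcore.cent x (fun y hy => hcon y hy))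
      obtain ⟨y, hyC, hxy⟩ := hex
      obtain ⟨e₁, he₁, ζ₁, hζ₁, rfl⟩ := ha x hxC
      obtain ⟨e₂, he₂, ζ₂, hζ₂, rfl⟩ := ha y hyC
      have he12 : e₁ * e₂ ≠ e₂ * e₁ := by
        intro e
        apply hxy
        have c1 : ζ₁ * e₂ = e₂ * ζ₁ := hcore.Zcent ζ₁ hζ₁ e₂ (hEC he₂)
        have c2 : ζ₂ * e₁ = e₁ * ζ₂ := hcore.Zcent ζ₂ hζ₂ e₁ (hEC he₁)
        have c3 : ζ₁ * ζ₂ = ζ₂ * ζ₁ := hcore.Zcent ζ₁ hζ₁ ζ₂ (hcore.ZC hζ₂)
        calc (e₁ * ζ₁) * (e₂ * ζ₂) = e₁ * (ζ₁ * e₂) * ζ₂ := by group
          _ = e₁ * (e₂ * ζ₁) * ζ₂ := by rw [c1]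
          _ = (e₁ * e₂) * (ζ₁ * ζ₂) := by group
          _ = (e₂ * e₁) * (ζ₂ * ζ₁) := by rw [e, c3]
          _ = e₂ * (e₁ * ζ₂) * ζ₁ := by group
          _ = e₂ * (ζ₂ * e₁) * ζ₁ := by rw [c2]
          _ = (e₂ * ζ₂) * (e₁ * ζ₁) := by group
      apply isExtraspecial_of_elementwise (hP.to_subgroup E) ⟨z₀, hz₀E⟩
      · intro h1
        exact hcore.z₀ne (congrArg Subtype.val h1)
      · exact Subtype.ext (by simpa using hcore.z₀p)
      · intro a b
        exact symp_mem_zpowers_subtype _ _ _ _ (by simpa using hcore.comm_mem (hEC a.2) (hEC b.2))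
      · intro a
        exact symp_mem_zpowers_subtype _ _ _ _ (by simpa using (hEF a.2).2.1)
      · intro c' hc'
        have hcZ' : (c' : P) ∈ Z := by
          apply hcore.cent
          intro x hx
          obtain ⟨e, he, ζ, hζ, rfl⟩ := ha x hx
          have h1 : (c' : P) * e = e * c' := congrArg Subtype.val (hc' ⟨e, he⟩)
          have h2 : ζ * (c' : P) = c' * ζ := hcore.Zcent ζ hζ c' (hEC c'.2)
          calc (c' : P) * (e * ζ) = ((c' : P) * e) * ζ := by group
            _ = e * (c' * ζ) := by rw [h1]; group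
            _ = (e * ζ) * c' := by rw [← h2]; group
        exact symp_mem_zpowers_subtype _ _ _ _ (hd c' c'.2 hcZ')
      · intro y
        exact Subtype.ext (hcore.z₀cent y).symm
      · exact ⟨⟨e₁, he₁⟩, ⟨e₂, he₂⟩, fun h => he12 (congrArg Subtype.val h)⟩
  obtain ⟨E', hE', hE'R, hE'top⟩ := hEout
  by_cases hRab : ∀ r ∈ centralizer (E : Set P), ∀ r' ∈ centralizer (E : Set P), r * r' = r' * r
  · have hRZ' : centralizer (E : Set P) ≤ Z := fun r hr =>
      hRZ r hr (fun ζ hζ => hRab r hr ζ (hZR hζ))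
    have hReq : centralizer (E : Set P) = Z := le_antisymm hRZ' hZR
    exact ⟨E', centralizer (E : Set P), hE'R, hE'top, hE', Or.inl (hReq ▸ hZcyc)⟩
  push Not at hRab
  obtain ⟨r₁, hr₁, r₂, hr₂, hr12⟩ := hRab
  -- `n ≥ 2`
  have hn2 : 2 ≤ n := by
    by_contra hlt
    have hn1 : n = 1 := by have := hcore.npos; omega
    have hz : z₀ = u := by rw [hcore.z₀def, hn1]; simp
    have hRZ' : ∀ r ∈ centralizer (E : Set P), r ∈ Z := by
      intro r hr
      apply hRZ r hr
      intro ζ hζ
      rw [hcore.Zu, ← hz] at hζ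
      exact hcore.cent_of_mem hζ r
    exact hr12 (hcore.Zcent r₁ (hRZ' r₁ hr₁) r₂ (hcore.ZC (hRZ' r₂ hr₂)))
  have hna : ¬ IsMulCommutative ↥(centralizer (E : Set P)) := fun hc' =>
    hr12 (congrArg Subtype.val (hc'.is_comm.comm ⟨r₁, hr₁⟩ ⟨r₂, hr₂⟩))
  have hZnormal : Z.Normal := by haveI := hZchar; infer_instance
  haveI : (Z.subgroupOf (centralizer (E : Set P))).Normal := hZnormal.subgroupOf _
  have hUcyc : IsCyclic ↥(Z.subgroupOf (centralizer (E : Set P))) :=
    (Subgroup.subgroupOfEquivOfLe hZR).isCyclic.mpr hZcyc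
  have hUcard : Nat.card ↥(Z.subgroupOf (centralizer (E : Set P))) = p ^ n := by
    rw [Nat.card_congr (Subgroup.subgroupOfEquivOfLe hZR).toEquiv, hcore.Zu, Nat.card_zpowers,
      hcore.ord]
  have hUC : centralizer ((Z.subgroupOf (centralizer (E : Set P)) :
      Subgroup ↥(centralizer (E : Set P))) : Set ↥(centralizer (E : Set P))) =
      Z.subgroupOf (centralizer (E : Set P)) := by
    ext r
    rw [mem_centralizer_iff, mem_subgroupOf]
    constructor
    · intro hr
      apply hRZ r.1 r.2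
      intro ζ hζ
      have := hr ⟨ζ, hZR hζ⟩ (by rw [SetLike.mem_coe, mem_subgroupOf]; exact hζ)
      exact (congrArg Subtype.val this).symm
    · intro hr ζ hζ
      rw [SetLike.mem_coe, mem_subgroupOf] at hζ
      exact Subtype.ext (hcore.Zcent ζ.1 hζ r.1 (hcore.ZC hr))
  have hS := Cfsg.Agent.S3761.result (hP.to_subgroup (centralizer (E : Set P))) hna
    (Z.subgroupOf (centralizer (E : Set P))) hUcyc n hUcard hUC
  rcases hS with ⟨hp2, hRcard, hshape⟩ | ⟨-, hWea, hWcard, -⟩
  · by_cases hn3 : 3 ≤ n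
    · refine ⟨E', centralizer (E : Set P), hE'R, hE'top, hE', Or.inr ⟨hp2, ?_, hshape⟩⟩
      rw [hRcard]
      calc 16 = 2 ^ 4 := by norm_num
        _ ≤ 2 ^ (n + 1) := Nat.pow_le_pow_right (by norm_num) (by omega)
    · have hn2' : n = 2 := by omega
      subst hp2
      have hRc8 : Nat.card ↥(centralizer (E : Set P)) = 2 ^ 3 := by rw [hRcard, hn2']
      have hRes := Cfsg.Agent.Helper51.isExtraspecial_of_card_eq_prime_cube (p := 2) hRc8
        ⟨⟨r₁, hr₁⟩, ⟨r₂, hr₂⟩, fun h => hr12 (congrArg Subtype.val h)⟩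
      obtain ⟨⟨hRp, hfr, hcm⟩, hcz⟩ := hRes
      have hz₀R : z₀ ∈ centralizer (E : Set P) := hZR hcore.z₀Z
      have hcenR : ∀ c' : ↥(centralizer (E : Set P)),
          c' ∈ center ↥(centralizer (E : Set P)) → (c' : P) ∈ zpowers z₀ := by
        have hle : zpowers (⟨z₀, hz₀R⟩ : ↥(centralizer (E : Set P))) ≤
            center ↥(centralizer (E : Set P)) := by
          rw [zpowers_le, mem_center_iff]
          intro g
          exact Subtype.ext (hcore.z₀cent g.1)
        have heq : zpowers (⟨z₀, hz₀R⟩ : ↥(centralizer (E : Set P))) =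
            center ↥(centralizer (E : Set P)) := by
          apply Subgroup.eq_of_le_of_card_ge hle
          rw [hcz, Nat.card_zpowers, Subgroup.orderOf_mk, hcore.orderOf_z₀]
        intro c' hc'
        rw [← heq] at hc'
        obtain ⟨i, hi⟩ := mem_zpowers_iff.mp hc'
        rw [← hi]
        simp
      have hRcomm : ∀ r ∈ centralizer (E : Set P), ∀ r' ∈ centralizer (E : Set P),
          r * r' * r⁻¹ * r'⁻¹ ∈ zpowers z₀ := by
        intro r hr r' hr'
        have := Cfsg.Agent.Helper48.comm_mem_center_of_isExtraspecial (p := 2)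
          ⟨⟨hRp, hfr, hcm⟩, hcz⟩ (⟨r, hr⟩ : ↥(centralizer (E : Set P))) ⟨r', hr'⟩
        exact hcenR _ this
      have hRsq : ∀ r ∈ centralizer (E : Set P), r ^ 2 ∈ zpowers z₀ := by
        intro r hr
        have h1 := Cfsg.Agent.Helper2.pow_mem_frattini_of_isPGroup
          (hP.to_subgroup (centralizer (E : Set P))) (⟨r, hr⟩ : ↥(centralizer (E : Set P)))
        rw [hfr] at h1
        exact hcenR _ h1
      have hEall : ∀ e ∈ E, ∀ y : P, e * y * e⁻¹ * y⁻¹ ∈ zpowers z₀ := by
        intro e he y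
        have h1 := hcore.comm_mem_of_pow (hEC (E.inv_mem he)) (hEF (E.inv_mem he)).2.1 y
        have h2 : e * y * e⁻¹ * y⁻¹ = e * (y * e⁻¹ * y⁻¹ * (e⁻¹)⁻¹) * e⁻¹ := by group
        rw [h2, hcore.cent_of_mem h1 e]
        simpa using h1
      have hRall : ∀ r ∈ centralizer (E : Set P), ∀ y : P, r * y * r⁻¹ * y⁻¹ ∈ zpowers z₀ := by
        intro r hr y
        obtain ⟨e, he, r', hr', rfl⟩ := hdec y
        have h1 := hRcomm r hr r' hr'
        have hre : r * e = e * r := (hER e he r hr).symm
        have h2 : r * (e * r') * r⁻¹ * (e * r')⁻¹ = e * (r * r' * r⁻¹ * r'⁻¹) * e⁻¹ := by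
          calc r * (e * r') * r⁻¹ * (e * r')⁻¹ = (r * e) * r' * r⁻¹ * r'⁻¹ * e⁻¹ := by group
            _ = e * (r * r' * r⁻¹ * r'⁻¹) * e⁻¹ := by rw [hre]; group
        rw [h2, hcore.cent_of_mem h1 e]
        simpa using h1
      have hPall : ∀ x y : P, x * y * x⁻¹ * y⁻¹ ∈ zpowers z₀ := by
        intro x y
        obtain ⟨e, he, r, hr, rfl⟩ := hdec x
        have h1 := hEall e he y
        have h2 := hRall r hr y
        have h3 : (e * r) * y * (e * r)⁻¹ * y⁻¹ =
            e * (r * y * r⁻¹ * y⁻¹) * e⁻¹ * (e * y * e⁻¹ * y⁻¹) := by group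
        rw [h3, hcore.cent_of_mem h2 e]
        have h4 : r * y * r⁻¹ * y⁻¹ * e * e⁻¹ * (e * y * e⁻¹ * y⁻¹) =
            (r * y * r⁻¹ * y⁻¹) * (e * y * e⁻¹ * y⁻¹) := by group
        rw [h4]; exact mul_mem h2 h1
      have hPsq : ∀ x : P, x ^ 2 ∈ zpowers z₀ := by
        intro x
        obtain ⟨e, he, r, hr, rfl⟩ := hdec x
        rw [(show Commute e r from hER e he r hr).mul_pow]
        exact mul_mem (hEF he).2.1 (hRsq r hr)
      have hPcen : ∀ c' : P, (∀ y, c' * y = y * c') → c' ∈ zpowers z₀ := by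
        intro c' hc'
        obtain ⟨e, he, r, hr, rfl⟩ := hdec c'
        have heZ : e ∈ Z := by
          apply hcore.cent
          intro x hx
          obtain ⟨e', he', ζ, hζ, rfl⟩ := ha x hx
          have h1 := hc' e'
          have h2 : e' * r = r * e' := hER e' he' r hr
          have h3 : e * e' = e' * e := by
            have h5 : (e * e') * r = (e' * e) * r := by
              calc (e * e') * r = e * (e' * r) := by group
                _ = e * (r * e') := by rw [h2]
                _ = e * r * e' := by group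
                _ = e' * (e * r) := h1
                _ = (e' * e) * r := by group
            exact mul_right_cancel h5
          have h4 : ζ * e = e * ζ := hcore.Zcent ζ hζ e (hEC he)
          calc e * (e' * ζ) = (e * e') * ζ := by group
            _ = e' * (e * ζ) := by rw [h3]; group
            _ = (e' * ζ) * e := by rw [← h4]; group
        have hez : e ∈ zpowers z₀ := hd e he heZ
        have hrc : (⟨r, hr⟩ : ↥(centralizer (E : Set P))) ∈
            center ↥(centralizer (E : Set P)) := by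
          rw [mem_center_iff]
          intro g
          apply Subtype.ext
          have h1 := hc' g.1
          have h2 := hcore.cent_of_mem hez g.1
          have h5 : e * ((g : P) * r) = e * (r * g) := by
            calc e * ((g : P) * r) = ((g : P) * e) * r := by rw [h2]; group
              _ = g * (e * r) := by group
              _ = e * r * g := h1.symm
              _ = e * (r * g) := by group
          exact mul_left_cancel h5
        exact mul_mem hez (hcenR _ hrc)
      have hExt : Cfsg.IsExtraspecial 2 ↥(⊤ : Subgroup P) := by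
        apply isExtraspecial_of_elementwise (hP.to_subgroup ⊤) ⟨z₀, mem_top z₀⟩
        · intro h1
          exact hcore.z₀ne (congrArg Subtype.val h1)
        · exact Subtype.ext (by simpa using hcore.z₀p)
        · intro a b
          exact symp_mem_zpowers_subtype _ _ _ _ (by simpa using hPall a.1 b.1)
        · intro a
          exact symp_mem_zpowers_subtype _ _ _ _ (by simpa using hPsq a.1)
        · intro c' hc'
          exact symp_mem_zpowers_subtype _ _ _ _
            (hPcen c'.1 (fun y => congrArg Subtype.val (hc' ⟨y, mem_top y⟩)))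
        · intro y
          exact Subtype.ext (hcore.z₀cent y).symm
        · exact ⟨⟨r₁, mem_top _⟩, ⟨r₂, mem_top _⟩, fun h => hr12 (congrArg Subtype.val h)⟩
      refine ⟨⊤, ⊥, ?_, by simp, Or.inr hExt, Or.inl isCyclic_of_subsingleton⟩
      intro e _ r hr
      rw [mem_bot.mp hr]; simp
  · exfalso
    obtain ⟨hW2, hWle⟩ := symp_extract (centralizer (E : Set P)) Z hZR z₀ hWea
    have hW1 : ∃ w ∈ centralizer (E : Set P), (∀ ξ ∈ Z, w * ξ ^ p = ξ ^ p * w) ∧ w ^ p = 1 ∧
        w ∉ Z := by
      by_contra hcon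
      push Not at hcon
      have hle := hWle (fun w hw hM hwp => hcore.omega (hcon w hw hM hwp) hwp)
      rw [hWcard, Nat.card_zpowers, hcore.orderOf_z₀] at hle
      have := hp.out.one_lt
      nlinarith
    obtain ⟨w, hwR, hMw, hwp, hwZ⟩ := hW1
    have hwz : w ∉ zpowers z₀ := fun h => hwZ (hcore.zpowers_le h)
    have hclaim : ∀ t : P, (∀ ξ ∈ Z, t * ξ ^ p = ξ ^ p * t) → t ^ p = 1 → t * w = w * t := by
      by_cases hsmall : p = 2 ∧ n = 2
      · exfalso
        obtain ⟨hp2, hn2'⟩ := hsmall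
        subst hp2
        subst hn2'
        have huZ : u ∈ Z := by rw [hcore.Zu]; exact mem_zpowers u
        have huC : u ∈ C := hcore.ZC huZ
        have hu2 : u ^ 2 = z₀ := by rw [hcore.z₀def]; norm_num
        have hc' : w * u * w⁻¹ * u⁻¹ ∈ zpowers z₀ :=
          hcore.comm_mem_of_pow huC (by rw [hu2]; exact mem_zpowers z₀) w
        have hc1' : w * u * w⁻¹ * u⁻¹ ≠ 1 := by
          intro h1
          apply hwZ
          apply hRZ w hwR
          intro ζ hζ
          obtain ⟨k, rfl⟩ := hcore.exists_pow hζ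
          have hwu : w * u = u * w := by
            calc w * u = (w * u * w⁻¹ * u⁻¹) * (u * w) := by group
              _ = u * w := by rw [h1, one_mul]
          exact ((show Commute w u from hwu).pow_right k).eq
        have hceq : w * u * w⁻¹ * u⁻¹ = z₀ := by
          rcases symp_eq_one_or_of_sq z₀ _ hcore.z₀p hc' with h | h
          · exact absurd h hc1'
          · exact h
        have hwu : w * u = z₀ * u * w := by
          rw [← hceq]; group
        have huw2 : (u * w) ^ 2 = 1 := by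
          rw [pow_two]
          calc u * w * (u * w) = u * (w * u) * w := by group
            _ = u * (z₀ * u * w) * w := by rw [hwu]
            _ = (u * z₀) * u * (w * w) := by group
            _ = z₀ * (u * u) * (w * w) := by rw [hcore.z₀cent u]; group
            _ = 1 := by rw [← pow_two, ← pow_two, hu2, hwp, mul_one, ← pow_two, hcore.z₀p]
        have huwR : u * w ∈ centralizer (E : Set P) := mul_mem (hZR huZ) hwR
        have hMuw : ∀ ξ ∈ Z, (u * w) * ξ ^ 2 = ξ ^ 2 * (u * w) := by
          intro ξ hξ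
          obtain ⟨k, rfl⟩ := hcore.exists_pow hξ
          have h3 : (u ^ k) ^ 2 ∈ zpowers z₀ := by
            rw [← pow_mul, mul_comm, pow_mul, hu2]
            exact Subgroup.pow_mem _ (mem_zpowers z₀) k
          exact hcore.cent_of_mem h3 (u * w)
        have h5 := hW2 (u * w) huwR hMuw huw2 w hwR hMw hwp
        apply hc1'
        have hwu' : u * w = w * u := by
          have h6 : (u * w) * w = (w * u) * w := by rw [h5]; group
          exact mul_right_cancel h6
        rw [← hwu']; group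
      · intro t hMt htp
        obtain ⟨e, he, her⟩ := hPER t
        have hMr' : ∀ ξ ∈ Z, (e * t) * ξ ^ p = ξ ^ p * (e * t) := by
          intro ξ hξ
          have h1 : ξ ^ p * e = e * ξ ^ p := hcore.Zcent _ (pow_mem hξ p) e (hEC he)
          calc (e * t) * ξ ^ p = e * (t * ξ ^ p) := by group
            _ = e * (ξ ^ p * t) := by rw [hMt ξ hξ]
            _ = (e * ξ ^ p) * t := by group
            _ = ξ ^ p * (e * t) := by rw [← h1]; group
        have het : e * t = t * e := by
          have h1 := hER e he (e * t) her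
          have h2 : e * (e * t) = e * (t * e) := by rw [h1]; group
          exact mul_left_cancel h2
        have hrp : (e * t) ^ p = e ^ p := by
          rw [(show Commute e t from het).mul_pow, htp, mul_one]
        have hew : e * w = w * e := hER e he w hwR
        have hsuff : (e * t) * w = w * (e * t) → t * w = w * t := by
          intro h1
          have h2 : e * (t * w) = e * (w * t) := by
            calc e * (t * w) = (e * t) * w := by group
              _ = w * (e * t) := h1
              _ = (w * e) * t := by group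
              _ = e * (w * t) := by rw [← hew]; group
          exact mul_left_cancel h2
        apply hsuff
        by_cases hp2 : p = 2
        · have hn3 : 3 ≤ n := by
            by_contra hlt
            exact hsmall ⟨hp2, by omega⟩
          subst hp2
          rcases symp_eq_one_or_of_sq z₀ _ hcore.z₀p (hEF he).2.1 with h1 | h1
          · exact hW2 _ her hMr' (by rw [hrp, h1]) w hwR hMw hwp
          · have hvZ : u ^ (2 ^ (n - 2)) ∈ Z := hcore.pow_mem _
            have hv2 : (u ^ (2 ^ (n - 2))) ^ 2 = z₀ := by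
              rw [hcore.z₀def, ← pow_mul, ← pow_succ]
              congr 2
              omega
            have hvsq : u ^ (2 ^ (n - 2)) = (u ^ (2 ^ (n - 3))) ^ 2 := by
              rw [← pow_mul, ← pow_succ]
              congr 2
              omega
            have hwv : w * u ^ (2 ^ (n - 2)) = u ^ (2 ^ (n - 2)) * w := by
              rw [hvsq]; exact hMw _ (hcore.pow_mem _)
            have hrv : (e * t) * u ^ (2 ^ (n - 2)) = u ^ (2 ^ (n - 2)) * (e * t) := by
              rw [hvsq]; exact hMr' _ (hcore.pow_mem _)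
            have hrv2 : ((e * t) * u ^ (2 ^ (n - 2))) ^ 2 = 1 := by
              rw [(show Commute (e * t) (u ^ (2 ^ (n - 2))) from hrv).mul_pow, hrp, h1, hv2,
                ← pow_two, hcore.z₀p]
            have hMrv : ∀ ξ ∈ Z, ((e * t) * u ^ (2 ^ (n - 2))) * ξ ^ 2 =
                ξ ^ 2 * ((e * t) * u ^ (2 ^ (n - 2))) := by
              intro ξ hξ
              have h2 : u ^ (2 ^ (n - 2)) * ξ ^ 2 = ξ ^ 2 * u ^ (2 ^ (n - 2)) :=
                hcore.Zcent _ hvZ _ (hcore.ZC (pow_mem hξ 2))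
              calc ((e * t) * u ^ (2 ^ (n - 2))) * ξ ^ 2
                  = (e * t) * (u ^ (2 ^ (n - 2)) * ξ ^ 2) := by group
                _ = ((e * t) * ξ ^ 2) * u ^ (2 ^ (n - 2)) := by rw [h2]; group
                _ = ξ ^ 2 * ((e * t) * u ^ (2 ^ (n - 2))) := by rw [hMr' ξ hξ]; group
            have h5 := hW2 _ (mul_mem her (hZR hvZ)) hMrv hrv2 w hwR hMw hwp
            have h6 : ((e * t) * w) * u ^ (2 ^ (n - 2)) = (w * (e * t)) * u ^ (2 ^ (n - 2)) := by
              calc ((e * t) * w) * u ^ (2 ^ (n - 2)) = (e * t) * (w * u ^ (2 ^ (n - 2))) := by group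
                _ = ((e * t) * u ^ (2 ^ (n - 2))) * w := by rw [hwv]; group
                _ = w * ((e * t) * u ^ (2 ^ (n - 2))) := h5
                _ = (w * (e * t)) * u ^ (2 ^ (n - 2)) := by group
            exact mul_right_cancel h6
        · exact hW2 _ her hMr' (by rw [hrp]; exact (hEF he).2.2 hp2 hn2) w hwR hMw hwp
    have hTchar := sympSet_char p Z hZchar
    have hYchar : (closure (sympSet p Z) ⊓
        centralizer ((closure (sympSet p Z) : Subgroup P) : Set P)).Characteristic := by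
      haveI := hTchar
      infer_instance
    have hYab : IsMulCommutative ↥(closure (sympSet p Z) ⊓
        centralizer ((closure (sympSet p Z) : Subgroup P) : Set P)) :=
      ⟨⟨fun a b => Subtype.ext (mem_centralizer_iff.mp b.2.2 a.1 a.2.1)⟩⟩
    have hYcyc := hsymp _ hYchar hYab
    have hwY : w ∈ closure (sympSet p Z) ⊓
        centralizer ((closure (sympSet p Z) : Subgroup P) : Set P) := by
      refine mem_inf.mpr ⟨Subgroup.subset_closure ⟨hMw, hwp⟩, ?_⟩
      have hle : closure (sympSet p Z) ≤ centralizer {w} := by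
        rw [closure_le]
        rintro t ⟨hMt, htp⟩
        rw [SetLike.mem_coe, mem_centralizer_singleton_iff]
        exact hclaim t hMt htp
      rw [mem_centralizer_iff]
      intro t ht
      exact mem_centralizer_singleton_iff.mp (hle ht)
    have hz₀Y : z₀ ∈ closure (sympSet p Z) ⊓
        centralizer ((closure (sympSet p Z) : Subgroup P) : Set P) := by
      refine mem_inf.mpr ⟨Subgroup.subset_closure
        ⟨fun ξ _ => (hcore.z₀cent (ξ ^ p)).symm, hcore.z₀p⟩, ?_⟩
      rw [mem_centralizer_iff]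
      intro t _
      exact hcore.z₀cent t
    exact symp_not_isCyclic _ z₀ w hz₀Y hwY hcore.z₀ne hcore.z₀p hwp hwz hYcyc

end Cfsg.Agent.Helper29
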