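import Mathlib
import Cfsg.Prelude.Def_GeometricClasses
import Cfsg.Agent.Helper71.T4Defs
import Cfsg.Agent.Helper96.T5Defs

/-!
# S5704 piece GMA (CALL by helper96): the standard elements `Gm d w A S` of the unipotent
radical: product, commutator, membership in the radical.
-/

set_option autoImplicit false
set_option linter.unusedVariables false

namespace Cfsg.Agent.Helper29.T5GMA

open Matrix Cfsg Cfsg.Geo Cfsg.Agent.Helper71.T4 Cfsg.Agent.Helper96.T5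
open scoped Kronecker

variable {F : Type*} [Field F] {a b : ℕ}

/-- a commutator identity in a ring -/
theorem gma_comm_aux {R : Type*} [Ring R] (X X' Y Y' : R) (h1 : X * X = 0) (h2 : X' * X' = 0)
    (h3 : X * X' = Y) (h4 : X' * X = Y') (h5 : Y * X = 0) (h6 : Y * X' = 0) (h7 : Y' * X' = 0) :
    (1 + X) * (1 + X') * (1 - X) * (1 - X') = 1 + Y - Y' := by
  have e1 : (1 + X) * (1 + X') = 1 + X + X' + Y := by rw [← h3]; noncomm_ring
  have e2 : (1 + X + X' + Y) * (1 - X) = 1 + X' + Y - Y' := by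
    have : (1 + X + X' + Y) * (1 - X) = 1 + X' + Y - X * X - X' * X - Y * X := by noncomm_ring
    rw [this, h1, h4, h5]; abel
  have e3 : (1 + X' + Y - Y') * (1 - X') = 1 + Y - Y' := by
    have : (1 + X' + Y - Y') * (1 - X') = 1 + Y - Y' - X' * X' - Y * X' + Y' * X' := by
      noncomm_ring
    rw [this, h2, h6, h7]; abel
  rw [e1, e2, e3]

theorem gma_adj_add (J₁ : Matrix (Fin a) (Fin a) F) (A A' : Matrix (Fin a) (Fin a) F) :
    adj J₁ (A + A') = adj J₁ A + adj J₁ A' := by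
  simp only [adj, Matrix.transpose_add, Matrix.mul_add, Matrix.add_mul]

theorem gma_adj_neg (J₁ : Matrix (Fin a) (Fin a) F) (A : Matrix (Fin a) (Fin a) F) :
    adj J₁ (-A) = - adj J₁ A := by
  simp only [adj, Matrix.transpose_neg, Matrix.mul_neg, Matrix.neg_mul]

/-- the action of `A ⊗ rk x y` on an arbitrary vector -/
theorem gma_kron_rk_mulVec (A : Matrix (Fin a) (Fin a) F) (J₂ : Matrix (Fin b) (Fin b) F)
    (x y : Fin b → F) (v : Fin a × Fin b → F) :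
    (A ⊗ₖ rk J₂ x y) *ᵥ v = pt (A *ᵥ cnt J₂ y v) x := by
  funext ⟨i, k⟩
  rw [show cnt J₂ y v = fun i => ∑ k, (J₂ *ᵥ y) k * v (i, k) from rfl]
  simp only [rk, pt]
  generalize J₂ *ᵥ y = β
  simp only [Matrix.mulVec, dotProduct, Matrix.kroneckerMap_apply, Matrix.vecMulVec_apply,
    Fintype.sum_prod_type, Finset.sum_mul, Finset.mul_sum]
  refine Finset.sum_congr rfl fun j _ => Finset.sum_congr rfl fun l _ => ?_
  ring

theorem gma_neg_kron (A : Matrix (Fin a) (Fin a) F) (B : Matrix (Fin b) (Fin b) F) :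
    (-A) ⊗ₖ B = -(A ⊗ₖ B) := by
  ext ⟨i, k⟩ ⟨j, l⟩
  simp [Matrix.kroneckerMap_apply]

theorem gma_one_add_mul {R : Type*} [Ring R] (X X' : R) :
    (1 + X) * (1 + X') = 1 + X + X' + X * X' := by noncomm_ring

variable {J₁ : Matrix (Fin a) (Fin a) F} {J₂ : Matrix (Fin b) (Fin b) F}
  {Q : (Fin a × Fin b → F) → F}

/-- `Gm = 1 + X` -/
theorem gma_gm_eq (d w : Fin b → F) (A S : Matrix (Fin a) (Fin a) F) :
    Gm J₁ J₂ d w A S
      = 1 + (A ⊗ₖ rk J₂ w d + adj J₁ A ⊗ₖ rk J₂ d w + S ⊗ₖ rk J₂ d d) := by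
  rw [Gm]; abel

theorem gma_gm_neg (d w : Fin b → F) (A S : Matrix (Fin a) (Fin a) F) :
    Gm J₁ J₂ d w (-A) (-S)
      = 1 - (A ⊗ₖ rk J₂ w d + adj J₁ A ⊗ₖ rk J₂ d w + S ⊗ₖ rk J₂ d d) := by
  rw [Gm, gma_adj_neg]
  simp only [gma_neg_kron]
  abel

/-- the product of two "`X`-parts" -/
theorem gma_X_mul (hT : TQ J₁ J₂ Q) (d w w' : Fin b → F) (hwd : bf J₂ w d = 0)
    (hwd' : bf J₂ w' d = 0) (A A' S S' B B' : Matrix (Fin a) (Fin a) F) :
    (A ⊗ₖ rk J₂ w d + B ⊗ₖ rk J₂ d w + S ⊗ₖ rk J₂ d d)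
      * (A' ⊗ₖ rk J₂ w' d + B' ⊗ₖ rk J₂ d w' + S' ⊗ₖ rk J₂ d d)
      = (bf J₂ w' w • (B * A')) ⊗ₖ rk J₂ d d := by
  have hdw : bf J₂ d w = 0 := by rw [bf_swap J₂ hT.alt₂, hwd, neg_zero]
  have hdw' : bf J₂ d w' = 0 := by rw [bf_swap J₂ hT.alt₂, hwd', neg_zero]
  have hdd := hT.alt₂ d
  simp only [mul_add, add_mul, ← Matrix.mul_kronecker_mul, rk_mul_rk, hdw, hdw', hdd, hwd, hwd',
    zero_smul, Matrix.kronecker_zero, add_zero, zero_add, Matrix.kronecker_smul,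
    Matrix.smul_kronecker]

/-- a "`Y`-part" kills an "`X`-part" on the right -/
theorem gma_Y_mul (hT : TQ J₁ J₂ Q) (d w : Fin b → F) (hwd : bf J₂ w d = 0)
    (C A S B : Matrix (Fin a) (Fin a) F) :
    (C ⊗ₖ rk J₂ d d) * (A ⊗ₖ rk J₂ w d + B ⊗ₖ rk J₂ d w + S ⊗ₖ rk J₂ d d) = 0 := by
  have hdw : bf J₂ d w = 0 := by rw [bf_swap J₂ hT.alt₂, hwd, neg_zero]
  have hdd := hT.alt₂ d
  simp only [mul_add, ← Matrix.mul_kronecker_mul, rk_mul_rk, hdw, hdd, hwd,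
    zero_smul, Matrix.kronecker_zero, add_zero]

/-- PIECE GMA (1/3) -/
theorem gm_mul (hT : TQ J₁ J₂ Q) (d w : Fin b → F) (hwd : bf J₂ w d = 0)
    (A A' S S' : Matrix (Fin a) (Fin a) F) :
    Gm J₁ J₂ d w A S * Gm J₁ J₂ d w A' S' = Gm J₁ J₂ d w (A + A') (S + S') := by
  have hww := hT.alt₂ w
  rw [gma_gm_eq, gma_gm_eq, gma_gm_eq, gma_adj_add]
  have h := gma_X_mul hT d w w hwd hwd A A' S S' (adj J₁ A) (adj J₁ A')
  rw [hww, zero_smul, Matrix.zero_kronecker] at h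
  rw [gma_one_add_mul, h]
  simp only [Matrix.add_kronecker]
  abel

/-- PIECE GMA (2/3) -/
theorem gm_comm (hT : TQ J₁ J₂ Q) (d w w' : Fin b → F) (hwd : bf J₂ w d = 0)
    (hwd' : bf J₂ w' d = 0) (A A' S S' : Matrix (Fin a) (Fin a) F) :
    Gm J₁ J₂ d w A S * Gm J₁ J₂ d w' A' S' * Gm J₁ J₂ d w (-A) (-S) * Gm J₁ J₂ d w' (-A') (-S')
      = 1 + (bf J₂ w' w • (adj J₁ A * A' + adj J₁ A' * A)) ⊗ₖ rk J₂ d d := by
  have hww := hT.alt₂ w
  have hww' := hT.alt₂ w'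
  have hsw : bf J₂ w w' = - bf J₂ w' w := bf_swap J₂ hT.alt₂ w w'
  rw [gma_gm_eq, gma_gm_eq, gma_gm_neg, gma_gm_neg]
  have h1 := gma_X_mul hT d w w hwd hwd A A S S (adj J₁ A) (adj J₁ A)
  rw [hww, zero_smul, Matrix.zero_kronecker] at h1
  have h2 := gma_X_mul hT d w' w' hwd' hwd' A' A' S' S' (adj J₁ A') (adj J₁ A')
  rw [hww', zero_smul, Matrix.zero_kronecker] at h2
  have h3 := gma_X_mul hT d w w' hwd hwd' A A' S S' (adj J₁ A) (adj J₁ A')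
  have h4 := gma_X_mul hT d w' w hwd' hwd A' A S' S (adj J₁ A') (adj J₁ A)
  have h5 := gma_Y_mul hT d w hwd (bf J₂ w' w • (adj J₁ A * A')) A S (adj J₁ A)
  have h6 := gma_Y_mul hT d w' hwd' (bf J₂ w' w • (adj J₁ A * A')) A' S' (adj J₁ A')
  have h7 := gma_Y_mul hT d w' hwd' (bf J₂ w w' • (adj J₁ A' * A)) A' S' (adj J₁ A')
  rw [gma_comm_aux _ _ _ _ h1 h2 h3 h4 h5 h6 h7, hsw]
  simp only [smul_add, Matrix.add_kronecker, neg_smul, gma_neg_kron]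
  abel

/-- the action of `Gm - 1` on an arbitrary vector -/
theorem gma_gm_sub_one_mulVec (d w : Fin b → F) (A S : Matrix (Fin a) (Fin a) F)
    (v : Fin a × Fin b → F) :
    (Gm J₁ J₂ d w A S - 1) *ᵥ v
      = pt (A *ᵥ cnt J₂ d v) w + pt (adj J₁ A *ᵥ cnt J₂ w v) d + pt (S *ᵥ cnt J₂ d v) d := by
  rw [gma_gm_eq, add_sub_cancel_left, Matrix.add_mulVec, Matrix.add_mulVec, gma_kron_rk_mulVec,
    gma_kron_rk_mulVec, gma_kron_rk_mulVec]

/-- PIECE GMA (3/3) -/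
theorem gm_inU (hT : TQ J₁ J₂ Q) (d w : Fin b → F) (hwd : bf J₂ w d = 0)
    (A S : Matrix (Fin a) (Fin a) F) : InU J₂ d (Gm J₁ J₂ d w A S - 1) := by
  have hdw : bf J₂ d w = 0 := by rw [bf_swap J₂ hT.alt₂, hwd, neg_zero]
  have hdd := hT.alt₂ d
  refine ⟨fun u => ?_, fun v => ?_, fun v hv => ?_⟩
  · rw [gma_gm_sub_one_mulVec, cnt_pt, cnt_pt, hdd, hdw]
    simp only [zero_smul, Matrix.mulVec_zero, pt_zero_left, add_zero]
  · rw [gma_gm_sub_one_mulVec, cnt_add, cnt_add, cnt_pt, cnt_pt, cnt_pt, hwd, hdd]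
    simp only [zero_smul, add_zero]
  · refine ⟨adj J₁ A *ᵥ cnt J₂ w v, ?_⟩
    rw [gma_gm_sub_one_mulVec, hv]
    simp only [Matrix.mulVec_zero, pt_zero_left, add_zero, zero_add]

end Cfsg.Agent.Helper29.T5GMA
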