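import Mathlib
import Cfsg.Prelude.Def_GeometricClasses
import Cfsg.Agent.Helper71.T4Defs
import Cfsg.Agent.Helper96.T5Defs

/-!
# S5704 piece L6B (CALL by helper96): an element `1 + dm x y ⊗ (rk w d + rk d w + β rk d d)`
of `M` (with the root elements in `M`, `b ≥ 5`) contradicts (NSU).
-/

set_option autoImplicit false
set_option linter.unusedVariables false

namespace Cfsg.Agent.Helper29.T5L6B

open Matrix Cfsg Cfsg.Geo Cfsg.Agent.Helper71.T4 Cfsg.Agent.Helper96.T5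
open scoped Kronecker

variable {F : Type*} [Field F] {a b : ℕ}

section gen

variable {n : ℕ}

theorem l6b_ext (M N : Matrix (Fin n) (Fin n) F) (h : ∀ v, M *ᵥ v = N *ᵥ v) : M = N := by
  apply Matrix.toLin'.injective
  apply LinearMap.ext
  intro v
  rw [Matrix.toLin'_apply, Matrix.toLin'_apply]
  exact h v

theorem l6b_bf_tv (J : Matrix (Fin n) (Fin n) F) (halt : ∀ x, bf J x x = 0) (z : Fin n → F)
    (c : F) (v y : Fin n → F) :
    bf J (tv J z (-c) *ᵥ v) y = bf J v (tv J z c *ᵥ y) := by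
  rw [tv_mulVec, tv_mulVec, bf_add_left, bf_add_right, bf_smul_left, bf_smul_right,
    bf_swap J halt z y]
  ring

theorem l6b_tv_conj_rk (J : Matrix (Fin n) (Fin n) F) (halt : ∀ x, bf J x x = 0) (z : Fin n → F)
    (c : F) (x y : Fin n → F) :
    tv J z c * rk J x y * tv J z (-c) = rk J (tv J z c *ᵥ x) (tv J z c *ᵥ y) := by
  apply l6b_ext
  intro v
  rw [← Matrix.mulVec_mulVec, ← Matrix.mulVec_mulVec, rk_mulVec, rk_mulVec, Matrix.mulVec_smul,
    l6b_bf_tv J halt]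

theorem l6b_tv_inv (J : Matrix (Fin n) (Fin n) F) (halt : ∀ x, bf J x x = 0) (z : Fin n → F)
    (c : F) : tv J z c * tv J z (-c) = 1 := by
  rw [tv, tv, add_mul, mul_add, mul_add, one_mul, mul_one, one_mul, Matrix.smul_mul,
    Matrix.mul_smul, rk_mul_rk, halt, zero_smul]
  simp

theorem l6b_conj_nu (J : Matrix (Fin n) (Fin n) F) (halt : ∀ x, bf J x x = 0) (z : Fin n → F)
    (c : F) (p q : Fin n → F) (β : F) :
    tv J z c * (rk J p q + rk J q p + β • rk J q q) * tv J z (-c)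
      = rk J (tv J z c *ᵥ p) (tv J z c *ᵥ q) + rk J (tv J z c *ᵥ q) (tv J z c *ᵥ p)
        + β • rk J (tv J z c *ᵥ q) (tv J z c *ᵥ q) := by
  rw [mul_add, mul_add, add_mul, add_mul, Matrix.mul_smul, Matrix.smul_mul,
    l6b_tv_conj_rk J halt, l6b_tv_conj_rk J halt, l6b_tv_conj_rk J halt]

theorem l6b_conj_dm (J : Matrix (Fin n) (Fin n) F) (halt : ∀ x, bf J x x = 0) (z : Fin n → F)
    (c : F) (p q : Fin n → F) :
    tv J z c * dm J p q * tv J z (-c) = dm J (tv J z c *ᵥ p) (tv J z c *ᵥ q) := by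
  rw [dm, dm, mul_sub, sub_mul, l6b_tv_conj_rk J halt, l6b_tv_conj_rk J halt]

theorem l6b_dm_add_right (J : Matrix (Fin n) (Fin n) F) (x y e : Fin n → F) :
    dm J x (y + e) = dm J x y + dm J x e := by
  apply l6b_ext
  intro v
  rw [Matrix.add_mulVec, dm_mulVec, dm_mulVec, dm_mulVec, bf_add_right]
  module

theorem l6b_dm_mul_dm (J : Matrix (Fin n) (Fin n) F) (p q r s : Fin n → F) :
    dm J p q * dm J r s
      = bf J r q • rk J p s - bf J s q • rk J p r - bf J r p • rk J q s + bf J s p • rk J q r := by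
  rw [dm, dm, sub_mul, mul_sub, mul_sub, rk_mul_rk, rk_mul_rk, rk_mul_rk, rk_mul_rk]
  abel

theorem l6b_rk_mul_dm (J : Matrix (Fin n) (Fin n) F) (p q r s : Fin n → F) :
    rk J p q * dm J r s = bf J r q • rk J p s - bf J s q • rk J p r := by
  rw [dm, mul_sub, rk_mul_rk, rk_mul_rk]

theorem l6b_nu_mulVec (J : Matrix (Fin n) (Fin n) F) (p q : Fin n → F) (β : F) (v : Fin n → F) :
    (rk J p q + rk J q p + β • rk J q q) *ᵥ v
      = bf J v q • p + bf J v p • q + (β * bf J v q) • q := by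
  rw [Matrix.add_mulVec, Matrix.add_mulVec, Matrix.smul_mulVec, rk_mulVec, rk_mulVec, rk_mulVec,
    smul_smul]

/-- independent vectors are separated by the form -/
theorem l6b_exists_perp_one (J : Matrix (Fin n) (Fin n) F) (hdet : J.det ≠ 0) (x y : Fin n → F)
    (hind : ∀ c : F, y ≠ c • x) : ∃ e, bf J x e = 0 ∧ bf J y e = 1 := by
  by_contra hcon
  push Not at hcon
  have h0 : ∀ e, bf J x e = 0 → bf J y e = 0 := by
    intro e he
    by_contra hne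
    exact hcon ((bf J y e)⁻¹ • e) (by rw [bf_smul_right, he, mul_zero])
      (by rw [bf_smul_right, inv_mul_cancel₀ hne])
  by_cases hx : x = 0
  · have hy : y = 0 := by
      by_contra hy
      obtain ⟨e, he⟩ := exists_bf_eq_one J hdet y hy
      have h1 := h0 e (by rw [hx, bf_zero_left])
      rw [he] at h1
      exact one_ne_zero h1
    exact hind 0 (by rw [hy, zero_smul])
  · obtain ⟨e₁, he₁⟩ := exists_bf_eq_one J hdet x hx
    apply hind (bf J y e₁)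
    by_contra hne
    have hne' : y - bf J y e₁ • x ≠ 0 := fun h => hne (sub_eq_zero.1 h)
    obtain ⟨e, he⟩ := exists_bf_eq_one J hdet _ hne'
    rw [bf_sub_left, bf_smul_left] at he
    have h1 := h0 (e - bf J x e • e₁) (by rw [bf_sub_right, bf_smul_right, he₁, mul_one, sub_self])
    rw [bf_sub_right, bf_smul_right] at h1
    have h2 : (1 : F) = 0 := by linear_combination h1 - he
    exact one_ne_zero h2

/-- in dimension at least 5 there is a non-zero vector orthogonal to four given ones -/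
theorem l6b_exists_perp4 (hn : 5 ≤ n) (v₁ v₂ v₃ v₄ : Fin n → F) :
    ∃ β : Fin n → F, β ≠ 0 ∧ β ⬝ᵥ v₁ = 0 ∧ β ⬝ᵥ v₂ = 0 ∧ β ⬝ᵥ v₃ = 0 ∧ β ⬝ᵥ v₄ = 0 := by
  let f : (Fin n → F) →ₗ[F] (Fin 4 → F) :=
    { toFun := fun β => ![β ⬝ᵥ v₁, β ⬝ᵥ v₂, β ⬝ᵥ v₃, β ⬝ᵥ v₄]
      map_add' := by
        intro x y
        ext i
        fin_cases i <;> simp [add_dotProduct]
      map_smul' := by
        intro c x
        ext i
        fin_cases i <;> simp [smul_dotProduct] }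
  have hk : LinearMap.ker f ≠ ⊥ := by
    apply LinearMap.ker_ne_bot_of_finrank_lt
    simp only [Module.finrank_pi, Fintype.card_fin]
    omega
  obtain ⟨β, hβ, hβ0⟩ := (Submodule.ne_bot_iff _).1 hk
  refine ⟨β, hβ0, ?_, ?_, ?_, ?_⟩
  · have := congrFun (LinearMap.mem_ker.1 hβ) 0
    simpa [f] using this
  · have := congrFun (LinearMap.mem_ker.1 hβ) 1
    simpa [f] using this
  · have := congrFun (LinearMap.mem_ker.1 hβ) 2
    simpa [f] using this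
  · have := congrFun (LinearMap.mem_ker.1 hβ) 3
    simpa [f] using this

end gen

/-- a commutator identity in a ring -/
theorem l6b_comm_aux {R : Type*} [Ring R] (P P' : R) (h1 : P * P = 0) (h2 : P' * P' = 0)
    (h3 : P * P' * P = 0) (h4 : P' * P * P' = 0) :
    (1 + P) * (1 + P') * (1 - P) * (1 - P') = 1 + P * P' - P' * P := by
  have key : (1 + P) * (1 + P') * (1 - P) * (1 - P')
      = 1 + P * P' - P' * P - P * P - P * P' * P - P' * P' - P * (P' * P') + (P * P) * P'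
        + P' * P * P' + (P * P' * P) * P' := by noncomm_ring
  rw [key, h1, h2, h3, h4]
  simp

theorem l6b_one_add_mul_one_sub {R : Type*} [Ring R] (P : R) (h1 : P * P = 0) :
    (1 + P) * (1 - P) = 1 := by
  have key : (1 + P) * (1 - P) = 1 - P * P := by noncomm_ring
  rw [key, h1, sub_zero]

theorem l6b_neg_kron (A : Matrix (Fin a) (Fin a) F) (B : Matrix (Fin b) (Fin b) F) :
    (-A) ⊗ₖ B = -(A ⊗ₖ B) := by
  ext ⟨i, k⟩ ⟨j, l⟩
  simp [Matrix.kroneckerMap_apply]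

/-- conjugating `1 + D ⊗ ν` by a Kronecker product -/
theorem l6b_conj (A A' D : Matrix (Fin a) (Fin a) F) (B B' ν : Matrix (Fin b) (Fin b) F)
    (hA : A * A' = 1) (hB : B * B' = 1) :
    (A ⊗ₖ B) * (1 + D ⊗ₖ ν) * (A' ⊗ₖ B') = 1 + (A * D * A') ⊗ₖ (B * ν * B') := by
  rw [mul_add, add_mul, mul_one, ← Matrix.mul_kronecker_mul, ← Matrix.mul_kronecker_mul,
    ← Matrix.mul_kronecker_mul, hA, hB, Matrix.one_kronecker_one]

variable {J₁ : Matrix (Fin a) (Fin a) F} {J₂ : Matrix (Fin b) (Fin b) F}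
  {Q : (Fin a × Fin b → F) → F}

/-- PIECE L6B -/
theorem l6b (hT : TQ J₁ J₂ Q) (hb : 5 ≤ b) (h2 : (2 : F) = 0)
    (M : Subgroup (GL (Fin a × Fin b) F)) (hR : HasR J₁ J₂ M) (d w : Fin b → F) (hd : d ≠ 0)
    (hwd : bf J₂ w d = 0) (hind : ∀ c : F, w ≠ c • d) (x y : Fin a → F) (hx : x ≠ 0)
    (hind' : ∀ c : F, y ≠ c • x) (hxy : bf J₁ x y = 0) (β : F)
    (h : InM M (1 + dm J₁ x y ⊗ₖ (rk J₂ w d + rk J₂ d w + β • rk J₂ d d))) :
    ¬ NSU J₁ M := by
  intro hNSU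
  have sw₁ := bf_swap J₁ hT.alt₁
  have sw₂ := bf_swap J₂ hT.alt₂
  -- the vectors
  obtain ⟨e, hxe, hye⟩ := l6b_exists_perp_one J₁ hT.det₁ x y hind'
  have hind2 : ∀ c : F, d ≠ c • w := by
    intro c hc
    by_cases hc0 : c = 0
    · rw [hc0, zero_smul] at hc
      exact hd hc
    · exact hind c⁻¹ (by rw [hc, smul_smul, inv_mul_cancel₀ hc0, one_smul])
  obtain ⟨d', hwd'0, hdd'⟩ := l6b_exists_perp_one J₂ hT.det₂ w d hind2
  obtain ⟨w₀, hdw₀, hww₀⟩ := l6b_exists_perp_one J₂ hT.det₂ d w hind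
  have hd'd : bf J₂ d' d = -1 := by rw [sw₂, hdd']
  have hdw : bf J₂ d w = 0 := by rw [sw₂, hwd, neg_zero]
  have hd'w : bf J₂ d' w = 0 := by rw [sw₂, hwd'0, neg_zero]
  obtain ⟨w', hw'⟩ : ∃ w', w' = w₀ + bf J₂ d' w₀ • d := ⟨_, rfl⟩
  have hdw' : bf J₂ d w' = 0 := by
    rw [hw', bf_add_right, bf_smul_right, hdw₀, hT.alt₂ d, mul_zero, add_zero]
  have hww' : bf J₂ w w' = 1 := by
    rw [hw', bf_add_right, bf_smul_right, hww₀, hwd, mul_zero, add_zero]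
  have hd'w' : bf J₂ d' w' = 0 := by
    rw [hw', bf_add_right, bf_smul_right, hd'd]
    ring
  have hw'd : bf J₂ w' d = 0 := by rw [sw₂, hdw', neg_zero]
  have hw'w : bf J₂ w' w = -1 := by rw [sw₂, hww']
  have hw'd' : bf J₂ w' d' = 0 := by rw [sw₂, hd'w', neg_zero]
  have hex : bf J₁ e x = 0 := by rw [sw₁, hxe, neg_zero]
  have hey : bf J₁ e y = -1 := by rw [sw₁, hye]
  have hyx : bf J₁ y x = 0 := by rw [sw₁, hxy, neg_zero]
  -- the matrices
  obtain ⟨D, hD⟩ : ∃ D, D = dm J₁ x y := ⟨_, rfl⟩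
  obtain ⟨E, hE⟩ : ∃ E, E = dm J₁ x e := ⟨_, rfl⟩
  obtain ⟨τ, hτ⟩ : ∃ τ, τ = rk J₁ x x := ⟨_, rfl⟩
  obtain ⟨ν, hν⟩ : ∃ ν, ν = rk J₂ w d + rk J₂ d w + β • rk J₂ d d := ⟨_, rfl⟩
  obtain ⟨ν', hν'⟩ : ∃ ν', ν' = rk J₂ w' d' + rk J₂ d' w' + β • rk J₂ d' d' := ⟨_, rfl⟩
  have hDD : D * D = 0 := by
    rw [hD, l6b_dm_mul_dm, hxy, hT.alt₁, hT.alt₁, hyx]
    simp
  have hDE : D * E = τ := by
    rw [hD, hE, l6b_dm_mul_dm, hxy, hT.alt₁, hey, hex, hτ]
    simp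
  have hED : E * D = -τ := by
    rw [hD, hE, l6b_dm_mul_dm, hxe, hT.alt₁, hye, hyx, hτ]
    simp
  have hEE : E * E = 0 := by
    rw [hE, l6b_dm_mul_dm, hxe, hT.alt₁, hT.alt₁, hex]
    simp
  have hτD : τ * D = 0 := by
    rw [hτ, hD, l6b_rk_mul_dm, hT.alt₁, hyx]
    simp
  have hτE : τ * E = 0 := by
    rw [hτ, hE, l6b_rk_mul_dm, hT.alt₁, hex]
    simp
  rw [← hD, ← hν] at h
  -- `g₂ ∈ M`
  have hB2d : tv J₂ (d - d') 1 *ᵥ d = d' := by
    rw [tv_mulVec, bf_sub_right, hT.alt₂ d, hdd']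
    module
  have hB2w : tv J₂ (d - d') 1 *ᵥ w = w := by
    rw [tv_mulVec, bf_sub_right, hwd, hwd'0]
    module
  have hB1w : tv J₂ (w - w') 1 *ᵥ w = w' := by
    rw [tv_mulVec, bf_sub_right, hT.alt₂ w, hww']
    module
  have hB1d : tv J₂ (w - w') 1 *ᵥ d' = d' := by
    rw [tv_mulVec, bf_sub_right, hd'w, hd'w']
    module
  have htx : tv J₁ e 1 *ᵥ x = x := by
    rw [tv_mulVec, hxe]
    module
  have hty : tv J₁ e 1 *ᵥ y = y + e := by
    rw [tv_mulVec, hye]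
    module
  have hA : InM M (1 + D ⊗ₖ (rk J₂ w d' + rk J₂ d' w + β • rk J₂ d' d')) := by
    have h1 := ((hR.1 (d - d') 1).mul h).mul (hR.1 (d - d') (-1))
    rw [l6b_conj _ _ _ _ _ _ (one_mul 1) (l6b_tv_inv J₂ hT.alt₂ _ _), one_mul, mul_one, hν,
      l6b_conj_nu J₂ hT.alt₂, hB2d, hB2w] at h1
    exact h1
  have hB : InM M (1 + D ⊗ₖ ν') := by
    have h1 := ((hR.1 (w - w') 1).mul hA).mul (hR.1 (w - w') (-1))
    rw [l6b_conj _ _ _ _ _ _ (one_mul 1) (l6b_tv_inv J₂ hT.alt₂ _ _), one_mul, mul_one,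
      l6b_conj_nu J₂ hT.alt₂, hB1d, hB1w, ← hν'] at h1
    exact h1
  have hg2 : InM M (1 + (D + E) ⊗ₖ ν') := by
    have h1 := ((hR.2 e 1).mul hB).mul (hR.2 e (-1))
    rw [l6b_conj _ _ _ _ _ _ (l6b_tv_inv J₁ hT.alt₁ _ _) (one_mul 1), one_mul, mul_one, hD,
      l6b_conj_dm J₁ hT.alt₁, htx, hty, l6b_dm_add_right, ← hD, ← hE] at h1
    exact h1
  -- the commutator
  have hP1 : (D ⊗ₖ ν) * (D ⊗ₖ ν) = 0 := by
    rw [← Matrix.mul_kronecker_mul, hDD, Matrix.zero_kronecker]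
  have hDE2 : (D + E) * (D + E) = 0 := by
    rw [add_mul, mul_add, mul_add, hDD, hDE, hED, hEE]
    simp
  have hP2 : ((D + E) ⊗ₖ ν') * ((D + E) ⊗ₖ ν') = 0 := by
    rw [← Matrix.mul_kronecker_mul, hDE2, Matrix.zero_kronecker]
  have hP3 : (D ⊗ₖ ν) * ((D + E) ⊗ₖ ν') * (D ⊗ₖ ν) = 0 := by
    rw [← Matrix.mul_kronecker_mul, ← Matrix.mul_kronecker_mul]
    have h1 : D * (D + E) * D = 0 := by rw [mul_add, hDD, hDE, zero_add, hτD]
    rw [h1, Matrix.zero_kronecker]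
  have hP4 : ((D + E) ⊗ₖ ν') * (D ⊗ₖ ν) * ((D + E) ⊗ₖ ν') = 0 := by
    rw [← Matrix.mul_kronecker_mul, ← Matrix.mul_kronecker_mul]
    have h1 : (D + E) * D * (D + E) = 0 := by
      rw [add_mul, hDD, hED, zero_add, neg_mul, mul_add, hτD, hτE]
      simp
    rw [h1, Matrix.zero_kronecker]
  have hg1inv : InM M (1 - D ⊗ₖ ν) := h.inv (l6b_one_add_mul_one_sub _ hP1)
  have hg2inv : InM M (1 - (D + E) ⊗ₖ ν') := hg2.inv (l6b_one_add_mul_one_sub _ hP2)
  have hcomm := ((h.mul hg2).mul hg1inv).mul hg2inv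
  rw [l6b_comm_aux _ _ hP1 hP2 hP3 hP4] at hcomm
  have e1 : (D ⊗ₖ ν) * ((D + E) ⊗ₖ ν') = τ ⊗ₖ (ν * ν') := by
    rw [← Matrix.mul_kronecker_mul, mul_add, hDD, hDE, zero_add]
  have e2 : ((D + E) ⊗ₖ ν') * (D ⊗ₖ ν) = -(τ ⊗ₖ (ν' * ν)) := by
    rw [← Matrix.mul_kronecker_mul, add_mul, hDD, hED, zero_add, l6b_neg_kron]
  rw [e1, e2, sub_neg_eq_add, add_assoc, ← Matrix.kronecker_add, hτ] at hcomm
  obtain ⟨c, hc⟩ := hNSU _ x hx hcomm
  -- `N` kills a non-zero vector, so `c = 0`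
  obtain ⟨v₀, hv₀, p1, p2, p3, p4⟩ := l6b_exists_perp4 hb (J₂ *ᵥ d) (J₂ *ᵥ w) (J₂ *ᵥ d')
    (J₂ *ᵥ w')
  have q1 : bf J₂ v₀ d = 0 := p1
  have q2 : bf J₂ v₀ w = 0 := p2
  have q3 : bf J₂ v₀ d' = 0 := p3
  have q4 : bf J₂ v₀ w' = 0 := p4
  have hνv : ν *ᵥ v₀ = 0 := by
    rw [hν, l6b_nu_mulVec, q1, q2]
    simp
  have hν'v : ν' *ᵥ v₀ = 0 := by
    rw [hν', l6b_nu_mulVec, q3, q4]
    simp
  have hc0 : c = 0 := by
    have h1 : (ν * ν' + ν' * ν) *ᵥ v₀ = 0 := by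
      rw [Matrix.add_mulVec, ← Matrix.mulVec_mulVec, ← Matrix.mulVec_mulVec, hνv, hν'v,
        Matrix.mulVec_zero, Matrix.mulVec_zero, add_zero]
    rw [hc, Matrix.smul_mulVec, Matrix.one_mulVec] at h1
    rcases smul_eq_zero.1 h1 with h3 | h3
    · exact h3
    · exact absurd h3 hv₀
  -- but `N d ≠ 0`
  have hνd : ν *ᵥ d = 0 := by
    rw [hν, l6b_nu_mulVec, hT.alt₂ d, hdw]
    simp
  have hν'd : ν' *ᵥ d = w' + β • d' := by
    rw [hν', l6b_nu_mulVec, hdd', hdw']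
    simp
  have hNd : (ν * ν' + ν' * ν) *ᵥ d = (-β) • w + (-1 : F) • d + (-(β * β)) • d := by
    rw [Matrix.add_mulVec, ← Matrix.mulVec_mulVec, ← Matrix.mulVec_mulVec, hνd, hν'd,
      Matrix.mulVec_zero, add_zero, hν, l6b_nu_mulVec, bf_add_left, bf_add_left, bf_smul_left,
      bf_smul_left, hw'd, hd'd, hw'w, hd'w]
    congr 2
    · congr 1
      ring
    · congr 1
      ring
    · congr 1
      ring
  rw [hc, hc0, zero_smul, Matrix.zero_mulVec] at hNd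
  by_cases hβ : β = 0
  · rw [hβ] at hNd
    apply hd
    funext i
    have hi := congrFun hNd i
    simp only [Pi.zero_apply, Pi.add_apply, Pi.smul_apply, smul_eq_mul] at hi
    simp only [Pi.zero_apply]
    linear_combination hi
  · apply hind (β⁻¹ * (-(1 + β * β)))
    funext i
    have hi := congrFun hNd i
    simp only [Pi.zero_apply, Pi.add_apply, Pi.smul_apply, smul_eq_mul] at hi
    simp only [Pi.smul_apply, smul_eq_mul]
    have e3 : β * w i = -(1 + β * β) * d i := by linear_combination hi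
    calc w i = β⁻¹ * (β * w i) := by rw [← mul_assoc, inv_mul_cancel₀ hβ, one_mul]
      _ = β⁻¹ * (-(1 + β * β)) * d i := by rw [e3]; ring

end Cfsg.Agent.Helper29.T5L6B
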