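import Mathlib
import Cfsg.Agent.Helper97.TMDefs
import Cfsg.Agent.Helper97.TMG5MV

/-!
# S2415 piece G5C (CALL by helper97): `(g5 a b i)^5 = 1` for `(a, b) = (1, -1)` in
characteristic `3`.
-/

set_option autoImplicit false

universe u

namespace Cfsg.Agent.Helper29

open Cfsg Matrix Cfsg.Agent.Helper45 Cfsg.Agent.Helper98 Cfsg.Agent.Helper97.TM
open Cfsg.Agent.Helper97

variable {k : ℕ} {F : Type u} [Field F]

/-- G5C -/
theorem tm_g5_pow_C [CharP F 3] (i : Fin k) : (g5 (k := k) (1 : F) (-1) i) ^ 5 = 1 := by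
  have hp : (3 : F) = 0 := by
    have h := CharP.cast_eq_zero F 3
    exact_mod_cast h
  apply ext_mv
  intro x
  rw [pow_succ, pow_succ, pow_succ, pow_succ, pow_one, mv_mul, mv_mul, mv_mul, mv_mul, mv_one]
  funext idx
  rcases idx with (j | j) | j
  · by_cases hj : j = i
    · subst hj
      simp only [tm_g5_ee, tm_g5_ff, tm_g5_z0, tm_g5_z1]
      linear_combination ((-30) * x (Sum.inl (Sum.inl j)) + (-48) * x (Sum.inl (Sum.inr j)) + (-172) * x (Sum.inr 0) + (124) * x (Sum.inr 1)) * hp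
    · simp only [tm_g5_ee_other _ _ _ _ hj]
  · by_cases hj : j = i
    · subst hj
      simp only [tm_g5_ee, tm_g5_ff, tm_g5_z0, tm_g5_z1]
      linear_combination ((48) * x (Sum.inl (Sum.inl j)) + (-30) * x (Sum.inl (Sum.inr j)) + (-124) * x (Sum.inr 0) + (48) * x (Sum.inr 1)) * hp
    · simp only [tm_g5_ff_other _ _ _ _ hj]
  · have hj : j = 0 ∨ j = 1 := by
      fin_cases j <;> simp
    rcases hj with rfl | rfl
    · simp only [tm_g5_ee, tm_g5_ff, tm_g5_z0, tm_g5_z1]
      linear_combination ((40) * x (Sum.inl (Sum.inl i)) + (-4) * x (Sum.inl (Sum.inr i)) + (-26) * x (Sum.inr 0) + (-8) * x (Sum.inr 1)) * hp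
    · simp only [tm_g5_ee, tm_g5_ff, tm_g5_z0, tm_g5_z1]
      linear_combination ((-4) * x (Sum.inl (Sum.inl i)) + (36) * x (Sum.inl (Sum.inr i)) + (136) * x (Sum.inr 0) + (-82) * x (Sum.inr 1)) * hp

end Cfsg.Agent.Helper29
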